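import Mathlib
import Cfsg.Prelude.Def_PLocal
import Cfsg.Agent.S0028
import Cfsg.Agent.S1324
import Cfsg.Agent.Lib.Helper5.Offender
import Cfsg.Agent.Lib.Helper5.PCore

set_option autoImplicit false

namespace Cfsg.Agent.Lib.Helper4.BO

open Cfsg
open scoped commutatorElement

variable {G : Type*} [Group G]

/-- The standing hypotheses: `H` acts faithfully on the elementary abelian `V`, `Q` is a normal `p'`-subgroup
of `H` containing its centralizer in `H`. -/
structure Setup (p : ℕ) (V H Q : Subgroup G) : Prop where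
  hV : IsElementaryAbelian p V
  hHV : H ≤ Subgroup.normalizer (V : Set G)
  hf : H ⊓ Subgroup.centralizer (V : Set G) = ⊥
  hQH : Q ≤ H
  hQn : H ≤ Subgroup.normalizer (Q : Set G)
  hQp : (Nat.card Q).Coprime p
  hCQ : H ⊓ Subgroup.centralizer (Q : Set G) ≤ Q

theorem setup_of [Finite G] {p : ℕ} [Fact p.Prime] {V H : Subgroup G}
    (hV : IsElementaryAbelian p V) (hHV : H ≤ Subgroup.normalizer (V : Set G))
    (hf : H ⊓ Subgroup.centralizer (V : Set G) = ⊥)
    (hS1 : Subgroup.centralizer (pPrimeCore p ↥H : Set ↥H) ≤ pPrimeCore p ↥H) :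
    Setup p V H ((pPrimeCore p ↥H).map H.subtype) := by
  refine ⟨hV, hHV, hf, Subgroup.map_subtype_le _, ?_, ?_, ?_⟩
  · intro h hh
    rw [Subgroup.mem_normalizer_iff]
    intro x
    constructor
    · rintro ⟨y, hy, rfl⟩
      exact ⟨⟨h, hh⟩ * y * ⟨h, hh⟩⁻¹, (pPrimeCore_normal p ↥H).conj_mem y hy _, rfl⟩
    · rintro ⟨y, hy, hyx⟩
      refine ⟨⟨h, hh⟩⁻¹ * y * ⟨h, hh⟩, ?_, ?_⟩
      · have := (pPrimeCore_normal p ↥H).conj_mem y hy (⟨h, hh⟩ : ↥H)⁻¹
        simpa using this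
      · have h1 : (y : G) = h * x * h⁻¹ := hyx
        simp only [Subgroup.subtype_apply, Subgroup.coe_mul, Subgroup.coe_inv, h1]
        group
  · rw [Subgroup.card_map_of_injective H.subtype_injective]
    exact Helper5.pPrimeCore_coprime
  · intro x hx
    obtain ⟨hxH, hxC⟩ := Subgroup.mem_inf.mp hx
    refine ⟨⟨x, hxH⟩, hS1 ?_, rfl⟩
    rw [Subgroup.mem_centralizer_iff]
    intro y hy
    apply Subtype.ext
    exact hxC y ⟨y, hy, rfl⟩

theorem commutator_le_of_le {H A B : Subgroup G} (hA : A ≤ H) (hB : B ≤ H) : ⁅A, B⁆ ≤ H := by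
  rw [Subgroup.commutator_le]
  intro a ha b hb
  rw [commutatorElement_def]
  exact H.mul_mem (H.mul_mem (H.mul_mem (hA ha) (hB hb)) (H.inv_mem (hA ha))) (H.inv_mem (hB hb))

theorem elemAb {p : ℕ} {V H A : Subgroup G} (hf : H ⊓ Subgroup.centralizer (V : Set G) = ⊥)
    (hAH : A ≤ H) (hA : IsBestOffenderOn p V A) : IsElementaryAbelian p A := by
  obtain ⟨_, h2, h3⟩ := hA
  have hc : ⁅A, A⁆ = ⊥ := by
    rw [eq_bot_iff, ← hf]
    exact le_inf (commutator_le_of_le hAH hAH) h2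
  have hcent := Subgroup.commutator_eq_bot_iff_le_centralizer.mp hc
  refine ⟨⟨⟨fun a b => Subtype.ext ?_⟩⟩, ?_⟩
  · exact hcent b.2 a.1 a.2
  · intro a ha
    have : a ^ p ∈ H ⊓ Subgroup.centralizer (V : Set G) := ⟨H.pow_mem (hAH ha) p, h3 a ha⟩
    rw [hf] at this
    exact Subgroup.mem_bot.mp this

theorem isPGroup_of_elemAb {p : ℕ} {A : Subgroup G} (hA : IsElementaryAbelian p A) : IsPGroup p A :=
  fun a => ⟨1, by rw [pow_one]; exact Subtype.ext (hA.2 a.1 a.2)⟩

theorem elemAb_mono {p : ℕ} {A B : Subgroup G} (hA : IsElementaryAbelian p A) (hBA : B ≤ A) :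
    IsElementaryAbelian p B :=
  ⟨Helper5.comm_of_le hBA hA.1, fun b hb => hA.2 b (hBA hb)⟩

theorem comm_of_elemAb {p : ℕ} {A : Subgroup G} (hA : IsElementaryAbelian p A) {a b : G}
    (ha : a ∈ A) (hb : b ∈ A) : a * b = b * a := by
  have := hA.1.is_comm.comm ⟨a, ha⟩ ⟨b, hb⟩
  exact congrArg Subtype.val this

theorem eq_bot_of_pgroup_le [Finite G] {p : ℕ} [Fact p.Prime] {A Q : Subgroup G} (hA : IsPGroup p A)
    (hQ : (Nat.card Q).Coprime p) (hAQ : A ≤ Q) : A = ⊥ := by
  obtain ⟨k, hk⟩ := hA.exists_card_eq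
  have h1 : Nat.card A ∣ Nat.card Q := Subgroup.card_dvd_of_le hAQ
  have h2 : (Nat.card A).Coprime p := Nat.Coprime.coprime_dvd_left h1 hQ
  rcases Nat.eq_zero_or_pos k with rfl | hk0
  · exact Subgroup.eq_bot_of_card_eq A (by simpa using hk)
  · exfalso
    rw [hk] at h2
    have : p ∣ p ^ k := dvd_pow_self p hk0.ne'
    have h3 := Nat.Coprime.eq_one_of_dvd h2.symm this
    exact (Fact.out : p.Prime).one_lt.ne' h3

/-- Existence of a hyperplane `A0` of `A` such that the given nontrivial `D ≤ A` acts nontrivially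
on `C_Q(A0)`. -/
theorem exists_hyper [Finite G] {p : ℕ} [Fact p.Prime] {V H Q A D : Subgroup G} (S : Setup p V H Q)
    (hAH : A ≤ H) (hA : IsElementaryAbelian p A) (hDA : D ≤ A) (hD1 : D ≠ ⊥) :
    ∃ A0 : Subgroup G, A0 ≤ A ∧ A0.relIndex A = p ∧
      ¬ D ≤ Subgroup.centralizer ((Q ⊓ Subgroup.centralizer (A0 : Set G) : Subgroup G) : Set G) := by
  by_contra hcon
  push Not at hcon
  apply hD1
  have hp := (Fact.out : p.Prime)
  have hDQ : D ≤ Subgroup.centralizer (Q : Set G) := by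
    obtain ⟨k, hk⟩ := (isPGroup_of_elemAb hA).exists_card_eq
    have hA1 : A ≠ ⊥ := fun h => hD1 (by rw [h] at hDA; exact le_bot_iff.mp hDA)
    have hk0 : k ≠ 0 := by
      rintro rfl
      exact hA1 (Subgroup.eq_bot_of_card_eq A (by simpa using hk))
    by_cases hk1 : k = 1
    · have h1 := hcon ⊥ bot_le (by rw [Subgroup.relIndex_bot_left, hk, hk1, pow_one])
      refine h1.trans (Subgroup.centralizer_le ?_)
      intro x hx
      refine Subgroup.mem_inf.mpr ⟨hx, ?_⟩
      rw [Subgroup.mem_centralizer_iff]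
      intro h hh
      rw [Subgroup.mem_bot.mp hh]; simp
    · have hA2 : p ^ 2 ≤ Nat.card A := by
        rw [hk]; exact Nat.pow_le_pow_right hp.pos (by omega)
      have hX : ¬ p ∣ Nat.card Q := fun h =>
        hp.one_lt.ne' (Nat.Coprime.eq_one_of_dvd S.hQp.symm h)
      have h := Cfsg.Agent.S1324.result p A Q hA hA2 hX (hAH.trans S.hQn)
      rw [Subgroup.le_centralizer_iff, h]
      apply iSup_le
      rintro ⟨B, hBA, hBp⟩
      have hdvd : B.relIndex A ∣ p ^ k := hk ▸ Subgroup.relIndex_dvd_card B A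
      obtain ⟨j, hj, hjeq⟩ := (Nat.dvd_prime_pow hp).mp hdvd
      have hj1 : j ≤ 1 := by
        by_contra hlt
        have : p ^ 2 ≤ p ^ j := Nat.pow_le_pow_right hp.pos (by omega)
        have h2 : p < p ^ 2 := by nlinarith [hp.one_lt]
        omega
      interval_cases j
      · have hAB : A ≤ B := Subgroup.relIndex_eq_one.mp (by simpa using hjeq)
        exact inf_le_right.trans (Subgroup.centralizer_le (hDA.trans hAB))
      · exact Subgroup.le_centralizer_iff.mp (hcon B hBA (by simpa using hjeq))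
  exact eq_bot_of_pgroup_le (isPGroup_of_elemAb (elemAb_mono hA hDA)) S.hQp
    ((le_inf (hDA.trans hAH) hDQ).trans S.hCQ)

/-- If `A` acts nontrivially on `C_Q(A0)`, then `A` does not centralize `C_V(A0)`. -/
theorem not_CV_le [Finite G] {p : ℕ} [Fact p.Prime] {V H Q A A0 : Subgroup G} (S : Setup p V H Q)
    (hAH : A ≤ H) (hA : IsElementaryAbelian p A) (hA0 : A0 ≤ A)
    (hne : ¬ A ≤ Subgroup.centralizer ((Q ⊓ Subgroup.centralizer (A0 : Set G) : Subgroup G) : Set G)) :
    ¬ V ⊓ Subgroup.centralizer (A0 : Set G) ≤ Subgroup.centralizer (A : Set G) := by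
  intro hU
  apply hne
  obtain ⟨D, hD⟩ : ∃ D, D = Q ⊓ Subgroup.centralizer (A0 : Set G) := ⟨_, rfl⟩
  rw [← hD]
  have hDQ : D ≤ Q := hD ▸ inf_le_left
  have hDC : D ≤ Subgroup.centralizer (A0 : Set G) := hD ▸ inf_le_right
  have hDH : D ≤ H := hDQ.trans S.hQH
  -- `A` normalizes `D`
  have hconj : ∀ a ∈ A, ∀ d ∈ D, a * d * a⁻¹ ∈ D := by
    intro a ha d hd
    rw [hD]
    refine Subgroup.mem_inf.mpr ⟨Helper5.conj_mem_of_le_normalizer (hAH.trans S.hQn) ha (hDQ hd), ?_⟩
    rw [Subgroup.mem_centralizer_iff]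
    intro x hx
    have h1 : x * a = a * x := comm_of_elemAb hA (hA0 hx) ha
    have h2 : x * d = d * x := hDC hd x hx
    have h3 : x * a⁻¹ = a⁻¹ * x := by
      calc x * a⁻¹ = a⁻¹ * (a * x) * a⁻¹ := by group
        _ = a⁻¹ * (x * a) * a⁻¹ := by rw [h1]
        _ = a⁻¹ * x := by group
    calc x * (a * d * a⁻¹) = (x * a) * d * a⁻¹ := by group
      _ = a * (x * d) * a⁻¹ := by rw [h1]; group
      _ = a * d * (x * a⁻¹) := by rw [h2]; group
      _ = a * d * a⁻¹ * x := by rw [h3]; group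
  have hcD : ⁅D, A⁆ ≤ D := by
    rw [Subgroup.commutator_le]
    intro d hd a ha
    have : ⁅d, a⁆ = d * (a * d⁻¹ * a⁻¹) := by rw [commutatorElement_def]; group
    rw [this]
    exact D.mul_mem hd (hconj a ha _ (D.inv_mem hd))
  have hbot : ⁅D, A⁆ = ⊥ := by
    rw [eq_bot_iff, ← S.hf]
    refine le_inf (commutator_le_of_le hDH hAH) ?_
    refine Cfsg.Agent.S0028.result p A0 ⁅D, A⁆ V (isPGroup_of_elemAb (elemAb_mono hA hA0)) ?_
      (isPGroup_of_elemAb S.hV) ?_ ((hA0.trans hAH).trans S.hHV)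
      ((commutator_le_of_le hDH hAH).trans S.hHV) ?_
    · exact Nat.Coprime.coprime_dvd_left (Subgroup.card_dvd_of_le (hcD.trans hDQ)) S.hQp
    · exact Subgroup.le_centralizer_iff.mp (hcD.trans hDC)
    · rw [Subgroup.le_centralizer_iff, Subgroup.commutator_le]
      intro d hd a ha
      rw [Subgroup.mem_centralizer_iff]
      intro u hu
      have huV : u ∈ V := hu.1
      have huC : u ∈ Subgroup.centralizer (A0 : Set G) := hu.2
      have h1 : a * u = u * a := (hU hu a ha)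
      have hu' : d⁻¹ * u * d ∈ V ⊓ Subgroup.centralizer (A0 : Set G) := by
        refine ⟨?_, ?_⟩
        · have := Helper5.conj_mem_of_le_normalizer (hDH.trans S.hHV) (D.inv_mem hd) huV
          simpa using this
        · exact Subgroup.mul_mem _ (Subgroup.mul_mem _ (Subgroup.inv_mem _ (hDC hd)) huC) (hDC hd)
      have h2 : a * (d⁻¹ * u * d) = (d⁻¹ * u * d) * a := hU hu' a ha
      have h3 : a⁻¹ * u = u * a⁻¹ := by
        calc a⁻¹ * u = a⁻¹ * (u * a) * a⁻¹ := by group
          _ = a⁻¹ * (a * u) * a⁻¹ := by rw [h1]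
          _ = u * a⁻¹ := by group
      rw [commutatorElement_def]
      symm
      calc d * a * d⁻¹ * a⁻¹ * u = d * a * d⁻¹ * (a⁻¹ * u) := by group
        _ = d * (a * (d⁻¹ * u * d)) * d⁻¹ * a⁻¹ := by rw [h3]; group
        _ = d * ((d⁻¹ * u * d) * a) * d⁻¹ * a⁻¹ := by rw [h2]
        _ = u * (d * a * d⁻¹ * a⁻¹) := by group
  exact Subgroup.le_centralizer_iff.mp (Subgroup.commutator_eq_bot_iff_le_centralizer.mp hbot)

/-- A "good" hyperplane of a best offender is a best offender with the same parameter. -/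
theorem hyper_BO [Finite G] {p : ℕ} [Fact p.Prime] {V H Q A A0 : Subgroup G} (S : Setup p V H Q)
    (hAH : A ≤ H) (hA : IsBestOffenderOn p V A) (hA0 : A0 ≤ A) (hidx : A0.relIndex A = p)
    (hne : ¬ A ≤ Subgroup.centralizer ((Q ⊓ Subgroup.centralizer (A0 : Set G) : Subgroup G) : Set G)) :
    Nat.card A0 * Nat.card ↥(V ⊓ Subgroup.centralizer (A0 : Set G)) =
      Nat.card A * Nat.card ↥(V ⊓ Subgroup.centralizer (A : Set G)) ∧ IsBestOffenderOn p V A0 := by
  have hp := (Fact.out : p.Prime)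
  have hAe := elemAb S.hf hAH hA
  have hle := hA.1 A0 hA0
  have hnot := not_CV_le S hAH hAe hA0 hne
  have hsub : V ⊓ Subgroup.centralizer (A : Set G) ≤ V ⊓ Subgroup.centralizer (A0 : Set G) :=
    inf_le_inf_left _ (Subgroup.centralizer_le hA0)
  have hcA : Nat.card A0 * p = Nat.card A := hidx ▸ Helper5.card_mul_relIndex hA0
  have hcV := Helper5.card_mul_relIndex hsub
  have hr1 : (V ⊓ Subgroup.centralizer (A : Set G)).relIndex (V ⊓ Subgroup.centralizer (A0 : Set G)) ≠ 1 := by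
    intro h
    exact hnot ((Subgroup.relIndex_eq_one.mp h).trans inf_le_right)
  have hpg : IsPGroup p ↥(V ⊓ Subgroup.centralizer (A0 : Set G)) :=
    (isPGroup_of_elemAb S.hV).to_le inf_le_left
  obtain ⟨k, hk⟩ := hpg.exists_card_eq
  have hdvd : (V ⊓ Subgroup.centralizer (A : Set G)).relIndex (V ⊓ Subgroup.centralizer (A0 : Set G)) ∣ p ^ k :=
    hk ▸ Subgroup.relIndex_dvd_card _ _
  obtain ⟨j, _, hj⟩ := (Nat.dvd_prime_pow hp).mp hdvd
  have hpr : p ≤ (V ⊓ Subgroup.centralizer (A : Set G)).relIndex (V ⊓ Subgroup.centralizer (A0 : Set G)) := by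
    rw [hj]
    rcases Nat.eq_zero_or_pos j with rfl | hj0
    · exact absurd (by simpa using hj) hr1
    · calc p = p ^ 1 := (pow_one p).symm
        _ ≤ p ^ j := Nat.pow_le_pow_right hp.pos hj0
  have hge : Nat.card A * Nat.card ↥(V ⊓ Subgroup.centralizer (A : Set G)) ≤
      Nat.card A0 * Nat.card ↥(V ⊓ Subgroup.centralizer (A0 : Set G)) := by
    rw [← hcA, ← hcV]
    calc Nat.card A0 * p * Nat.card ↥(V ⊓ Subgroup.centralizer (A : Set G))
        = Nat.card A0 * (Nat.card ↥(V ⊓ Subgroup.centralizer (A : Set G)) * p) := by ring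
      _ ≤ _ := Nat.mul_le_mul_left _ (Nat.mul_le_mul_left _ hpr)
  have heq := le_antisymm hle hge
  refine ⟨heq, ?_, (Subgroup.commutator_mono hA0 hA0).trans hA.2.1, fun a ha => hA.2.2 a (hA0 ha)⟩
  intro B hB
  rw [heq]
  exact hA.1 B (hB.trans hA0)

theorem CV_bot (V : Subgroup G) : V ⊓ Subgroup.centralizer ((⊥ : Subgroup G) : Set G) = V := by
  apply inf_eq_left.mpr
  intro x _
  rw [Subgroup.mem_centralizer_iff]
  intro h hh
  rw [Subgroup.mem_bot.mp hh]; simp

/-- KS 9.3.2 (a). -/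
theorem card_eq [Finite G] {p : ℕ} [Fact p.Prime] {V H Q : Subgroup G} (S : Setup p V H Q) :
    ∀ (n : ℕ) (A : Subgroup G), Nat.card A = n → A ≤ H → IsBestOffenderOn p V A →
      Nat.card A * Nat.card ↥(V ⊓ Subgroup.centralizer (A : Set G)) = Nat.card V := by
  intro n
  induction n using Nat.strong_induction_on with
  | _ n ih =>
    intro A hn hAH hA
    by_cases hA1 : A = ⊥
    · subst hA1
      rw [CV_bot]; simp
    · have hp := (Fact.out : p.Prime)
      obtain ⟨A0, hA0, hidx, hne⟩ := exists_hyper S hAH (elemAb S.hf hAH hA) le_rfl hA1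
      obtain ⟨heq, hBO⟩ := hyper_BO S hAH hA hA0 hidx hne
      rw [← heq]
      have hcA : Nat.card A0 * p = Nat.card A := hidx ▸ Helper5.card_mul_relIndex hA0
      have hlt : Nat.card A0 < n := by
        rw [← hn, ← hcA]
        have : 0 < Nat.card A0 := Nat.card_pos
        nlinarith [hp.one_lt]
      exact ih _ hlt A0 rfl (hA0.trans hAH) hBO

end Cfsg.Agent.Lib.Helper4.BO
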