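import Cfsg.Agent.Lib.Helper4.BO9

set_option autoImplicit false

namespace Cfsg.Agent.Lib.Helper4.BO

open Cfsg
open scoped commutatorElement

variable {G : Type*} [Group G]

variable {p : ℕ} [Fact p.Prime] {V H Q E : Subgroup G}

/-- `H` is generated by its best offenders of order `p`. -/
theorem le_of_forall_offender [Finite G] (S : Setup p V H Q)
    (hS3 : H = ⨆ A : {A : Subgroup G // A ≤ H ∧ IsBestOffenderOn p V A}, (A : Subgroup G))
    {X : Subgroup G} (hX : ∀ b ∈ H, IsBestOffenderOn p V (Subgroup.zpowers b) →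
      Nat.card (Subgroup.zpowers b) = p → b ∈ X) : H ≤ X := by
  conv_lhs => rw [hS3]
  apply iSup_le
  rintro ⟨A, hAH, hA⟩
  obtain ⟨k, Bf, hB, hsup, _⟩ := exists_family S _ A rfl hAH hA
  show A ≤ X
  rw [← hsup]
  apply iSup_le
  intro i
  obtain ⟨b, hb, hbeq⟩ := exists_zpowers_eq (hB i).2.2
  rw [hbeq, Subgroup.zpowers_le]
  exact hX b (hAH ((hB i).1 hb)) (hbeq ▸ (hB i).2.1) (hbeq ▸ (hB i).2.2)

namespace Blk

theorem le_sup [Finite G] (B : Blk p V H Q E)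
    (hS3 : H = ⨆ A : {A : Subgroup G // A ≤ H ∧ IsBestOffenderOn p V A}, (A : Subgroup G)) :
    H ≤ E ⊔ (H ⊓ (Subgroup.centralizer ((⁅V, E⁆ : Subgroup G) : Set G) ⊓
      Subgroup.centralizer (E : Set G))) := by
  apply le_of_forall_offender B.S hS3
  intro b hb hBO hc
  rcases B.dichotomy hb hBO hc with h | h
  · exact (le_sup_left : E ≤ _) h
  · exact (le_sup_right : _ ≤ E ⊔ _) (Subgroup.mem_inf.mpr ⟨hb, Subgroup.mem_inf.mpr h⟩)

theorem F_le [Finite G] (B : Blk p V H Q E)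
    (hS3 : H = ⨆ A : {A : Subgroup G // A ≤ H ∧ IsBestOffenderOn p V A}, (A : Subgroup G)) :
    H ⊓ Subgroup.centralizer ((⁅V, E⁆ : Subgroup G) : Set G) ≤ Subgroup.centralizer (E : Set G) := by
  intro f hf
  obtain ⟨hfH, hfC⟩ := Subgroup.mem_inf.mp hf
  have h1 : f ∈ ((E ⊔ (H ⊓ (Subgroup.centralizer ((⁅V, E⁆ : Subgroup G) : Set G) ⊓
      Subgroup.centralizer (E : Set G))) : Subgroup G) : Set G) := B.le_sup hS3 hfH
  rw [Subgroup.coe_mul_of_right_le_normalizer_left E _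
    (Helper5.le_normalizer_of_le_centralizer (inf_le_right.trans inf_le_right))] at h1
  obtain ⟨g, hg, f0, hf0, rfl⟩ := Set.mem_mul.mp h1
  obtain ⟨_, h2⟩ := Subgroup.mem_inf.mp hf0
  obtain ⟨h3, h4⟩ := Subgroup.mem_inf.mp h2
  have h5 : g ∈ E ⊓ Subgroup.centralizer ((⁅V, E⁆ : Subgroup G) : Set G) := by
    refine Subgroup.mem_inf.mpr ⟨hg, ?_⟩
    have : g = g * f0 * f0⁻¹ := by group
    rw [this]
    exact mul_mem hfC (inv_mem h3)
  rw [B.faithful] at h5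
  rw [Subgroup.mem_bot.mp h5, one_mul]
  exact h4

theorem comm_F [Finite G] (B : Blk p V H Q E)
    (hS3 : H = ⨆ A : {A : Subgroup G // A ≤ H ∧ IsBestOffenderOn p V A}, (A : Subgroup G)) :
    ⁅E, H ⊓ Subgroup.centralizer ((⁅V, E⁆ : Subgroup G) : Set G)⁆ = ⊥ := by
  rw [Subgroup.commutator_eq_bot_iff_le_centralizer]
  exact Subgroup.le_centralizer_iff.mp (B.F_le hS3)

theorem inf_F (B : Blk p V H Q E) :
    E ⊓ (H ⊓ Subgroup.centralizer ((⁅V, E⁆ : Subgroup G) : Set G)) = ⊥ := by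
  rw [eq_bot_iff, ← B.faithful]
  exact inf_le_inf le_rfl inf_le_right

theorem sup_F [Finite G] (B : Blk p V H Q E)
    (hS3 : H = ⨆ A : {A : Subgroup G // A ≤ H ∧ IsBestOffenderOn p V A}, (A : Subgroup G)) :
    E ⊔ (H ⊓ Subgroup.centralizer ((⁅V, E⁆ : Subgroup G) : Set G)) = H := by
  apply le_antisymm (sup_le B.hEH inf_le_left)
  exact (B.le_sup hS3).trans (sup_le_sup le_rfl (inf_le_inf le_rfl inf_le_left))

theorem comm_V_F [Finite G] (B : Blk p V H Q E)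
    (hS3 : H = ⨆ A : {A : Subgroup G // A ≤ H ∧ IsBestOffenderOn p V A}, (A : Subgroup G)) :
    ⁅V, H ⊓ Subgroup.centralizer ((⁅V, E⁆ : Subgroup G) : Set G)⁆ ≤
      V ⊓ Subgroup.centralizer (E : Set G) := by
  rw [Subgroup.commutator_le]
  intro v hv f hf
  obtain ⟨hfH, hfC⟩ := Subgroup.mem_inf.mp hf
  have hfE := B.F_le hS3 hf
  have hcV : ⁅v, f⁆ ∈ V := Helper5.commutatorElement_mem_of_le_normalizer B.S.hHV hfH hv
  refine Subgroup.mem_inf.mpr ⟨hcV, ?_⟩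
  rw [Subgroup.mem_centralizer_iff]
  intro g hg
  have hgf : g * f = f * g := hfE g hg
  have hw : ⁅v, g⁆ ∈ ⁅V, E⁆ := Subgroup.commutator_mem_commutator hv hg
  have hw' : ⁅v, g⁆⁻¹ ∈ ⁅V, E⁆ := inv_mem hw
  have e1 : g * v * g⁻¹ = ⁅v, g⁆⁻¹ * v := by rw [commutatorElement_def]; group
  have e2 : g * f * g⁻¹ = f := by rw [hgf]; group
  have e3 : ⁅⁅v, g⁆⁻¹, f⁆ = 1 := commutatorElement_eq_one_iff_mul_comm.mpr (hfC _ hw')
  have e4 : ⁅v, g⁆⁻¹ * ⁅v, f⁆ = ⁅v, f⁆ * ⁅v, g⁆⁻¹ := comm_of_elemAb B.S.hV (B.hWV hw') hcV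
  have e5 : g * ⁅v, f⁆ * g⁻¹ = ⁅v, f⁆ := by
    rw [Helper5.conj_commutatorElement, e1, e2, Helper5.commutatorElement_mul_left, e3, mul_one, e4,
      mul_inv_cancel_right]
  exact mul_inv_eq_iff_eq_mul.mp e5

end Blk

end Cfsg.Agent.Lib.Helper4.BO
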