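import Cfsg.Agent.Lib.Helper4.BO10

set_option autoImplicit false

namespace Cfsg.Agent.Lib.Helper4.BO

open Cfsg
open scoped commutatorElement

variable {G : Type*} [Group G]

theorem exists_mul_of_mem_sup {V X Y : Subgroup G} (hV : IsMulCommutative V) (hX : X ≤ V) (hY : Y ≤ V)
    {z : G} (hz : z ∈ X ⊔ Y) : ∃ x ∈ X, ∃ y ∈ Y, x * y = z := by
  have hn : X ≤ Subgroup.normalizer (Y : Set G) := by
    apply Helper5.le_normalizer_of_le_centralizer
    intro w hw
    rw [Subgroup.mem_centralizer_iff]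
    intro u hu
    exact congrArg Subtype.val (hV.is_comm.comm ⟨u, hY hu⟩ ⟨w, hX hw⟩)
  have h1 : z ∈ ((X ⊔ Y : Subgroup G) : Set G) := hz
  rw [Subgroup.coe_mul_of_left_le_normalizer_right _ _ hn] at h1
  exact Set.mem_mul.mp h1

theorem split_family {ι : Type*} {V : Subgroup G} (hV : IsMulCommutative V) (Wf Ef : ι → Subgroup G)
    (hW : ∀ i, Wf i ≤ V)
    (h1 : ∀ i, Wf i ⊓ (V ⊓ Subgroup.centralizer (Ef i : Set G)) = ⊥)
    (h2 : ∀ i, Wf i ⊔ (V ⊓ Subgroup.centralizer (Ef i : Set G)) = V)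
    (h3 : ∀ i j, i ≠ j → Wf i ≤ Subgroup.centralizer (Ef j : Set G)) (s : Finset ι) :
    (⨆ i ∈ s, Wf i) ⊓ (V ⊓ Subgroup.centralizer ((⨆ i ∈ s, Ef i : Subgroup G) : Set G)) = ⊥ ∧
    (⨆ i ∈ s, Wf i) ⊔ (V ⊓ Subgroup.centralizer ((⨆ i ∈ s, Ef i : Subgroup G) : Set G)) = V := by
  classical
  induction s using Finset.induction_on with
  | empty =>
    simp only [Finset.notMem_empty, not_false_eq_true, iSup_neg, iSup_bot, bot_inf_eq, bot_sup_eq,
      true_and]
    exact CV_bot V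
  | insert a s ha ih =>
    obtain ⟨ih1, ih2⟩ := ih
    rw [Finset.iSup_insert, Finset.iSup_insert, Helper5.centralizer_sup]
    have hPV : (⨆ i ∈ s, Wf i) ≤ V := iSup₂_le fun i _ => hW i
    have hPa : (⨆ i ∈ s, Wf i) ≤ Subgroup.centralizer (Ef a : Set G) :=
      iSup₂_le fun i hi => h3 i a (fun h => ha (h ▸ hi))
    have hWa : Wf a ≤ Subgroup.centralizer ((⨆ i ∈ s, Ef i : Subgroup G) : Set G) := by
      rw [Subgroup.le_centralizer_iff]
      exact iSup₂_le fun i hi => Subgroup.le_centralizer_iff.mp (h3 a i (fun h => ha (h ▸ hi)))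
    constructor
    · rw [eq_bot_iff]
      intro z hz
      obtain ⟨hz1, hz2⟩ := Subgroup.mem_inf.mp hz
      obtain ⟨hzV, hz3⟩ := Subgroup.mem_inf.mp hz2
      obtain ⟨hz4, hz5⟩ := Subgroup.mem_inf.mp hz3
      obtain ⟨w, hw, y, hy, rfl⟩ := exists_mul_of_mem_sup hV (hW a) hPV hz1
      have hw1 : w ∈ Wf a ⊓ (V ⊓ Subgroup.centralizer (Ef a : Set G)) := by
        refine Subgroup.mem_inf.mpr ⟨hw, Subgroup.mem_inf.mpr ⟨hW a hw, ?_⟩⟩
        have : w = w * y * y⁻¹ := by group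
        rw [this]
        exact mul_mem hz4 (inv_mem (hPa hy))
      rw [h1] at hw1
      rw [Subgroup.mem_bot.mp hw1, one_mul] at hz5 ⊢
      rw [← ih1]
      exact Subgroup.mem_inf.mpr ⟨hy, Subgroup.mem_inf.mpr ⟨hPV hy, hz5⟩⟩
    · apply le_antisymm (sup_le (sup_le (hW a) hPV) inf_le_left)
      conv_lhs => rw [← ih2]
      refine sup_le ((le_sup_right : _ ≤ Wf a ⊔ _).trans le_sup_left) ?_
      intro u hu
      obtain ⟨huV, huC⟩ := Subgroup.mem_inf.mp hu
      have hu2 : u ∈ Wf a ⊔ (V ⊓ Subgroup.centralizer (Ef a : Set G)) := by rw [h2]; exact huV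
      obtain ⟨w, hw, c, hc, rfl⟩ := exists_mul_of_mem_sup hV (hW a) inf_le_left hu2
      obtain ⟨hcV, hcC⟩ := Subgroup.mem_inf.mp hc
      have hc2 : c ∈ V ⊓ (Subgroup.centralizer (Ef a : Set G) ⊓
          Subgroup.centralizer ((⨆ i ∈ s, Ef i : Subgroup G) : Set G)) := by
        refine Subgroup.mem_inf.mpr ⟨hcV, Subgroup.mem_inf.mpr ⟨hcC, ?_⟩⟩
        have : c = w⁻¹ * (w * c) := by group
        rw [this]
        exact mul_mem (inv_mem (hWa hw)) huC
      exact mul_mem ((le_sup_left : Wf a ≤ _).trans le_sup_left hw)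
        ((le_sup_right : _ ≤ (Wf a ⊔ ⨆ i ∈ s, Wf i) ⊔ _) hc2)

variable {p : ℕ} [Fact p.Prime] {V H Q E : Subgroup G}

/-- the blocks attached to best offenders of order `p`. -/
def IsE (p : ℕ) (V H Q E : Subgroup G) : Prop :=
  ∃ a ∈ H, IsBestOffenderOn p V (Subgroup.zpowers a) ∧ Nat.card (Subgroup.zpowers a) = p ∧
    E = ⁅Q, Subgroup.zpowers a⁆ ⊔ Subgroup.zpowers a

theorem IsE.blk [Finite G] (S : Setup p V H Q) (h : IsE p V H Q E) : Blk p V H Q E := by
  obtain ⟨a, ha, hBO, hc, rfl⟩ := h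
  obtain ⟨x, D⟩ := exists_pair S ha hBO hc
  rw [D.E_eq]
  exact D.blk

namespace Blk

theorem H_le_normalizer [Finite G] (B : Blk p V H Q E)
    (hS3 : H = ⨆ A : {A : Subgroup G // A ≤ H ∧ IsBestOffenderOn p V A}, (A : Subgroup G)) :
    H ≤ Subgroup.normalizer (E : Set G) := by
  conv_lhs => rw [← B.sup_F hS3]
  exact sup_le Subgroup.le_normalizer (Helper5.le_normalizer_of_le_centralizer (B.F_le hS3))

theorem eq_or_le_F [Finite G] (B : Blk p V H Q E)
    (hS3 : H = ⨆ A : {A : Subgroup G // A ≤ H ∧ IsBestOffenderOn p V A}, (A : Subgroup G))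
    {E' : Subgroup G} (h : IsE p V H Q E') :
    E' = E ∨ E' ≤ H ⊓ Subgroup.centralizer ((⁅V, E⁆ : Subgroup G) : Set G) := by
  have B' := h.blk B.S
  obtain ⟨a, ha, hBO, hc, rfl⟩ := h
  have key : ∀ X : Subgroup G, Q ≤ Subgroup.normalizer (X : Set G) → a ∈ X →
      ⁅Q, Subgroup.zpowers a⁆ ⊔ Subgroup.zpowers a ≤ X := by
    intro X hX haX
    have hz : Subgroup.zpowers a ≤ X := by rw [Subgroup.zpowers_le]; exact haX
    refine sup_le ?_ hz
    rw [Subgroup.commutator_le]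
    intro q hq z hz'
    rw [commutatorElement_def]
    exact mul_mem ((Subgroup.mem_normalizer_iff.mp (hX hq) z).mp (hz hz')) (inv_mem (hz hz'))
  rcases B.dichotomy ha hBO hc with h1 | h1
  · left
    exact Subgroup.eq_of_le_of_card_ge (key E B.hQE h1) (by rw [B.card_E, B'.card_E])
  · right
    apply key _ _ (Subgroup.mem_inf.mpr ⟨ha, h1.1⟩)
    have hHW : H ≤ Subgroup.normalizer ((⁅V, E⁆ : Subgroup G) : Set G) :=
      le_normalizer_commutator B.S.hHV (B.H_le_normalizer hS3)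
    apply Helper5.le_normalizer_of_conj_mem
    intro q hq f hf
    obtain ⟨hf1, hf2⟩ := Subgroup.mem_inf.mp hf
    have hqH := B.S.hQH hq
    exact Subgroup.mem_inf.mpr ⟨mul_mem (mul_mem hqH hf1) (inv_mem hqH),
      conj_mem_centralizer (hHW hqH) hf2⟩

end Blk

end Cfsg.Agent.Lib.Helper4.BO
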