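import Cfsg.Agent.Lib.Helper4.BO11

set_option autoImplicit false

namespace Cfsg.Agent.Lib.Helper4.BO

open Cfsg
open scoped commutatorElement

variable {G : Type*} [Group G]

variable {p : ℕ} [Fact p.Prime] {V H Q : Subgroup G}

theorem final [Finite G] (S : Setup p V H Q)
    (hS3 : H = ⨆ A : {A : Subgroup G // A ≤ H ∧ IsBestOffenderOn p V A}, (A : Subgroup G))
    (hH1 : H ≠ ⊥) (P : Subgroup G → Prop) (hI : ∀ E, P E → IsE p V H Q E)
    (hJ : ∀ E, IsE p V H Q E → P E) :
    (p = 2 ∨ p = 3) ∧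
    (∀ E : {E : Subgroup G // P E}, H ≤ Subgroup.normalizer ((E : Subgroup G) : Set G) ∧
      Nonempty (↥(E : Subgroup G) ≃* Matrix.SpecialLinearGroup (Fin 2) (ZMod p)) ∧
      Nat.card ↥(⁅V, (E : Subgroup G)⁆) = p ^ 2) ∧
    iSupIndep (fun E : {E : Subgroup G // P E} => (E : Subgroup G)) ∧
    (⨆ E : {E : Subgroup G // P E}, (E : Subgroup G)) = H ∧
    iSupIndep (fun o : Option {E : Subgroup G // P E} =>
      o.elim (V ⊓ Subgroup.centralizer (H : Set G)) (fun E => ⁅V, (E : Subgroup G)⁆)) ∧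
    (V ⊓ Subgroup.centralizer (H : Set G)) ⊔ (⨆ E : {E : Subgroup G // P E}, ⁅V, (E : Subgroup G)⁆) = V := by
  classical
  have hB : ∀ E : {E : Subgroup G // P E}, Blk p V H Q E.1 := fun E => (hI E.1 E.2).blk S
  have hex : ∃ b ∈ H, IsBestOffenderOn p V (Subgroup.zpowers b) ∧
      Nat.card (Subgroup.zpowers b) = p := by
    by_contra hcon
    push Not at hcon
    apply hH1
    rw [eq_bot_iff]
    exact le_of_forall_offender S hS3 (fun b hb h1 h2 => absurd h2 (hcon b hb h1))
  have key : ∀ E E' : {E : Subgroup G // P E}, E' ≠ E →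
      E'.1 ≤ H ⊓ Subgroup.centralizer ((⁅V, E.1⁆ : Subgroup G) : Set G) := by
    intro E E' hne
    rcases (hB E).eq_or_le_F hS3 (hI E'.1 E'.2) with h | h
    · exact absurd (Subtype.ext h) hne
    · exact h
  have keyW : ∀ E E' : {E : Subgroup G // P E}, E' ≠ E →
      ⁅V, E'.1⁆ ≤ V ⊓ Subgroup.centralizer (E.1 : Set G) := fun E E' hne =>
    (Subgroup.commutator_mono le_rfl (key E E' hne)).trans ((hB E).comm_V_F hS3)
  have h4 : (⨆ E : {E : Subgroup G // P E}, (E : Subgroup G)) = H := by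
    apply le_antisymm (iSup_le fun E => (hB E).hEH)
    apply le_of_forall_offender S hS3
    intro b hb h1 h2
    exact Subgroup.mem_iSup_of_mem
      (⟨⁅Q, Subgroup.zpowers b⁆ ⊔ Subgroup.zpowers b, hJ _ ⟨b, hb, h1, h2, rfl⟩⟩ :
        {E : Subgroup G // P E})
      ((le_sup_right : Subgroup.zpowers b ≤ _) (Subgroup.mem_zpowers b))
  haveI : Fintype {E : Subgroup G // P E} := Fintype.ofFinite _
  have split := split_family S.hV.1 (fun E : {E : Subgroup G // P E} => ⁅V, E.1⁆) (fun E => E.1)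
    (fun E => (hB E).hWV) (fun E => (hB E).inf_eq_bot) (fun E => (hB E).sup_eq)
    (fun i j hij => (keyW j i hij).trans inf_le_right) Finset.univ
  simp only [Finset.mem_univ, iSup_pos] at split
  rw [h4] at split
  refine ⟨?_, ?_, ?_, h4, ?_, ?_⟩
  · obtain ⟨b, hb, h1, h2⟩ := hex
    exact (IsE.blk S ⟨b, hb, h1, h2, rfl⟩).hp
  · intro E
    refine ⟨(hB E).H_le_normalizer hS3, ?_, (hB E).card_W⟩
    obtain ⟨_, _, _, e, _⟩ := (hB E).coord
    exact ⟨e⟩
  · rw [iSupIndep_def]
    intro E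
    rw [disjoint_iff, eq_bot_iff, ← (hB E).inf_F]
    exact inf_le_inf le_rfl (iSup₂_le fun E' h => key E E' h)
  · rw [iSupIndep_def]
    intro o
    cases o with
    | none =>
      rw [disjoint_iff, eq_bot_iff]
      have h5 : (⨆ (j : Option {E : Subgroup G // P E}) (_ : j ≠ none),
          j.elim (V ⊓ Subgroup.centralizer (H : Set G)) (fun E => ⁅V, (E : Subgroup G)⁆)) ≤
          ⨆ E : {E : Subgroup G // P E}, ⁅V, E.1⁆ := by
        apply iSup₂_le
        intro j hj
        cases j with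
        | none => exact absurd rfl hj
        | some E => exact le_iSup (fun E : {E : Subgroup G // P E} => ⁅V, E.1⁆) E
      refine (inf_le_inf le_rfl h5).trans ?_
      show (V ⊓ Subgroup.centralizer (H : Set G)) ⊓ _ ≤ ⊥
      rw [inf_comm, split.1]
    | some E =>
      rw [disjoint_iff, eq_bot_iff, ← (hB E).inf_eq_bot]
      refine inf_le_inf le_rfl ?_
      apply iSup₂_le
      intro j hj
      cases j with
      | none =>
        exact inf_le_inf le_rfl (Subgroup.centralizer_le (SetLike.coe_subset_coe.mpr (hB E).hEH))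
      | some E' => exact keyW E E' (fun h => hj (congrArg some h))
  · rw [sup_comm]
    exact split.2

end Cfsg.Agent.Lib.Helper4.BO
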