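import Cfsg.Agent.Lib.Helper4.BO1

set_option autoImplicit false

namespace Cfsg.Agent.Lib.Helper4.BO

open Cfsg
open scoped commutatorElement

variable {G : Type*} [Group G]

/-- the commutator homomorphism `v ↦ [v, a]` on an abelian subgroup normalized by `a`. -/
noncomputable def commHom (V : Subgroup G) (hV : IsMulCommutative V) (a : G)
    (ha : a ∈ Subgroup.normalizer (V : Set G)) : ↥V →* G :=
  MonoidHom.mk' (fun v => ⁅(v : G), a⁆) (by
    intro v w
    have hz : Subgroup.zpowers a ≤ Subgroup.normalizer (V : Set G) := by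
      rw [Subgroup.zpowers_le]; exact ha
    have hw : ⁅(w : G), a⁆ ∈ V :=
      Helper5.commutatorElement_mem_of_le_normalizer hz (Subgroup.mem_zpowers a) w.2
    have hv : ⁅(v : G), a⁆ ∈ V :=
      Helper5.commutatorElement_mem_of_le_normalizer hz (Subgroup.mem_zpowers a) v.2
    have c1 : (v : G) * ⁅(w : G), a⁆ = ⁅(w : G), a⁆ * v :=
      congrArg Subtype.val (hV.is_comm.comm v ⟨_, hw⟩)
    have c2 : ⁅(w : G), a⁆ * ⁅(v : G), a⁆ = ⁅(v : G), a⁆ * ⁅(w : G), a⁆ :=
      congrArg Subtype.val (hV.is_comm.comm ⟨_, hw⟩ ⟨_, hv⟩)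
    show ⁅((v * w : ↥V) : G), a⁆ = _
    rw [Subgroup.coe_mul, Helper5.commutatorElement_mul_left, c1, mul_inv_cancel_right, c2])

theorem commHom_apply (V : Subgroup G) (hV : IsMulCommutative V) (a : G)
    (ha : a ∈ Subgroup.normalizer (V : Set G)) (v : ↥V) : commHom V hV a ha v = ⁅(v : G), a⁆ := rfl

theorem commHom_range [Finite G] (V : Subgroup G) (hV : IsMulCommutative V) (a : G)
    (ha : a ∈ Subgroup.normalizer (V : Set G)) :
    (commHom V hV a ha).range = ⁅V, Subgroup.zpowers a⁆ := by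
  have hz : Subgroup.zpowers a ≤ Subgroup.normalizer (V : Set G) := by
    rw [Subgroup.zpowers_le]; exact ha
  apply le_antisymm
  · rintro _ ⟨v, rfl⟩
    exact Subgroup.commutator_mem_commutator v.2 (Subgroup.mem_zpowers a)
  · rw [Subgroup.commutator_le]
    intro v hv x hx
    obtain ⟨k, rfl⟩ := (mem_powers_iff_mem_zpowers).mpr hx
    clear hx
    show ⁅v, a ^ k⁆ ∈ _
    induction k with
    | zero => simp
    | succ k ih =>
      rw [pow_succ, Helper5.commutatorElement_mul_right]
      refine Subgroup.mul_mem _ ih ?_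
      rw [Helper5.conj_commutatorElement]
      have h1 : a ^ k * a * (a ^ k)⁻¹ = a := by
        rw [← pow_succ, pow_succ', mul_inv_cancel_right]
      rw [h1]
      exact ⟨⟨a ^ k * v * (a ^ k)⁻¹, Helper5.conj_mem_of_le_normalizer hz
        (Subgroup.pow_mem _ (Subgroup.mem_zpowers a) k) hv⟩, rfl⟩

theorem commHom_ker (V : Subgroup G) (hV : IsMulCommutative V) (a : G)
    (ha : a ∈ Subgroup.normalizer (V : Set G)) :
    (commHom V hV a ha).ker = (Subgroup.centralizer ((Subgroup.zpowers a : Subgroup G) : Set G)).subgroupOf V := by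
  ext v
  rw [MonoidHom.mem_ker, commHom_apply, Subgroup.mem_subgroupOf, commutatorElement_eq_one_iff_mul_comm,
    Subgroup.zpowers_eq_closure, Subgroup.centralizer_closure, Subgroup.mem_centralizer_iff]
  constructor
  · intro h x hx
    rw [Set.mem_singleton_iff.mp hx]; exact h.symm
  · intro h
    exact (h a rfl).symm

theorem card_commutator_zpowers [Finite G] (V : Subgroup G) (hV : IsMulCommutative V) (a : G)
    (ha : a ∈ Subgroup.normalizer (V : Set G)) :
    Nat.card ↥(⁅V, Subgroup.zpowers a⁆) =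
      (V ⊓ Subgroup.centralizer ((Subgroup.zpowers a : Subgroup G) : Set G)).relIndex V := by
  rw [← commHom_range V hV a ha, ← Subgroup.index_ker, commHom_ker, Subgroup.inf_relIndex_left]
  rfl

theorem exists_zpowers_eq {p : ℕ} [Fact p.Prime] {A : Subgroup G} (hA : Nat.card A = p) :
    ∃ a : G, a ∈ A ∧ A = Subgroup.zpowers a := by
  haveI := isCyclic_of_prime_card (α := ↥A) hA
  obtain ⟨g, hg⟩ := IsCyclic.exists_generator (α := ↥A)
  refine ⟨g, g.2, le_antisymm ?_ (by rw [Subgroup.zpowers_le]; exact g.2)⟩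
  intro x hx
  obtain ⟨k, hk⟩ := Subgroup.mem_zpowers_iff.mp (hg ⟨x, hx⟩)
  exact Subgroup.mem_zpowers_iff.mpr ⟨k, by simpa using congrArg Subtype.val hk⟩

theorem ne_bot_of_commutator_ne_bot {V A : Subgroup G} (h : ⁅V, A⁆ ≠ ⊥) : A ≠ ⊥ := by
  rintro rfl
  exact h (by simp)

theorem commutator_ne_bot {V H A : Subgroup G} (hf : H ⊓ Subgroup.centralizer (V : Set G) = ⊥)
    (hAH : A ≤ H) (hA1 : A ≠ ⊥) : ⁅V, A⁆ ≠ ⊥ := by
  intro h
  apply hA1
  rw [eq_bot_iff, ← hf]
  exact le_inf hAH (Subgroup.le_centralizer_iff.mp (Subgroup.commutator_eq_bot_iff_le_centralizer.mp h))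

/-- KS 9.3.2 (b): the order of a minimal nontrivial best offender. -/
theorem card_of_minimal [Finite G] {p : ℕ} [Fact p.Prime] {V H Q A : Subgroup G} (S : Setup p V H Q)
    (hAH : A ≤ H) (hA : IsBestOffenderOn p V A) (hAV : ⁅V, A⁆ ≠ ⊥)
    (hmin : ∀ B : Subgroup G, B ≤ A → IsBestOffenderOn p V B → ⁅V, B⁆ ≠ ⊥ → B = A) :
    Nat.card A = p := by
  have hp := (Fact.out : p.Prime)
  obtain ⟨A0, hA0, hidx, hne⟩ := exists_hyper S hAH (elemAb S.hf hAH hA) le_rfl
    (ne_bot_of_commutator_ne_bot hAV)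
  obtain ⟨_, hBO⟩ := hyper_BO S hAH hA hA0 hidx hne
  have hcA : Nat.card A0 * p = Nat.card A := hidx ▸ Helper5.card_mul_relIndex hA0
  by_cases h0 : A0 = ⊥
  · rw [← hcA, h0]; simp
  · exfalso
    have := hmin A0 hA0 hBO (commutator_ne_bot S.hf (hA0.trans hAH) h0)
    rw [this] at hcA
    have h1 : 0 < Nat.card A := Nat.card_pos
    nlinarith [hp.one_lt]

theorem transvection [Finite G] {p : ℕ} [Fact p.Prime] {V H Q A : Subgroup G} (S : Setup p V H Q)
    (hAH : A ≤ H) (hA : IsBestOffenderOn p V A) (hc : Nat.card A = p) :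
    Nat.card ↥(⁅V, A⁆) = p ∧ (V ⊓ Subgroup.centralizer (A : Set G)).relIndex V = p := by
  have hp := (Fact.out : p.Prime)
  have h1 := card_eq S _ A rfl hAH hA
  have h2 := Helper5.card_mul_relIndex (inf_le_left : V ⊓ Subgroup.centralizer (A : Set G) ≤ V)
  have h3 : (V ⊓ Subgroup.centralizer (A : Set G)).relIndex V = p := by
    rw [← h1, hc, mul_comm p] at h2
    exact Nat.eq_of_mul_eq_mul_left Nat.card_pos h2
  refine ⟨?_, h3⟩
  obtain ⟨a, ha, rfl⟩ := exists_zpowers_eq hc
  rw [card_commutator_zpowers V S.hV.1 a (S.hHV (hAH ha)), h3]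

theorem bestOffender_of_card [Finite G] {p : ℕ} [Fact p.Prime] {V D : Subgroup G}
    (hc : Nat.card D = p) {C : Subgroup G} (hC : C ≤ D) (hCV : ⁅V, C⁆ ≠ ⊥) : C = D := by
  have hp := (Fact.out : p.Prime)
  have h1 : Nat.card C ∣ p := hc ▸ Subgroup.card_dvd_of_le hC
  rcases (Nat.dvd_prime hp).mp h1 with h | h
  · exact absurd (Subgroup.eq_bot_of_card_eq C h) (ne_bot_of_commutator_ne_bot hCV)
  · exact Subgroup.eq_of_le_of_card_ge hC (by rw [h, hc])

/-- The decomposition of a best offender into best offenders of order `p`. -/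
theorem exists_family [Finite G] {p : ℕ} [Fact p.Prime] {V H Q : Subgroup G} (S : Setup p V H Q) :
    ∀ (n : ℕ) (A : Subgroup G), Nat.card A = n → A ≤ H → IsBestOffenderOn p V A →
      ∃ (k : ℕ) (B : Fin k → Subgroup G),
        (∀ i, B i ≤ A ∧ IsBestOffenderOn p V (B i) ∧ Nat.card (B i) = p) ∧ ⨆ i, B i = A ∧
          Nat.card A = p ^ k := by
  intro n
  induction n using Nat.strong_induction_on with
  | _ n ih =>
    intro A hn hAH hA
    have hp := (Fact.out : p.Prime)
    by_cases hA1 : A = ⊥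
    · subst hA1
      exact ⟨0, fun i => i.elim0, fun i => i.elim0, by simp, by simp⟩
    have hAe := elemAb S.hf hAH hA
    obtain ⟨A0, hA0, hidx, hne⟩ := exists_hyper S hAH hAe le_rfl hA1
    obtain ⟨_, hBO⟩ := hyper_BO S hAH hA hA0 hidx hne
    have hcA : Nat.card A0 * p = Nat.card A := hidx ▸ Helper5.card_mul_relIndex hA0
    have hlt : Nat.card A0 < n := by
      rw [← hn, ← hcA]
      have : 0 < Nat.card A0 := Nat.card_pos
      nlinarith [hp.one_lt]
    have hAA0 : ¬ A ≤ A0 := by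
      intro h
      have := Subgroup.card_le_of_le h
      omega
    -- a best offender `D ≤ A`, not in `A0`, of minimal order
    have hex : ∃ m : ℕ, ∃ D : Subgroup G, Nat.card D = m ∧ D ≤ A ∧ IsBestOffenderOn p V D ∧ ¬ D ≤ A0 :=
      ⟨_, A, rfl, le_rfl, hA, hAA0⟩
    classical
    obtain ⟨D, hDm, hDA, hDBO, hDA0⟩ := Nat.find_spec hex
    have hDmin : ∀ D' : Subgroup G, D' ≤ A → IsBestOffenderOn p V D' → ¬ D' ≤ A0 →
        Nat.card D ≤ Nat.card D' := by
      intro D' h1 h2 h3
      rw [hDm]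
      exact Nat.find_min' hex ⟨D', rfl, h1, h2, h3⟩
    have hDe := elemAb_mono hAe hDA
    have hDH := hDA.trans hAH
    have hinf : D ⊓ A0 = ⊥ := by
      by_contra hD1
      obtain ⟨D0, hD0, hidx0, hne0⟩ := exists_hyper S hDH hDe (inf_le_left : D ⊓ A0 ≤ D) hD1
      have hne0' : ¬ D ≤ Subgroup.centralizer ((Q ⊓ Subgroup.centralizer (D0 : Set G) : Subgroup G) : Set G) :=
        fun h => hne0 (inf_le_left.trans h)
      obtain ⟨_, hBO0⟩ := hyper_BO S hDH hDBO hD0 hidx0 hne0'
      have hcD : Nat.card D0 * p = Nat.card D := hidx0 ▸ Helper5.card_mul_relIndex hD0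
      have hD0A0 : ¬ D0 ≤ A0 := by
        intro h
        -- then `D0 = D ⊓ A0`
        have h1 : D0 ≤ D ⊓ A0 := le_inf hD0 h
        have h2 : D ⊓ A0 ≤ D0 := by
          have h3 := Subgroup.relIndex_mul_relIndex D0 (D ⊓ A0) D h1 inf_le_left
          rw [hidx0] at h3
          have h4 : (D ⊓ A0).relIndex D ≠ 1 := by
            intro h5
            exact hDA0 ((Subgroup.relIndex_eq_one.mp h5).trans inf_le_right)
          have h5 : (D ⊓ A0).relIndex D ∣ p := Dvd.intro_left _ h3
          rcases (Nat.dvd_prime hp).mp h5 with h6 | h6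
          · exact absurd h6 h4
          · rw [h6] at h3
            have h7 : D0.relIndex (D ⊓ A0) = 1 := by
              have : D0.relIndex (D ⊓ A0) * p = 1 * p := by rw [h3, one_mul]
              exact Nat.eq_of_mul_eq_mul_right hp.pos this
            exact Subgroup.relIndex_eq_one.mp h7
        apply hne0
        refine h2.trans ?_
        rw [Subgroup.le_centralizer_iff]
        exact inf_le_right
      have := hDmin D0 (hD0.trans hDA) hBO0 hD0A0
      have h1 : 0 < Nat.card D0 := Nat.card_pos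
      nlinarith [hp.one_lt]
    have hDn : D ≤ Subgroup.normalizer (A0 : Set G) := by
      apply Helper5.le_normalizer_of_le_centralizer
      intro d hd
      rw [Subgroup.mem_centralizer_iff]
      intro x hx
      exact comm_of_elemAb hAe (hA0 hx) (hDA hd)
    have hcard := Helper5.card_sup_mul_card_inf D A0 hDn
    rw [hinf] at hcard
    simp only [Subgroup.card_bot, mul_one] at hcard
    have hD1 : D ≠ ⊥ := by
      rintro rfl
      exact hDA0 bot_le
    have hsup : D ⊔ A0 ≤ A := sup_le hDA hA0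
    -- order of `D`
    obtain ⟨j, hj⟩ := (isPGroup_of_elemAb hDe).exists_card_eq
    have hj0 : j ≠ 0 := by
      rintro rfl
      exact hD1 (Subgroup.eq_bot_of_card_eq D (by simpa using hj))
    have hDp : Nat.card D = p := by
      have h1 := Subgroup.card_le_of_le hsup
      rw [hcard, ← hcA, mul_comm] at h1
      have h2 : Nat.card D ≤ p := Nat.le_of_mul_le_mul_left h1 Nat.card_pos
      have h3 : p ≤ Nat.card D := by
        rw [hj]
        calc p = p ^ 1 := (pow_one p).symm
          _ ≤ p ^ j := Nat.pow_le_pow_right hp.pos (by omega)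
      omega
    have hsupeq : D ⊔ A0 = A := by
      apply Subgroup.eq_of_le_of_card_ge hsup
      rw [hcard, hDp, ← hcA, mul_comm]
    obtain ⟨k, B, hB, hBsup, hBc⟩ := ih _ hlt A0 rfl (hA0.trans hAH) hBO
    refine ⟨k + 1, Fin.cons D B, ?_, ?_, ?_⟩
    · intro i
      refine Fin.cases ?_ ?_ i
      · exact ⟨hDA, hDBO, hDp⟩
      · intro i
        simp only [Fin.cons_succ]
        exact ⟨(hB i).1.trans hA0, (hB i).2⟩
    · rw [← hsupeq, ← hBsup]
      apply le_antisymm
      · apply iSup_le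
        intro i
        refine Fin.cases ?_ ?_ i
        · exact le_sup_left
        · intro i
          simp only [Fin.cons_succ]
          exact (le_iSup B i).trans le_sup_right
      · apply sup_le
        · exact le_iSup (Fin.cons D B : Fin (k + 1) → Subgroup G) 0
        · apply iSup_le
          intro i
          exact le_iSup (Fin.cons D B : Fin (k + 1) → Subgroup G) i.succ
    · rw [← hcA, hBc, pow_succ]

/-- bound for the order of a join of subgroups of order `p` in an abelian group -/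
theorem card_biSup_le [Finite G] {p : ℕ} {ι : Type*} {A : Subgroup G} (hA : IsMulCommutative A)
    (B : ι → Subgroup G) (hBA : ∀ i, B i ≤ A) (hB : ∀ i, Nat.card (B i) = p) (s : Finset ι) :
    Nat.card ↥(⨆ i ∈ s, B i) ≤ p ^ s.card := by
  classical
  induction s using Finset.induction_on with
  | empty => simp
  | insert a s ha ih =>
    rw [Finset.iSup_insert, Finset.card_insert_of_notMem ha, pow_succ]
    have hle : (⨆ i ∈ s, B i) ≤ A := iSup₂_le fun i _ => hBA i
    have hn : B a ≤ Subgroup.normalizer ((⨆ i ∈ s, B i : Subgroup G) : Set G) := by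
      apply Helper5.le_normalizer_of_le_centralizer
      intro d hd
      rw [Subgroup.mem_centralizer_iff]
      intro x hx
      exact congrArg Subtype.val (hA.is_comm.comm ⟨x, hle hx⟩ ⟨d, hBA a hd⟩)
    have h1 := Helper5.card_sup_mul_card_inf (B a) (⨆ i ∈ s, B i) hn
    have h2 : 0 < Nat.card ↥(B a ⊓ ⨆ i ∈ s, B i) := Nat.card_pos
    calc Nat.card ↥(B a ⊔ ⨆ i ∈ s, B i)
        ≤ Nat.card ↥(B a ⊔ ⨆ i ∈ s, B i) * Nat.card ↥(B a ⊓ ⨆ i ∈ s, B i) :=
          Nat.le_mul_of_pos_right _ h2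
      _ = Nat.card (B a) * Nat.card ↥(⨆ i ∈ s, B i) := h1
      _ ≤ p * p ^ s.card := by rw [hB a]; exact Nat.mul_le_mul_left _ ih
      _ = p ^ s.card * p := mul_comm _ _

theorem iSupIndep_of_card [Finite G] {p : ℕ} [Fact p.Prime] {k : ℕ} {A : Subgroup G}
    (hA : IsMulCommutative A) (B : Fin k → Subgroup G) (hBA : ∀ i, B i ≤ A)
    (hB : ∀ i, Nat.card (B i) = p) (hsup : Nat.card ↥(⨆ i, B i) = p ^ k) : iSupIndep B := by
  classical
  have hp := (Fact.out : p.Prime)
  intro i
  rw [disjoint_iff]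
  have hY : (⨆ (j) (_ : j ≠ i), B j) = ⨆ j ∈ (Finset.univ.erase i), B j := by
    simp
  have hc := card_biSup_le hA B hBA hB (Finset.univ.erase i)
  rw [← hY, Finset.card_erase_of_mem (Finset.mem_univ i), Finset.card_univ, Fintype.card_fin] at hc
  have hle : (⨆ (j) (_ : j ≠ i), B j) ≤ A := iSup₂_le fun j _ => hBA j
  have hn : B i ≤ Subgroup.normalizer ((⨆ (j) (_ : j ≠ i), B j : Subgroup G) : Set G) := by
    apply Helper5.le_normalizer_of_le_centralizer
    intro d hd
    rw [Subgroup.mem_centralizer_iff]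
    intro x hx
    exact congrArg Subtype.val (hA.is_comm.comm ⟨x, hle hx⟩ ⟨d, hBA i hd⟩)
  have h1 := Helper5.card_sup_mul_card_inf (B i) (⨆ (j) (_ : j ≠ i), B j) hn
  rw [← iSup_split_single B i, hsup, hB i] at h1
  have hk : 0 < k := Fin.pos i
  have h2 : p ^ k = p * p ^ (k - 1) := by
    rw [← pow_succ']; congr 1; omega
  have h3 : p ^ k * Nat.card ↥(B i ⊓ ⨆ (j) (_ : j ≠ i), B j) ≤ p ^ k * 1 := by
    rw [h1, mul_one, h2]
    exact Nat.mul_le_mul_left _ hc
  have h4 : Nat.card ↥(B i ⊓ ⨆ (j) (_ : j ≠ i), B j) ≤ 1 :=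
    Nat.le_of_mul_le_mul_left h3 (pow_pos hp.pos k)
  exact Subgroup.eq_bot_of_card_le _ h4

end Cfsg.Agent.Lib.Helper4.BO
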