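import Cfsg.Agent.Lib.Helper4.BO2
import Cfsg.Agent.Lib.Helper4.SL2Rec

set_option autoImplicit false

namespace Cfsg.Agent.Lib.Helper4.BO

open Cfsg
open scoped commutatorElement
open Cfsg.Agent.Lib.Helper4.SL2R (Coord phi mat)

variable {G : Type*} [Group G]

local notation "SL2" => Matrix.SpecialLinearGroup (Fin 2)

theorem commutator_sup_eq {V A B : Subgroup G} (hA : A ≤ Subgroup.normalizer (V : Set G))
    (hB : B ≤ Subgroup.normalizer (V : Set G)) : ⁅V, A ⊔ B⁆ = ⁅V, A⁆ ⊔ ⁅V, B⁆ := by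
  apply le_antisymm
  · have hW : ⁅V, A⁆ ⊔ ⁅V, B⁆ ≤ V :=
      sup_le (Helper5.commutator_le_of_le_normalizer hA le_rfl)
        (Helper5.commutator_le_of_le_normalizer hB le_rfl)
    have key : ∀ g ∈ A ⊔ B, ∀ v ∈ V, ⁅v, g⁆ ∈ ⁅V, A⁆ ⊔ ⁅V, B⁆ := by
      intro g hg
      have hAB := sup_le hA hB
      rw [Subgroup.sup_eq_closure] at hg hAB
      induction hg using Subgroup.closure_induction with
      | mem x hx =>
        intro v hv
        rcases hx with hx | hx
        · exact (le_sup_left : ⁅V, A⁆ ≤ _) (Subgroup.commutator_mem_commutator hv hx)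
        · exact (le_sup_right : ⁅V, B⁆ ≤ _) (Subgroup.commutator_mem_commutator hv hx)
      | one => intro v _; simp
      | mul x y hx hy ihx ihy =>
        intro v hv
        rw [Helper5.commutatorElement_mul_right]
        refine mul_mem (ihx v hv) ?_
        have h1 := ihy v hv
        have h2 := ihx _ (hW h1)
        have h3 : x * ⁅v, y⁆ * x⁻¹ = (⁅⁅v, y⁆, x⁆)⁻¹ * ⁅v, y⁆ := by
          simp only [commutatorElement_def]; group
        rw [h3]
        exact mul_mem (inv_mem h2) h1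
      | inv x hx ih =>
        intro v hv
        have hv' : x⁻¹ * v * x⁻¹⁻¹ ∈ V :=
          (Subgroup.mem_normalizer_iff.mp (inv_mem (hAB hx)) v).mp hv
        have h3 : ⁅v, x⁻¹⁆ = (⁅x⁻¹ * v * x⁻¹⁻¹, x⁆)⁻¹ := by
          simp only [commutatorElement_def]; group
        rw [h3]
        exact inv_mem (ih _ hv')
    rw [Subgroup.commutator_le]
    exact fun v hv g hg => key g hg v hv
  · exact sup_le (Subgroup.commutator_mono le_rfl le_sup_left)
      (Subgroup.commutator_mono le_rfl le_sup_right)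

theorem V_inf_H {p : ℕ} {V H Q : Subgroup G} (S : Setup p V H Q) : H ⊓ V = ⊥ := by
  rw [eq_bot_iff, ← S.hf]
  intro v hv
  obtain ⟨h1, h2⟩ := Subgroup.mem_inf.mp hv
  refine Subgroup.mem_inf.mpr ⟨h1, ?_⟩
  rw [Subgroup.mem_centralizer_iff]
  intro w hw
  exact comm_of_elemAb S.hV hw h2

theorem pow_eq_one_of_stab {p : ℕ} {V H W : Subgroup G} (hV : IsElementaryAbelian p V)
    (hf : H ⊓ Subgroup.centralizer (V : Set G) = ⊥) {x : G} (hxH : x ∈ H) (hWV : W ≤ V)
    (h1 : ∀ v ∈ V, ⁅v, x⁆ ∈ W) (h2 : x ∈ Subgroup.centralizer (W : Set G)) : x ^ p = 1 := by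
  have hmem : x ^ p ∈ H ⊓ Subgroup.centralizer (V : Set G) := by
    refine Subgroup.mem_inf.mpr ⟨H.pow_mem hxH p, ?_⟩
    rw [Subgroup.mem_centralizer_iff]
    intro v hv
    have hw : ⁅v, x⁆ ∈ W := h1 v hv
    have hcw : ⁅v, x⁆ * x = x * ⁅v, x⁆ := h2 _ hw
    have key : ∀ k : ℕ, v * x ^ k = ⁅v, x⁆ ^ k * (x ^ k * v) := by
      intro k
      induction k with
      | zero => simp
      | succ k ih =>
        have hck : ⁅v, x⁆ * x ^ k = x ^ k * ⁅v, x⁆ := (Commute.pow_right hcw k)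
        have e1 : v * x = ⁅v, x⁆ * (x * v) := by rw [commutatorElement_def]; group
        calc v * x ^ (k + 1) = (v * x ^ k) * x := by rw [pow_succ]; group
          _ = ⁅v, x⁆ ^ k * x ^ k * (v * x) := by rw [ih]; group
          _ = ⁅v, x⁆ ^ k * (x ^ k * ⁅v, x⁆) * (x * v) := by rw [e1]; group
          _ = ⁅v, x⁆ ^ k * (⁅v, x⁆ * x ^ k) * (x * v) := by rw [hck]
          _ = ⁅v, x⁆ ^ (k + 1) * (x ^ (k + 1) * v) := by rw [pow_succ, pow_succ]; group
    rw [key p, hV.2 _ (hWV hw), one_mul]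
  rw [hf] at hmem
  exact Subgroup.mem_bot.mp hmem

theorem eq_one_of_pow_of_mem [Finite G] {p : ℕ} {Q : Subgroup G} (hQ : (Nat.card Q).Coprime p)
    {x : G} (hx : x ∈ Q) (hxp : x ^ p = 1) : x = 1 := by
  have h1 : (⟨x, hx⟩ : ↥Q) ^ Nat.card Q = 1 := pow_card_eq_one'
  have h2 : x ^ Nat.card Q = 1 := congrArg Subtype.val h1
  exact Helper5.eq_one_of_pow_coprime x hQ h2 hxp

theorem eq_of_inf_ne_bot [Finite G] {p : ℕ} [Fact p.Prime] {A B : Subgroup G} (hA : Nat.card A = p)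
    (hB : Nat.card B = p) (h : A ⊓ B ≠ ⊥) : A = B := by
  have hp := (Fact.out : p.Prime)
  have h1 : Nat.card ↥(A ⊓ B) ∣ p := hA ▸ Subgroup.card_dvd_of_le inf_le_left
  rcases (Nat.dvd_prime hp).mp h1 with h2 | h2
  · exact absurd (Subgroup.eq_bot_of_card_eq _ h2) h
  · have e1 : A ⊓ B = A := Subgroup.eq_of_le_of_card_ge inf_le_left (by rw [h2, hA])
    have e2 : A ⊓ B = B := Subgroup.eq_of_le_of_card_ge inf_le_right (by rw [h2, hB])
    rw [← e1, e2]

theorem map_conj_eq {V : Subgroup G} {x : G} (hx : x ∈ Subgroup.normalizer (V : Set G)) :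
    V.map (MulAut.conj x).toMonoidHom = V := by
  ext y
  simp only [Subgroup.mem_map, MulEquiv.coe_toMonoidHom, MulAut.conj_apply]
  constructor
  · rintro ⟨v, hv, rfl⟩
    exact (Subgroup.mem_normalizer_iff.mp hx v).mp hv
  · intro hy
    refine ⟨x⁻¹ * y * x⁻¹⁻¹, (Subgroup.mem_normalizer_iff.mp (inv_mem hx) y).mp hy, by group⟩

/-- a group of order `p` centralizes its commutator of order `p`. -/
theorem centralizes_comm [Finite G] {p : ℕ} [Fact p.Prime] {V H Q A : Subgroup G} (S : Setup p V H Q)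
    (hAH : A ≤ H) (hc : Nat.card A = p) (hc2 : Nat.card ↥(⁅V, A⁆) = p) :
    ∀ a ∈ A, ∀ w ∈ ⁅V, A⁆, a * w = w * a := by
  have h1 := Helper5.card_sup_mul_card_inf A ⁅V, A⁆ (Helper5.right_le_normalizer_commutator V A)
  have h2 : A ⊓ ⁅V, A⁆ = ⊥ := by
    rw [eq_bot_iff, ← V_inf_H S]
    exact inf_le_inf hAH (Helper5.commutator_le_of_le_normalizer (hAH.trans S.hHV) le_rfl)
  rw [h2, hc, hc2] at h1
  have h3 : Nat.card ↥(A ⊔ ⁅V, A⁆) = p ^ 2 := by simpa [sq] using h1
  intro a ha w hw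
  have := IsPGroup.commutative_of_card_eq_prime_sq h3 ⟨a, (le_sup_left : A ≤ _) ha⟩
    ⟨w, (le_sup_right : ⁅V, A⁆ ≤ _) hw⟩
  exact congrArg Subtype.val this

theorem mem_centralizer_sup_zpowers {g w1 w2 : G} (h1 : g * w1 = w1 * g) (h2 : g * w2 = w2 * g) :
    g ∈ Subgroup.centralizer ((Subgroup.zpowers w1 ⊔ Subgroup.zpowers w2 : Subgroup G) : Set G) := by
  have h : Subgroup.zpowers w1 ⊔ Subgroup.zpowers w2 ≤ Subgroup.centralizer ({g} : Set G) := by
    refine sup_le ?_ ?_ <;> rw [Subgroup.zpowers_le, Subgroup.mem_centralizer_singleton_iff]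
    · exact h1.symm
    · exact h2.symm
  rw [Subgroup.mem_centralizer_iff]
  intro w hw
  exact (Subgroup.mem_centralizer_singleton_iff.mp (h hw))

end Cfsg.Agent.Lib.Helper4.BO
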