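import Cfsg.Agent.Lib.Helper4.BO3

set_option autoImplicit false

namespace Cfsg.Agent.Lib.Helper4.BO

open Cfsg
open scoped commutatorElement
open Cfsg.Agent.Lib.Helper4.SL2R (Coord phi mat)

variable {G : Type*} [Group G]

local notation "SL2" => Matrix.SpecialLinearGroup (Fin 2)

/-- a best offender `⟨a⟩` of order `p` and a conjugate `b = a ^ x`, `x ∈ Q`, different from `a`. -/
structure PairData (p : ℕ) (V H Q : Subgroup G) (a b x : G) : Prop where
  S : Setup p V H Q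
  ha : a ∈ H
  hBO : IsBestOffenderOn p V (Subgroup.zpowers a)
  hc : Nat.card (Subgroup.zpowers a) = p
  hx : x ∈ Q
  hb : b = x * a * x⁻¹
  hab : b ≠ a

variable {p : ℕ} {V H Q : Subgroup G} {a b x : G}

namespace PairData

theorem a_pow (D : PairData p V H Q a b x) : a ^ p = 1 := by
  have := D.hc
  rw [Nat.card_zpowers] at this
  rw [← this]; exact pow_orderOf_eq_one a

theorem b_pow (D : PairData p V H Q a b x) : b ^ p = 1 := by
  rw [D.hb, conj_pow, D.a_pow]; group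

theorem a_ne [Fact p.Prime] (D : PairData p V H Q a b x) : a ≠ 1 := by
  intro h
  have := D.hc
  rw [h, Nat.card_zpowers, orderOf_one] at this
  exact (Fact.out : p.Prime).one_lt.ne this

theorem hbH (D : PairData p V H Q a b x) : b ∈ H := by
  rw [D.hb]
  exact H.mul_mem (H.mul_mem (D.S.hQH D.hx) D.ha) (H.inv_mem (D.S.hQH D.hx))

theorem E_le (D : PairData p V H Q a b x) : Subgroup.closure ({a, b} : Set G) ≤ H := by
  rw [Subgroup.closure_le]
  rintro y (rfl | rfl)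
  exacts [D.ha, D.hbH]

theorem conjQ (D : PairData p V H Q a b x) {h q : G} (hh : h ∈ H) (hq : q ∈ Q) : h * q * h⁻¹ ∈ Q :=
  (Subgroup.mem_normalizer_iff.mp (D.S.hQn hh) q).mp hq

theorem comm_le (D : PairData p V H Q a b x) :
    ⁅Subgroup.closure ({a, b} : Set G), Subgroup.closure ({a, b} : Set G)⁆ ≤ Q := by
  have hab : ⁅a, b⁆ ∈ Q := by
    have h1 : ⁅a, b⁆ = (a * x * a⁻¹) * ((a * a) * x⁻¹ * (a * a)⁻¹) * (a * x * a⁻¹) * x⁻¹ := by
      rw [D.hb, commutatorElement_def]; group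
    rw [h1]
    exact Q.mul_mem (Q.mul_mem (Q.mul_mem (D.conjQ D.ha D.hx)
      (D.conjQ (H.mul_mem D.ha D.ha) (Q.inv_mem D.hx))) (D.conjQ D.ha D.hx)) (Q.inv_mem D.hx)
  apply Helper5.commutator_closure_le _ _ (D.E_le.trans D.S.hQn)
  rintro s (rfl | rfl) t (rfl | rfl)
  · simp
  · exact hab
  · rw [← commutatorElement_inv]; exact Q.inv_mem hab
  · simp

theorem E_le_QA (D : PairData p V H Q a b x) :
    Subgroup.closure ({a, b} : Set G) ≤ Q ⊔ Subgroup.zpowers a := by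
  rw [Subgroup.closure_le]
  rintro y (rfl | rfl)
  · exact (le_sup_right : Subgroup.zpowers y ≤ _) (Subgroup.mem_zpowers y)
  · have h1 : y = (x * (a * x⁻¹ * a⁻¹)) * a := by rw [D.hb]; group
    show y ∈ Q ⊔ Subgroup.zpowers a
    rw [h1]
    exact mul_mem ((le_sup_left : Q ≤ _) (Q.mul_mem D.hx (D.conjQ D.ha (Q.inv_mem D.hx))))
      ((le_sup_right : Subgroup.zpowers a ≤ _) (Subgroup.mem_zpowers a))

theorem E_le_QB (D : PairData p V H Q a b x) :
    Subgroup.closure ({a, b} : Set G) ≤ Q ⊔ Subgroup.zpowers b := by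
  rw [Subgroup.closure_le]
  rintro y (rfl | rfl)
  · have h1 : y = (x⁻¹ * (b * x * b⁻¹)) * b := by rw [D.hb]; group
    show y ∈ Q ⊔ Subgroup.zpowers b
    rw [h1]
    exact mul_mem ((le_sup_left : Q ≤ _) (Q.mul_mem (Q.inv_mem D.hx) (D.conjQ D.hbH D.hx)))
      ((le_sup_right : Subgroup.zpowers b ≤ _) (Subgroup.mem_zpowers b))
  · exact (le_sup_right : Subgroup.zpowers y ≤ _) (Subgroup.mem_zpowers y)

theorem card_b (D : PairData p V H Q a b x) : Nat.card (Subgroup.zpowers b) = p := by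
  have := D.hc
  rw [Nat.card_zpowers] at this ⊢
  rw [D.hb]
  have h : x * a * x⁻¹ = MulAut.conj x a := rfl
  rw [h, MulEquiv.orderOf_eq, this]

theorem faithful [Finite G] [Fact p.Prime] (D : PairData p V H Q a b x) :
    Subgroup.closure ({a, b} : Set G) ⊓
      Subgroup.centralizer ((⁅V, Subgroup.closure ({a, b} : Set G)⁆ : Subgroup G) : Set G) = ⊥ := by
  have hEH := D.E_le
  have hQA := D.E_le_QA
  have hQB := D.E_le_QB
  have hEQ := D.comm_le
  have haE : a ∈ Subgroup.closure ({a, b} : Set G) := Subgroup.subset_closure (by simp)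
  have hbE : b ∈ Subgroup.closure ({a, b} : Set G) := Subgroup.subset_closure (by simp)
  obtain ⟨E, hE⟩ : ∃ E, E = Subgroup.closure ({a, b} : Set G) := ⟨_, rfl⟩
  rw [← hE] at hEH hQA hQB hEQ haE hbE ⊢
  have hEV : E ≤ Subgroup.normalizer (V : Set G) := hEH.trans D.S.hHV
  have hWV : ⁅V, E⁆ ≤ V := Helper5.commutator_le_of_le_normalizer hEV le_rfl
  have hEW : E ≤ Subgroup.normalizer ((⁅V, E⁆ : Subgroup G) : Set G) :=
    Helper5.right_le_normalizer_commutator V E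
  obtain ⟨K, hK⟩ : ∃ K, K = E ⊓ Subgroup.centralizer ((⁅V, E⁆ : Subgroup G) : Set G) := ⟨_, rfl⟩
  rw [← hK]
  have hKE : K ≤ E := hK ▸ inf_le_left
  have hKC : K ≤ Subgroup.centralizer ((⁅V, E⁆ : Subgroup G) : Set G) := hK ▸ inf_le_right
  have hpow : ∀ k ∈ K, k ^ p = 1 := fun k hk =>
    pow_eq_one_of_stab D.S.hV D.S.hf (hEH (hKE hk)) hWV
      (fun v hv => Subgroup.commutator_mem_commutator hv (hKE hk)) (hKC hk)
  have hnorm : ∀ k ∈ K, ∀ g ∈ E, g * k * g⁻¹ ∈ K := by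
    intro k hk g hg
    rw [hK]
    refine Subgroup.mem_inf.mpr ⟨E.mul_mem (E.mul_mem hg (hKE hk)) (E.inv_mem hg), ?_⟩
    rw [Subgroup.mem_centralizer_iff]
    intro w hw
    have hw' : g⁻¹ * w * g⁻¹⁻¹ ∈ ⁅V, E⁆ := (Subgroup.mem_normalizer_iff.mp (hEW (inv_mem hg)) w).mp hw
    have h1 : (g⁻¹ * w * g⁻¹⁻¹) * k = k * (g⁻¹ * w * g⁻¹⁻¹) := hKC hk _ hw'
    calc w * (g * k * g⁻¹) = g * ((g⁻¹ * w * g⁻¹⁻¹) * k) * g⁻¹ := by group
      _ = g * (k * (g⁻¹ * w * g⁻¹⁻¹)) * g⁻¹ := by rw [h1]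
      _ = g * k * g⁻¹ * w := by group
  have hcomm : ∀ k ∈ K, ∀ g ∈ E, k * g = g * k := by
    intro k hk g hg
    have h1 : ⁅k, g⁆ ∈ Q := hEQ (Subgroup.commutator_mem_commutator (hKE hk) hg)
    have h2 : ⁅k, g⁆ ∈ K := by
      have : ⁅k, g⁆ = k * (g * k⁻¹ * g⁻¹) := by rw [commutatorElement_def]; group
      rw [this]
      exact K.mul_mem hk (hnorm _ (K.inv_mem hk) g hg)
    exact commutatorElement_eq_one_iff_mul_comm.mp (eq_one_of_pow_of_mem D.S.hQp h1 (hpow _ h2))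
  have hmem : ∀ c : G, c ∈ E → c ^ p = 1 → E ≤ Q ⊔ Subgroup.zpowers c → ∀ k ∈ K,
      k ∈ Subgroup.zpowers c := by
    intro c hc hcp hle k hk
    have hzE : Subgroup.zpowers c ≤ E := by rw [Subgroup.zpowers_le]; exact hc
    have h1 : k ∈ ((Q ⊔ Subgroup.zpowers c : Subgroup G) : Set G) := hle (hKE hk)
    rw [Subgroup.coe_mul_of_right_le_normalizer_left Q (Subgroup.zpowers c)
      ((hzE.trans hEH).trans D.S.hQn)] at h1
    obtain ⟨q, hq, y, hy, rfl⟩ := Set.mem_mul.mp h1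
    have h2 := hcomm _ hk y (hzE hy)
    have h3 : q * y = y * q := by
      have : q * y * y = y * q * y := by rw [h2]; group
      exact mul_right_cancel this
    have hyp : y ^ p = 1 := by
      obtain ⟨n, rfl⟩ := Subgroup.mem_zpowers_iff.mp hy
      rw [← zpow_natCast, ← zpow_mul, mul_comm, zpow_mul, zpow_natCast, hcp, one_zpow]
    have h4 : q ^ p = 1 := by
      have := hpow _ hk
      rwa [(show Commute q y from h3).mul_pow, hyp, mul_one] at this
    rw [eq_one_of_pow_of_mem D.S.hQp hq h4, one_mul]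
    exact hy
  rw [eq_bot_iff]
  intro k hk
  rw [Subgroup.mem_bot]
  by_contra hk1
  have hkA := hmem a haE D.a_pow hQA k hk
  have hkB := hmem b hbE D.b_pow hQB k hk
  have hne : Subgroup.zpowers a ⊓ Subgroup.zpowers b ≠ ⊥ := by
    intro h
    have : k ∈ Subgroup.zpowers a ⊓ Subgroup.zpowers b := Subgroup.mem_inf.mpr ⟨hkA, hkB⟩
    rw [h] at this
    exact hk1 (Subgroup.mem_bot.mp this)
  have heq := eq_of_inf_ne_bot D.hc D.card_b hne
  have hbA : b ∈ Subgroup.zpowers a := heq ▸ Subgroup.mem_zpowers b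
  have h5 : b * a⁻¹ ∈ Subgroup.zpowers a := mul_mem hbA (inv_mem (Subgroup.mem_zpowers a))
  have h6 : b * a⁻¹ ∈ Q := by
    have : b * a⁻¹ = x * (a * x⁻¹ * a⁻¹) := by rw [D.hb]; group
    rw [this]
    exact Q.mul_mem D.hx (D.conjQ D.ha (Q.inv_mem D.hx))
  have h7 : (b * a⁻¹) ^ p = 1 := by
    obtain ⟨n, hn⟩ := Subgroup.mem_zpowers_iff.mp h5
    rw [← hn, ← zpow_natCast, ← zpow_mul, mul_comm, zpow_mul, zpow_natCast, D.a_pow, one_zpow]
  exact D.hab (mul_inv_eq_one.mp (eq_one_of_pow_of_mem D.S.hQp h6 h7))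

end PairData

end Cfsg.Agent.Lib.Helper4.BO
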