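import Cfsg.Agent.Lib.Helper4.BO4

set_option autoImplicit false

namespace Cfsg.Agent.Lib.Helper4.BO

open Cfsg
open scoped commutatorElement
open Cfsg.Agent.Lib.Helper4.SL2R (Coord phi mat)

variable {G : Type*} [Group G]

local notation "SL2" => Matrix.SpecialLinearGroup (Fin 2)

theorem closure_pair_eq (a b : G) :
    Subgroup.closure ({a, b} : Set G) = Subgroup.zpowers a ⊔ Subgroup.zpowers b := by
  rw [Subgroup.zpowers_eq_closure, Subgroup.zpowers_eq_closure, ← Subgroup.closure_union]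
  rfl

theorem phi_natCast_one {p : ℕ} [Fact p.Prime] {w1 w2 : G} (h1 : w1 ^ p = 1) (k : ℕ) :
    phi w1 w2 ((k : ZMod p), 1) = w1 ^ k * w2 := by
  have : (1 : ZMod p).val = 1 := ZMod.val_one'' (Fact.out : p.Prime).ne_one
  unfold phi
  simp only [ZMod.val_natCast, this, pow_one]
  rw [← pow_eq_pow_mod _ h1]

theorem phi_one_natCast {p : ℕ} [Fact p.Prime] {w1 w2 : G} (h2 : w2 ^ p = 1) (k : ℕ) :
    phi w1 w2 (1, (k : ZMod p)) = w1 * w2 ^ k := by
  have : (1 : ZMod p).val = 1 := ZMod.val_one'' (Fact.out : p.Prime).ne_one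
  unfold phi
  simp only [ZMod.val_natCast, this, pow_one]
  rw [← pow_eq_pow_mod _ h2]

variable {p : ℕ} {V H Q : Subgroup G} {a b x : G}

namespace PairData

theorem main [Finite G] [Fact p.Prime] (D : PairData p V H Q a b x) :
    (p = 2 ∨ p = 3) ∧ ∃ w1 w2 : G, ⁅V, Subgroup.zpowers a⁆ = Subgroup.zpowers w1 ∧
      ⁅V, Subgroup.zpowers b⁆ = Subgroup.zpowers w2 ∧
      Coord p ⁅V, Subgroup.closure ({a, b} : Set G)⁆ w1 w2 ∧
      ∃ e : ↥(Subgroup.closure ({a, b} : Set G)) ≃* SL2 (ZMod p),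
        ∀ g, ((e g : SL2 (ZMod p)) : Matrix (Fin 2) (Fin 2) (ZMod p)) = mat p w1 w2 (g : G) := by
  have hp := (Fact.out : p.Prime)
  have hAH : Subgroup.zpowers a ≤ H := by rw [Subgroup.zpowers_le]; exact D.ha
  have hBH : Subgroup.zpowers b ≤ H := by rw [Subgroup.zpowers_le]; exact D.hbH
  have hcA : Nat.card ↥(⁅V, Subgroup.zpowers a⁆) = p := (transvection D.S hAH D.hBO D.hc).1
  obtain ⟨w1, hw1, hA1⟩ := exists_zpowers_eq hcA
  obtain ⟨w2, hw2⟩ : ∃ w2, w2 = x * w1 * x⁻¹ := ⟨_, rfl⟩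
  have hxV : x ∈ Subgroup.normalizer (V : Set G) := D.S.hHV (D.S.hQH D.hx)
  have hB1 : ⁅V, Subgroup.zpowers b⁆ = Subgroup.zpowers w2 := by
    have h1 := Subgroup.map_commutator V (Subgroup.zpowers a) (MulAut.conj x).toMonoidHom
    rw [map_conj_eq hxV, hA1, MonoidHom.map_zpowers, MonoidHom.map_zpowers] at h1
    rw [D.hb, hw2]
    exact h1.symm
  have hc1 : Nat.card (Subgroup.zpowers w1) = p := hA1 ▸ hcA
  have hc2 : Nat.card (Subgroup.zpowers w2) = p := by
    rw [Nat.card_zpowers] at hc1 ⊢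
    have h : x * w1 * x⁻¹ = MulAut.conj x w1 := rfl
    rw [hw2, h, MulEquiv.orderOf_eq, hc1]
  have hw1V : w1 ∈ V := Helper5.commutator_le_of_le_normalizer (hAH.trans D.S.hHV) le_rfl hw1
  have hw2V : w2 ∈ V := hw2 ▸ (Subgroup.mem_normalizer_iff.mp hxV w1).mp hw1V
  have ca : a * w1 = w1 * a :=
    centralizes_comm D.S hAH D.hc hcA a (Subgroup.mem_zpowers a) w1 hw1
  have cb : b * w2 = w2 * b := by
    rw [D.hb, hw2]
    calc x * a * x⁻¹ * (x * w1 * x⁻¹) = x * (a * w1) * x⁻¹ := by group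
      _ = x * (w1 * a) * x⁻¹ := by rw [ca]
      _ = _ := by group
  have hW : ⁅V, Subgroup.closure ({a, b} : Set G)⁆ = Subgroup.zpowers w1 ⊔ Subgroup.zpowers w2 := by
    rw [closure_pair_eq, commutator_sup_eq (hAH.trans D.S.hHV) (hBH.trans D.S.hHV), hA1, hB1]
  have hF := D.faithful
  have haE : a ∈ Subgroup.closure ({a, b} : Set G) := Subgroup.subset_closure (by simp)
  have hbE : b ∈ Subgroup.closure ({a, b} : Set G) := Subgroup.subset_closure (by simp)
  have hb_ne : b ≠ 1 := by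
    intro h
    have := D.card_b
    rw [h, Nat.card_zpowers, orderOf_one] at this
    exact hp.one_lt.ne this
  have hnot : ∀ g ∈ Subgroup.closure ({a, b} : Set G), g ≠ 1 → g * w1 = w1 * g → g * w2 = w2 * g →
      False := by
    intro g hg hg1 h1 h2
    have h3 : g ∈ Subgroup.closure ({a, b} : Set G) ⊓
        Subgroup.centralizer ((⁅V, Subgroup.closure ({a, b} : Set G)⁆ : Subgroup G) : Set G) := by
      refine Subgroup.mem_inf.mpr ⟨hg, ?_⟩
      rw [hW]
      exact mem_centralizer_sup_zpowers h1 h2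
    rw [hF] at h3
    exact hg1 (Subgroup.mem_bot.mp h3)
  have hcomm : w1 * w2 = w2 * w1 := comm_of_elemAb D.S.hV hw1V hw2V
  have hind : Subgroup.zpowers w1 ⊓ Subgroup.zpowers w2 = ⊥ := by
    by_contra hne
    have heq := eq_of_inf_ne_bot hc1 hc2 hne
    have h1 : w2 ∈ Subgroup.zpowers w1 := heq ▸ Subgroup.mem_zpowers w2
    obtain ⟨n, hn⟩ := Subgroup.mem_zpowers_iff.mp h1
    refine hnot a haE D.a_ne ca ?_
    rw [← hn]
    exact (Commute.zpow_right (show Commute a w1 from ca) n)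
  have hz2V : Subgroup.zpowers w2 ≤ V := by rw [Subgroup.zpowers_le]; exact hw2V
  have hcard : Nat.card ↥(⁅V, Subgroup.closure ({a, b} : Set G)⁆) = p ^ 2 := by
    have hn : Subgroup.zpowers w1 ≤ Subgroup.normalizer ((Subgroup.zpowers w2 : Subgroup G) : Set G) := by
      apply Helper5.le_normalizer_of_le_centralizer
      rw [Subgroup.zpowers_le, Subgroup.mem_centralizer_iff]
      intro h hh
      exact comm_of_elemAb D.S.hV (hz2V hh) hw1V
    have h1 := Helper5.card_sup_mul_card_inf _ _ hn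
    rw [hind, hc1, hc2] at h1
    rw [hW, sq]
    simpa using h1
  have hne1 : w1 ≠ 1 := by
    intro h
    rw [h, Nat.card_zpowers, orderOf_one] at hc1
    exact hp.one_lt.ne hc1
  have hne2 : w2 ≠ 1 := by
    intro h
    rw [h, Nat.card_zpowers, orderOf_one] at hc2
    exact hp.one_lt.ne hc2
  have C : Coord p ⁅V, Subgroup.closure ({a, b} : Set G)⁆ w1 w2 :=
    { h1 := hW ▸ (le_sup_left : Subgroup.zpowers w1 ≤ _) (Subgroup.mem_zpowers w1)
      h2 := hW ▸ (le_sup_right : Subgroup.zpowers w2 ≤ _) (Subgroup.mem_zpowers w2)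
      comm := hcomm
      p1 := D.S.hV.2 _ hw1V
      p2 := D.S.hV.2 _ hw2V
      ne1 := hne1
      ne2 := hne2
      ind := hind
      card := hcard }
  have hEN := Helper5.right_le_normalizer_commutator V (Subgroup.closure ({a, b} : Set G))
  -- the action of `a`
  obtain ⟨k, hk⟩ : ∃ k : ℕ, a * w2 * a⁻¹ = w1 ^ k * w2 := by
    have h1 : ⁅w2, a⁆ ∈ ⁅V, Subgroup.zpowers a⁆ :=
      Subgroup.commutator_mem_commutator hw2V (Subgroup.mem_zpowers a)
    rw [hA1] at h1
    obtain ⟨k, hk⟩ := (mem_powers_iff_mem_zpowers).mpr (inv_mem h1)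
    refine ⟨k, ?_⟩
    have hk' : w1 ^ k = ⁅w2, a⁆⁻¹ := hk
    rw [hk', commutatorElement_def]; group
  obtain ⟨l, hl⟩ : ∃ l : ℕ, b * w1 * b⁻¹ = w1 * w2 ^ l := by
    have h1 : ⁅w1, b⁆ ∈ ⁅V, Subgroup.zpowers b⁆ :=
      Subgroup.commutator_mem_commutator hw1V (Subgroup.mem_zpowers b)
    rw [hB1] at h1
    obtain ⟨k, hk⟩ := (mem_powers_iff_mem_zpowers).mpr (inv_mem h1)
    refine ⟨k, ?_⟩
    have hk' : w2 ^ k = ⁅w1, b⁆⁻¹ := hk
    have h2 : w1 * w2 ^ k = w2 ^ k * w1 := (Commute.pow_right (show Commute w1 w2 from hcomm) k)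
    rw [h2, hk', commutatorElement_def]; group
  have hα : ((k : ℕ) : ZMod p) ≠ 0 := by
    intro h
    rw [ZMod.natCast_eq_zero_iff] at h
    obtain ⟨m, rfl⟩ := h
    rw [pow_mul, C.p1, one_pow, one_mul] at hk
    exact hnot a haE D.a_ne ca (mul_inv_eq_iff_eq_mul.mp hk)
  have hβ : ((l : ℕ) : ZMod p) ≠ 0 := by
    intro h
    rw [ZMod.natCast_eq_zero_iff] at h
    obtain ⟨m, rfl⟩ := h
    rw [pow_mul, C.p2, one_pow, mul_one] at hl
    exact hnot b hbE hb_ne (mul_inv_eq_iff_eq_mul.mp hl) cb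
  obtain ⟨e, he⟩ := SL2R.main C (hEN haE) (hEN hbE) hα hβ (mul_inv_eq_iff_eq_mul.mpr ca)
    (by rw [phi_natCast_one C.p1]; exact hk) (by rw [phi_one_natCast C.p2]; exact hl)
    (mul_inv_eq_iff_eq_mul.mpr cb) hF
  refine ⟨?_, w1, w2, hA1, hB1, C, e, he⟩
  by_contra hcon
  push Not at hcon
  obtain ⟨g, u, hne, hpw⟩ := SL2R.exists_comm hcon.1 hcon.2
  have h1 : ((⁅e.symm g, e.symm u⁆ : ↥(Subgroup.closure ({a, b} : Set G))) : G) ∈ Q := by
    apply D.comm_le
    have : ((⁅e.symm g, e.symm u⁆ : ↥(Subgroup.closure ({a, b} : Set G))) : G) =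
        ⁅((e.symm g : ↥(Subgroup.closure ({a, b} : Set G))) : G), ((e.symm u : ↥(Subgroup.closure ({a, b} : Set G))) : G)⁆ := by
      simp [commutatorElement_def]
    rw [this]
    exact Subgroup.commutator_mem_commutator (e.symm g).2 (e.symm u).2
  have h2 : e ⁅e.symm g, e.symm u⁆ = ⁅g, u⁆ := by
    rw [map_commutatorElement, e.apply_symm_apply, e.apply_symm_apply]
  have h3 : (⁅e.symm g, e.symm u⁆ : ↥(Subgroup.closure ({a, b} : Set G))) ^ p = 1 := by
    apply e.injective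
    rw [map_pow, h2, hpw, map_one]
  have h4 : ((⁅e.symm g, e.symm u⁆ : ↥(Subgroup.closure ({a, b} : Set G))) : G) ^ p = 1 := by
    have := congrArg Subtype.val h3
    simpa using this
  have h5 := eq_one_of_pow_of_mem D.S.hQp h1 h4
  have h6 : (⁅e.symm g, e.symm u⁆ : ↥(Subgroup.closure ({a, b} : Set G))) = 1 := Subtype.ext h5
  rw [h6, map_one] at h2
  exact hne h2.symm

end PairData

end Cfsg.Agent.Lib.Helper4.BO
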