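import Cfsg.Agent.Lib.Helper4.BO5

set_option autoImplicit false

namespace Cfsg.Agent.Lib.Helper4.BO

open Cfsg
open scoped commutatorElement
open Cfsg.Agent.Lib.Helper4.SL2R (Coord phi mat)

variable {G : Type*} [Group G]

local notation "SL2" => Matrix.SpecialLinearGroup (Fin 2)

theorem comm_map_conj {V : Subgroup G} {y : G} (hy : y ∈ Subgroup.normalizer (V : Set G)) (a : G) :
    ⁅V, Subgroup.zpowers (y * a * y⁻¹)⁆ =
      (⁅V, Subgroup.zpowers a⁆).map (MulAut.conj y).toMonoidHom := by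
  rw [Subgroup.map_commutator, map_conj_eq hy, MonoidHom.map_zpowers]
  rfl

variable {p : ℕ} {V H Q : Subgroup G} {a b x : G}

namespace PairData

theorem a_comm [Finite G] [Fact p.Prime] (D : PairData p V H Q a b x) :
    ∀ w ∈ ⁅V, Subgroup.zpowers a⁆, a * w = w * a := by
  have hAH : Subgroup.zpowers a ≤ H := by rw [Subgroup.zpowers_le]; exact D.ha
  exact centralizes_comm D.S hAH D.hc (transvection D.S hAH D.hBO D.hc).1 a (Subgroup.mem_zpowers a)

theorem b_comm [Finite G] [Fact p.Prime] (D : PairData p V H Q a b x) :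
    ∀ w ∈ ⁅V, Subgroup.zpowers b⁆, b * w = w * b := by
  intro w hw
  rw [D.hb, comm_map_conj (D.S.hHV (D.S.hQH D.hx))] at hw
  obtain ⟨w', hw', rfl⟩ := hw
  have h1 := D.a_comm w' hw'
  rw [D.hb]
  show x * a * x⁻¹ * (x * w' * x⁻¹) = x * w' * x⁻¹ * (x * a * x⁻¹)
  calc x * a * x⁻¹ * (x * w' * x⁻¹) = x * (a * w') * x⁻¹ := by group
    _ = x * (w' * a) * x⁻¹ := by rw [h1]
    _ = _ := by group

theorem not_centralizes [Finite G] [Fact p.Prime] (D : PairData p V H Q a b x) {g : G}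
    (hg : g ∈ Subgroup.closure ({a, b} : Set G)) (hg1 : g ≠ 1)
    (h1 : ∀ w ∈ ⁅V, Subgroup.zpowers a⁆, g * w = w * g)
    (h2 : ∀ w ∈ ⁅V, Subgroup.zpowers b⁆, g * w = w * g) : False := by
  have hAH : Subgroup.zpowers a ≤ H := by rw [Subgroup.zpowers_le]; exact D.ha
  have hBH : Subgroup.zpowers b ≤ H := by rw [Subgroup.zpowers_le]; exact D.hbH
  have h3 : g ∈ Subgroup.closure ({a, b} : Set G) ⊓
      Subgroup.centralizer ((⁅V, Subgroup.closure ({a, b} : Set G)⁆ : Subgroup G) : Set G) := by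
    refine Subgroup.mem_inf.mpr ⟨hg, ?_⟩
    rw [closure_pair_eq, commutator_sup_eq (hAH.trans D.S.hHV) (hBH.trans D.S.hHV),
      Helper5.centralizer_sup]
    refine Subgroup.mem_inf.mpr ⟨?_, ?_⟩ <;> rw [Subgroup.mem_centralizer_iff]
    · exact fun w hw => (h1 w hw).symm
    · exact fun w hw => (h2 w hw).symm
  rw [D.faithful] at h3
  exact hg1 (Subgroup.mem_bot.mp h3)

/-- every `Q`-conjugate of `a` lies in `⟨a, b⟩`. -/
theorem absorb [Finite G] [Fact p.Prime] (D : PairData p V H Q a b x) {y : G} (hy : y ∈ Q) :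
    y * a * y⁻¹ ∈ Subgroup.closure ({a, b} : Set G) := by
  have hp := (Fact.out : p.Prime)
  obtain ⟨_, w1, w2, hA1, hB1, C, e, he⟩ := D.main
  have hyV : y ∈ Subgroup.normalizer (V : Set G) := D.S.hHV (D.S.hQH hy)
  obtain ⟨f, hf⟩ : ∃ f, f = y * a * y⁻¹ := ⟨_, rfl⟩
  rw [← hf]
  have hfH : f ∈ H := by
    rw [hf]; exact H.mul_mem (H.mul_mem (D.S.hQH hy) D.ha) (H.inv_mem (D.S.hQH hy))
  have hEV : Subgroup.closure ({a, b} : Set G) ≤ Subgroup.normalizer (V : Set G) :=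
    D.E_le.trans D.S.hHV
  have hWV : ⁅V, Subgroup.closure ({a, b} : Set G)⁆ ≤ V :=
    Helper5.commutator_le_of_le_normalizer hEV le_rfl
  have hw1V : w1 ∈ V := hWV C.h1
  have hw2V : w2 ∈ V := hWV C.h2
  have hF1 : ⁅V, Subgroup.zpowers f⁆ = Subgroup.zpowers (y * w1 * y⁻¹) := by
    rw [hf, comm_map_conj hyV, hA1, MonoidHom.map_zpowers]; rfl
  have hc3 : Nat.card (Subgroup.zpowers (y * w1 * y⁻¹)) = p := by
    rw [Nat.card_zpowers]
    have h : y * w1 * y⁻¹ = MulAut.conj y w1 := rfl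
    rw [h, MulEquiv.orderOf_eq]
    exact orderOf_eq_prime C.p1 C.ne1
  -- Step 1
  obtain ⟨u, hu0, hu⟩ : ∃ u : ZMod p × ZMod p, u ≠ 0 ∧ f * phi w1 w2 u = phi w1 w2 u * f := by
    by_cases h1 : ⁅w1, f⁆ = 1
    · refine ⟨(1, 0), by simp, ?_⟩
      rw [SL2R.phi_one_zero]
      exact (commutatorElement_eq_one_iff_mul_comm.mp h1).symm
    · have m1 : ⁅w1, f⁆ ∈ Subgroup.zpowers (y * w1 * y⁻¹) :=
        hF1 ▸ Subgroup.commutator_mem_commutator hw1V (Subgroup.mem_zpowers f)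
      have m2 : ⁅w2, f⁆ ∈ Subgroup.zpowers (y * w1 * y⁻¹) :=
        hF1 ▸ Subgroup.commutator_mem_commutator hw2V (Subgroup.mem_zpowers f)
      have hV1 : ⁅w1, f⁆ ∈ V := by
        have hz : Subgroup.zpowers f ≤ Subgroup.normalizer (V : Set G) := by
          rw [Subgroup.zpowers_le]; exact D.S.hHV hfH
        exact Helper5.commutatorElement_mem_of_le_normalizer hz (Subgroup.mem_zpowers f) hw1V
      have hpw : ⁅w1, f⁆ ^ p = 1 := D.S.hV.2 _ hV1
      have hz : Subgroup.zpowers ⁅w1, f⁆ = Subgroup.zpowers (y * w1 * y⁻¹) := by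
        apply Subgroup.eq_of_le_of_card_ge
        · rw [Subgroup.zpowers_le]; exact m1
        · rw [hc3, Nat.card_zpowers, orderOf_eq_prime hpw h1]
      rw [← hz] at m2
      obtain ⟨k, hk⟩ := (mem_powers_iff_mem_zpowers).mpr m2
      have hk' : ⁅w1, f⁆ ^ k = ⁅w2, f⁆ := hk
      refine ⟨(((k * (p - 1) : ℕ) : ZMod p), 1), ?_, ?_⟩
      · intro h
        have := congrArg Prod.snd h
        simp at this
      · rw [phi_natCast_one C.p1]
        have h2 := map_mul (commHom V D.S.hV.1 f (D.S.hHV hfH)) ((⟨w1, hw1V⟩ : ↥V) ^ (k * (p - 1)))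
          ⟨w2, hw2V⟩
        rw [map_pow, commHom_apply, commHom_apply, commHom_apply] at h2
        have h3 : ⁅w1, f⁆ ^ (k * (p - 1)) * ⁅w2, f⁆ = 1 := by
          rw [← hk', ← pow_add]
          have : k * (p - 1) + k = p * k := by
            obtain ⟨n, rfl⟩ : ∃ n, p = n + 1 := ⟨p - 1, by have := hp.one_lt; omega⟩
            simp; ring
          rw [this, pow_mul, hpw, one_pow]
        simp only [Subgroup.coe_mul, Subgroup.coe_pow] at h2
        rw [h3] at h2
        exact (commutatorElement_eq_one_iff_mul_comm.mp h2).symm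
  -- Step 2
  obtain ⟨M, hM0, hM1⟩ := SL2R.exists_first_col u hu0
  have hEN := Helper5.right_le_normalizer_commutator V (Subgroup.closure ({a, b} : Set G))
  obtain ⟨g, hg⟩ : ∃ g, g = e.symm M := ⟨_, rfl⟩
  have hgM : mat p w1 w2 (g : G) = M := by rw [← he, hg, e.apply_symm_apply]
  have hgw : (g : G) * w1 * (g : G)⁻¹ = phi w1 w2 u := by
    have h1 := SL2R.conj_phi' C (hEN g.2) (1, 0)
    rw [SL2R.phi_one_zero, hgM, hM0, hM1] at h1
    simpa using h1
  -- Step 3
  have hc' : ((g : G)⁻¹ * f * g) * w1 = w1 * ((g : G)⁻¹ * f * g) := by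
    have h1 : w1 = (g : G)⁻¹ * phi w1 w2 u * g := by rw [← hgw]; group
    calc ((g : G)⁻¹ * f * g) * w1 = (g : G)⁻¹ * f * g * ((g : G)⁻¹ * phi w1 w2 u * g) := by rw [← h1]
      _ = (g : G)⁻¹ * (f * phi w1 w2 u) * g := by group
      _ = (g : G)⁻¹ * (phi w1 w2 u * f) * g := by rw [hu]
      _ = ((g : G)⁻¹ * phi w1 w2 u * g) * ((g : G)⁻¹ * f * g) := by group
      _ = _ := by rw [← h1]
  -- Step 4
  have hzH : Subgroup.zpowers a ≤ H := by rw [Subgroup.zpowers_le]; exact D.ha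
  have h4 : (g : G)⁻¹ * y ∈ ((Q ⊔ Subgroup.zpowers a : Subgroup G) : Set G) :=
    mul_mem (inv_mem (D.E_le_QA g.2)) ((le_sup_left : Q ≤ _) hy)
  rw [Subgroup.coe_mul_of_right_le_normalizer_left Q (Subgroup.zpowers a) (hzH.trans D.S.hQn)] at h4
  obtain ⟨q, hq, z, hz, hqz⟩ := Set.mem_mul.mp h4
  have hza : z * a * z⁻¹ = a := by
    obtain ⟨n, rfl⟩ := Subgroup.mem_zpowers_iff.mp hz
    rw [mul_inv_eq_iff_eq_mul]
    exact (Commute.zpow_left (Commute.refl a) n)
  have h5 : (g : G)⁻¹ * f * g = q * a * q⁻¹ := by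
    calc (g : G)⁻¹ * f * g = ((g : G)⁻¹ * y) * a * ((g : G)⁻¹ * y)⁻¹ := by rw [hf]; group
      _ = q * (z * a * z⁻¹) * q⁻¹ := by rw [← hqz]; group
      _ = _ := by rw [hza]
  -- Step 5
  have h6 : q * a * q⁻¹ = a := by
    by_contra hne
    have D' : PairData p V H Q a (q * a * q⁻¹) q := ⟨D.S, D.ha, D.hBO, D.hc, hq, rfl, hne⟩
    have hne1 : q * a * q⁻¹ ≠ 1 := by
      intro h
      have := D'.card_b
      rw [h, Nat.card_zpowers, orderOf_one] at this
      exact hp.one_lt.ne this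
    refine D'.not_centralizes (Subgroup.subset_closure (by simp)) hne1 ?_ D'.b_comm
    intro w hw
    rw [hA1] at hw
    obtain ⟨n, rfl⟩ := Subgroup.mem_zpowers_iff.mp hw
    rw [← h5]
    exact (Commute.zpow_right (show Commute _ w1 from hc') n)
  have h7 : f = g * a * (g : G)⁻¹ := by
    have h8 : (g : G)⁻¹ * f * g = a := h5.trans h6
    calc f = g * ((g : G)⁻¹ * f * g) * (g : G)⁻¹ := by group
      _ = _ := by rw [h8]
  rw [h7]
  exact mul_mem (mul_mem g.2 (Subgroup.subset_closure (by simp))) (inv_mem g.2)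

/-- `[Q, A] A = ⟨a, b⟩`. -/
theorem E_eq [Finite G] [Fact p.Prime] (D : PairData p V H Q a b x) :
    ⁅Q, Subgroup.zpowers a⁆ ⊔ Subgroup.zpowers a = Subgroup.closure ({a, b} : Set G) := by
  have haE : a ∈ Subgroup.closure ({a, b} : Set G) := Subgroup.subset_closure (by simp)
  apply le_antisymm
  · refine sup_le ?_ (by rw [Subgroup.zpowers_le]; exact haE)
    rw [Subgroup.commutator_le]
    intro q hq z hz
    obtain ⟨n, rfl⟩ := Subgroup.mem_zpowers_iff.mp hz
    have h1 : ⁅q, a ^ n⁆ = (q * a * q⁻¹) ^ n * (a ^ n)⁻¹ := by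
      rw [commutatorElement_def, conj_zpow]
    rw [h1]
    exact mul_mem (zpow_mem (D.absorb hq) n) (inv_mem (zpow_mem haE n))
  · rw [Subgroup.closure_le]
    rintro y (rfl | rfl)
    · exact (le_sup_right : Subgroup.zpowers y ≤ _) (Subgroup.mem_zpowers y)
    · have h1 : y = ⁅x, a⁆ * a := by rw [D.hb, commutatorElement_def]; group
      show y ∈ _
      rw [h1]
      exact mul_mem ((le_sup_left : ⁅Q, Subgroup.zpowers a⁆ ≤ _)
        (Subgroup.commutator_mem_commutator D.hx (Subgroup.mem_zpowers a)))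
        ((le_sup_right : Subgroup.zpowers a ≤ _) (Subgroup.mem_zpowers a))

end PairData

end Cfsg.Agent.Lib.Helper4.BO
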