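import Cfsg.Agent.Lib.Helper4.BO6
import Cfsg.Agent.Lib.Helper12.SL2Sylow

set_option autoImplicit false

namespace Cfsg.Agent.Lib.Helper4.BO

open Cfsg
open scoped commutatorElement
open Cfsg.Agent.Lib.Helper4.SL2R (Coord phi mat)
open Cfsg.Agent.Lib.Helper5 (tU sL)

variable {G : Type*} [Group G]

local notation "SL2" => Matrix.SpecialLinearGroup (Fin 2)

theorem sl23_aux : ⁅⁅tU (1 : ZMod 3), sL (1 : ZMod 3)⁆, ⁅tU (1 : ZMod 3), sL (-1 : ZMod 3)⁆⁆ ≠ 1 := by
  decide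

theorem sl23_not_metabelian {p : ℕ} [Fact p.Prime] (hp : p = 3) :
    ⁅⁅tU (1 : ZMod p), sL (1 : ZMod p)⁆, ⁅tU (1 : ZMod p), sL (-1 : ZMod p)⁆⁆ ≠ 1 := by
  subst hp
  exact sl23_aux

theorem exists_pair [Finite G] {p : ℕ} [Fact p.Prime] {V H Q : Subgroup G} (S : Setup p V H Q) {a : G}
    (ha : a ∈ H) (hBO : IsBestOffenderOn p V (Subgroup.zpowers a))
    (hc : Nat.card (Subgroup.zpowers a) = p) :
    ∃ x, PairData p V H Q a (x * a * x⁻¹) x := by
  by_contra hcon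
  have h1 : ∀ x ∈ Q, x * a * x⁻¹ = a := by
    intro x hx
    by_contra hne
    exact hcon ⟨x, S, ha, hBO, hc, hx, rfl, hne⟩
  have h2 : a ∈ H ⊓ Subgroup.centralizer (Q : Set G) := by
    refine Subgroup.mem_inf.mpr ⟨ha, ?_⟩
    rw [Subgroup.mem_centralizer_iff]
    intro x hx
    exact mul_inv_eq_iff_eq_mul.mp (h1 x hx)
  have h3 : a ^ p = 1 := by
    rw [Nat.card_zpowers] at hc
    rw [← hc]; exact pow_orderOf_eq_one a
  have h4 := eq_one_of_pow_of_mem S.hQp (S.hCQ h2) h3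
  rw [h4, Nat.card_zpowers, orderOf_one] at hc
  exact (Fact.out : p.Prime).one_lt.ne hc

variable {p : ℕ} {V H Q : Subgroup G} {a b x : G}

namespace PairData

theorem R_le (D : PairData p V H Q a b x) : ⁅Q, Subgroup.zpowers a⁆ ≤ Q := by
  have hzH : Subgroup.zpowers a ≤ H := by rw [Subgroup.zpowers_le]; exact D.ha
  exact Helper5.commutator_le_of_le_normalizer (hzH.trans D.S.hQn) le_rfl

theorem card_E [Finite G] [Fact p.Prime] (D : PairData p V H Q a b x) :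
    Nat.card ↥(Subgroup.closure ({a, b} : Set G)) = p * (p ^ 2 - 1) := by
  obtain ⟨_, w1, w2, _, _, _, e, _⟩ := D.main
  rw [Nat.card_congr e.toEquiv]
  have := Cfsg.Agent.Lib.Helper12.card_SL2 (F := ZMod p)
  rw [ZMod.card] at this
  exact this

theorem card_R [Finite G] [Fact p.Prime] (D : PairData p V H Q a b x) :
    Nat.card ↥(⁅Q, Subgroup.zpowers a⁆) = p ^ 2 - 1 := by
  have hp := (Fact.out : p.Prime)
  have h1 := Helper5.card_sup_mul_card_inf (Subgroup.zpowers a) ⁅Q, Subgroup.zpowers a⁆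
    (Helper5.right_le_normalizer_commutator Q (Subgroup.zpowers a))
  have h2 : Subgroup.zpowers a ⊓ ⁅Q, Subgroup.zpowers a⁆ = ⊥ := by
    rw [eq_bot_iff]
    intro z hz
    obtain ⟨hz1, hz2⟩ := Subgroup.mem_inf.mp hz
    have h3 : z ^ p = 1 := by
      obtain ⟨n, rfl⟩ := Subgroup.mem_zpowers_iff.mp hz1
      rw [← zpow_natCast, ← zpow_mul, mul_comm, zpow_mul, zpow_natCast, D.a_pow, one_zpow]
    exact Subgroup.mem_bot.mpr (eq_one_of_pow_of_mem D.S.hQp (D.R_le hz2) h3)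
  rw [h2, sup_comm, D.E_eq, D.card_E, D.hc] at h1
  simp only [Subgroup.card_bot, mul_one] at h1
  exact (Nat.eq_of_mul_eq_mul_left hp.pos h1).symm

theorem comm_le_R [Finite G] [Fact p.Prime] (D : PairData p V H Q a b x) :
    ⁅Subgroup.closure ({a, b} : Set G), Subgroup.closure ({a, b} : Set G)⁆ ≤
      ⁅Q, Subgroup.zpowers a⁆ := by
  have hAN := Helper5.right_le_normalizer_commutator Q (Subgroup.zpowers a)
  have hN : Subgroup.closure ({a, b} : Set G) ≤
      Subgroup.normalizer ((⁅Q, Subgroup.zpowers a⁆ : Subgroup G) : Set G) := by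
    rw [← D.E_eq]
    exact sup_le Subgroup.le_normalizer hAN
  have hr : ⁅x, a⁆ ∈ ⁅Q, Subgroup.zpowers a⁆ :=
    Subgroup.commutator_mem_commutator D.hx (Subgroup.mem_zpowers a)
  have hab : ⁅a, b⁆ ∈ ⁅Q, Subgroup.zpowers a⁆ := by
    have h1 : ⁅a, b⁆ = (a * ⁅x, a⁆ * a⁻¹) * ⁅x, a⁆⁻¹ := by
      rw [D.hb]; simp only [commutatorElement_def]; group
    rw [h1]
    exact mul_mem ((Subgroup.mem_normalizer_iff.mp (hAN (Subgroup.mem_zpowers a)) _).mp hr)
      (inv_mem hr)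
  apply Helper5.commutator_closure_le _ _ hN
  rintro s (rfl | rfl) t (rfl | rfl)
  · simp
  · exact hab
  · rw [← commutatorElement_inv]; exact inv_mem hab
  · simp

theorem R_not_comm [Finite G] [Fact p.Prime] (D : PairData p V H Q a b x) (hp3 : p = 3) :
    ¬ IsMulCommutative ↥(⁅Q, Subgroup.zpowers a⁆) := by
  intro hcomm
  obtain ⟨_, w1, w2, _, _, _, e, _⟩ := D.main
  have key : ∀ g h : ↥(Subgroup.closure ({a, b} : Set G)),
      ((⁅g, h⁆ : ↥(Subgroup.closure ({a, b} : Set G))) : G) ∈ ⁅Q, Subgroup.zpowers a⁆ := by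
    intro g h
    apply D.comm_le_R
    have : ((⁅g, h⁆ : ↥(Subgroup.closure ({a, b} : Set G))) : G) = ⁅(g : G), (h : G)⁆ := by
      simp [commutatorElement_def]
    rw [this]
    exact Subgroup.commutator_mem_commutator g.2 h.2
  have h1 := key (e.symm (tU 1)) (e.symm (sL 1))
  have h2 := key (e.symm (tU 1)) (e.symm (sL (-1)))
  have h3 := congrArg Subtype.val (hcomm.is_comm.comm ⟨_, h1⟩ ⟨_, h2⟩)
  have h4 : (⁅e.symm (tU 1), e.symm (sL 1)⁆ : ↥(Subgroup.closure ({a, b} : Set G))) *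
      ⁅e.symm (tU 1), e.symm (sL (-1))⁆ = ⁅e.symm (tU 1), e.symm (sL (-1))⁆ *
        ⁅e.symm (tU 1), e.symm (sL 1)⁆ := Subtype.ext h3
  have h5 := congrArg e (commutatorElement_eq_one_iff_mul_comm.mpr h4)
  simp only [map_commutatorElement, e.apply_symm_apply, map_one] at h5
  exact sl23_not_metabelian hp3 h5

end PairData

end Cfsg.Agent.Lib.Helper4.BO
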