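import Cfsg.Agent.Lib.Helper4.SL2Rec

set_option autoImplicit false

namespace Cfsg.Agent.Lib.Helper4.SL2R

open Cfsg.Agent.Lib.Helper5 (tU sL)
open scoped commutatorElement

local notation "SL2" => Matrix.SpecialLinearGroup (Fin 2)

theorem coe_comm_tU_sL {F : Type*} [Field F] :
    ((⁅tU (1 : F), sL (1 : F)⁆ : SL2 F) : Matrix (Fin 2) (Fin 2) F) = !![3, -1; 1, 0] := by
  have h1 : (tU (1 : F))⁻¹ = tU (-1) := by
    rw [inv_eq_iff_mul_eq_one, Cfsg.Agent.Lib.Helper5.tU_mul]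
    simp [Cfsg.Agent.Lib.Helper5.tU_zero]
  have h2 : (sL (1 : F))⁻¹ = sL (-1) := by
    rw [inv_eq_iff_mul_eq_one, Cfsg.Agent.Lib.Helper5.sL_mul]
    simp [Cfsg.Agent.Lib.Helper5.sL_zero]
  rw [commutatorElement_def, h1, h2, Matrix.SpecialLinearGroup.coe_mul,
    Matrix.SpecialLinearGroup.coe_mul, Matrix.SpecialLinearGroup.coe_mul,
    Cfsg.Agent.Lib.Helper5.coe_tU, Cfsg.Agent.Lib.Helper5.coe_tU, Cfsg.Agent.Lib.Helper5.coe_sL,
    Cfsg.Agent.Lib.Helper5.coe_sL, Matrix.mul_fin_two, Matrix.mul_fin_two, Matrix.mul_fin_two]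
  apply Cfsg.Agent.Lib.Helper5.ext2 <;> simp <;> norm_num

theorem disc3 : ∀ u : ZMod 3 × ZMod 3, u ≠ 0 → u.1 ^ 2 - 3 * u.1 * u.2 + u.2 ^ 2 ≠ 0 := by
  decide

theorem disc2 : ∀ u : ZMod 2 × ZMod 2, u ≠ 0 → u.1 ^ 2 - 3 * u.1 * u.2 + u.2 ^ 2 ≠ 0 := by
  decide

theorem disc {p : ℕ} [Fact p.Prime] (hp : p = 2 ∨ p = 3) :
    ∀ u : ZMod p × ZMod p, u ≠ 0 → u.1 ^ 2 - 3 * u.1 * u.2 + u.2 ^ 2 ≠ 0 := by
  rcases hp with rfl | rfl
  · exact disc2
  · exact disc3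

variable {G : Type*} [Group G] {p : ℕ} [Fact p.Prime] {W : Subgroup G} {w1 w2 : G}

theorem mem_centralizer_of_mat_eq_one [Finite G] (C : Coord p W w1 w2) {g : G}
    (hg : g ∈ Subgroup.normalizer (W : Set G)) (hm : mat p w1 w2 g = 1) :
    g ∈ Subgroup.centralizer (W : Set G) := by
  rw [Subgroup.mem_centralizer_iff]
  intro w hw
  obtain ⟨u, rfl⟩ := exists_phi C hw
  have h1 := conj_phi' C hg u
  rw [hm] at h1
  simp only [Matrix.one_apply_eq, one_mul, ne_eq, zero_ne_one, not_false_eq_true,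
    Matrix.one_apply_ne, zero_mul, add_zero, one_ne_zero, zero_add, Prod.mk.eta] at h1
  exact (mul_inv_eq_iff_eq_mul.mp h1).symm

theorem mat_pow [Finite G] (C : Coord p W w1 w2) {g : G}
    (hg : g ∈ Subgroup.normalizer (W : Set G)) (n : ℕ) :
    mat p w1 w2 (g ^ n) = mat p w1 w2 g ^ n := by
  induction n with
  | zero => simp [mat_one C]
  | succ n ih => rw [pow_succ, mat_mul C (pow_mem hg n) hg, ih, pow_succ]

theorem det_mat_of_pow [Finite G] (C : Coord p W w1 w2) {g : G}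
    (hg : g ∈ Subgroup.normalizer (W : Set G)) (hgp : g ^ p = 1) : (mat p w1 w2 g).det = 1 := by
  have h1 := mat_pow C hg p
  rw [hgp, mat_one C] at h1
  have h2 := congrArg Matrix.det h1
  rw [Matrix.det_one, Matrix.det_pow, ZMod.pow_card] at h2
  exact h2.symm

/-- an element acting as `!![3, -1; 1, 0]` has no fixed points -/
theorem fpf_of_mat [Finite G] (C : Coord p W w1 w2) {m : G}
    (hm : m ∈ Subgroup.normalizer (W : Set G)) (hmat : mat p w1 w2 m = !![3, -1; 1, 0])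
    {w : G} (hw : w ∈ W) (hc : m * w = w * m) : w = 1 := by
  obtain ⟨u, rfl⟩ := exists_phi C hw
  have h1 := conj_phi' C hm u
  rw [mul_inv_eq_iff_eq_mul.mpr hc, hmat] at h1
  have h2 := phi_inj C h1
  simp at h2
  have e1 : u.1 = 3 * u.1 + -u.2 := congrArg Prod.fst h2
  have e2 : u.2 = u.1 := congrArg Prod.snd h2
  have e3 : u.1 = 0 := by
    rw [e2] at e1
    linear_combination (-1 : ZMod p) * e1
  have : u = 0 := Prod.ext e3 (e2.trans e3)
  rw [this, phi_zero]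

/-- an element acting as `!![3, -1; 1, 0]` acts irreducibly for `p = 2, 3`. -/
theorem irr_of_mat [Finite G] (hp : p = 2 ∨ p = 3) (C : Coord p W w1 w2) {m : G}
    (hm : m ∈ Subgroup.normalizer (W : Set G)) (hmat : mat p w1 w2 m = !![3, -1; 1, 0])
    {X : Subgroup G} (hXW : X ≤ W) (hX : X ≠ ⊥) (hinv : ∀ w ∈ X, m * w * m⁻¹ ∈ X) : X = W := by
  apply le_antisymm hXW
  obtain ⟨c, hc, hc1⟩ : ∃ c ∈ X, c ≠ 1 := by
    obtain ⟨c, hc⟩ := Subgroup.ne_bot_iff_exists_ne_one.mp hX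
    exact ⟨c.1, c.2, fun h => hc (Subtype.ext h)⟩
  obtain ⟨u, rfl⟩ := exists_phi C (hXW hc)
  have hu : u ≠ 0 := by
    rintro rfl
    exact hc1 phi_zero
  have hd := disc hp u hu
  have h1 := conj_phi' C hm u
  rw [hmat] at h1
  simp at h1
  have hc' := hinv _ hc
  rw [h1] at hc'
  intro w hw
  obtain ⟨v, rfl⟩ := exists_phi C hw
  obtain ⟨d, hdd⟩ : ∃ d, d = u.1 ^ 2 - 3 * u.1 * u.2 + u.2 ^ 2 := ⟨_, rfl⟩
  rw [← hdd] at hd
  have hv : v = ((v.1 * u.1 - v.2 * (3 * u.1 + -u.2)) / d) • u +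
      ((u.1 * v.2 - u.2 * v.1) / d) • ((3 * u.1 + -u.2, u.1) : ZMod p × ZMod p) := by
    ext
    · simp only [Prod.fst_add, Prod.smul_fst, smul_eq_mul]
      field_simp
      rw [hdd]; ring
    · simp only [Prod.snd_add, Prod.smul_snd, smul_eq_mul]
      field_simp
      rw [hdd]; ring
  rw [hv, phi_add C, phi_smul C, phi_smul C]
  exact mul_mem (pow_mem hc _) (pow_mem hc' _)

end Cfsg.Agent.Lib.Helper4.SL2R
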