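import Cfsg.Agent.Lib.Helper4.BO7
import Cfsg.Agent.Lib.Helper4.SL2Rec2

set_option autoImplicit false

namespace Cfsg.Agent.Lib.Helper4.BO

open Cfsg
open scoped commutatorElement
open Cfsg.Agent.Lib.Helper4.SL2R (Coord phi mat)
open Cfsg.Agent.Lib.Helper5 (tU sL)

variable {G : Type*} [Group G]

local notation "SL2" => Matrix.SpecialLinearGroup (Fin 2)

theorem le_normalizer_commutator {K V E : Subgroup G} (h1 : K ≤ Subgroup.normalizer (V : Set G))
    (h2 : K ≤ Subgroup.normalizer (E : Set G)) :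
    K ≤ Subgroup.normalizer ((⁅V, E⁆ : Subgroup G) : Set G) := by
  rw [Subgroup.commutator_def]
  apply Helper5.le_normalizer_closure
  rintro x hx _ ⟨v, hv, e, he, rfl⟩
  rw [Helper5.conj_commutatorElement]
  exact Subgroup.subset_closure ⟨_, (Subgroup.mem_normalizer_iff.mp (h1 hx) v).mp hv, _,
    (Subgroup.mem_normalizer_iff.mp (h2 hx) e).mp he, rfl⟩

theorem conj_mem_centralizer {W : Subgroup G} {n k : G} (hn : n ∈ Subgroup.normalizer (W : Set G))
    (hk : k ∈ Subgroup.centralizer (W : Set G)) : n * k * n⁻¹ ∈ Subgroup.centralizer (W : Set G) := by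
  rw [Subgroup.mem_centralizer_iff]
  intro w hw
  have hw' : n⁻¹ * w * n⁻¹⁻¹ ∈ W := (Subgroup.mem_normalizer_iff.mp (inv_mem hn) w).mp hw
  have h1 : (n⁻¹ * w * n⁻¹⁻¹) * k = k * (n⁻¹ * w * n⁻¹⁻¹) := hk _ hw'
  calc w * (n * k * n⁻¹) = n * ((n⁻¹ * w * n⁻¹⁻¹) * k) * n⁻¹ := by group
    _ = n * (k * (n⁻¹ * w * n⁻¹⁻¹)) * n⁻¹ := by rw [h1]
    _ = n * k * n⁻¹ * w := by group

/-- a subgroup of order `p²` meets the centralizer of a "transvection". -/
theorem exists_fixed [Finite G] {p : ℕ} [Fact p.Prime] {V W : Subgroup G} (hV : IsMulCommutative V)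
    (hWV : W ≤ V) (hW : Nat.card W = p ^ 2) {f : G} (hf : f ∈ Subgroup.normalizer (V : Set G))
    (hc : Nat.card ↥(⁅V, Subgroup.zpowers f⁆) = p) : ∃ w ∈ W, w ≠ 1 ∧ f * w = w * f := by
  have hp := (Fact.out : p.Prime)
  by_contra hcon
  push Not at hcon
  have hinj : Function.Injective ((commHom V hV f hf).comp (Subgroup.inclusion hWV)) := by
    rw [injective_iff_map_eq_one]
    intro w hw
    by_contra hw1
    have h1 : ⁅(w : G), f⁆ = 1 := hw
    exact hcon w w.2 (fun h => hw1 (Subtype.ext h)) (commutatorElement_eq_one_iff_mul_comm.mp h1).symm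
  have h2 : ∀ w : ↥W, ((commHom V hV f hf).comp (Subgroup.inclusion hWV)) w ∈
      ⁅V, Subgroup.zpowers f⁆ := fun w =>
    Subgroup.commutator_mem_commutator (hWV w.2) (Subgroup.mem_zpowers f)
  have h3 : Function.Injective (fun w : ↥W =>
      (⟨_, h2 w⟩ : ↥(⁅V, Subgroup.zpowers f⁆))) := by
    intro w w' h
    exact hinj (congrArg Subtype.val h)
  have h4 := Nat.card_le_card_of_injective _ h3
  rw [hW, hc] at h4
  nlinarith [hp.one_lt]

/-- a "block": a subgroup `E ≅ SL₂(p)` of `H` acting naturally on `[V, E]`. -/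
structure Blk (p : ℕ) [Fact p.Prime] (V H Q E : Subgroup G) : Prop where
  S : Setup p V H Q
  hp : p = 2 ∨ p = 3
  hEH : E ≤ H
  hEQ : ⁅E, E⁆ ≤ Q
  hQE : Q ≤ Subgroup.normalizer (E : Set G)
  faithful : E ⊓ Subgroup.centralizer ((⁅V, E⁆ : Subgroup G) : Set G) = ⊥
  gen : ∃ T : Set G, E = Subgroup.closure T ∧ ∀ t ∈ T, t ^ p = 1
  idx : (V ⊓ Subgroup.centralizer (E : Set G)).relIndex V ≤ p ^ 2
  coord : ∃ w1 w2, Coord p ⁅V, E⁆ w1 w2 ∧ ∃ e : ↥E ≃* SL2 (ZMod p),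
    ∀ g, ((e g : SL2 (ZMod p)) : Matrix (Fin 2) (Fin 2) (ZMod p)) = mat p w1 w2 (g : G)

theorem PairData.blk [Finite G] {p : ℕ} [Fact p.Prime] {V H Q : Subgroup G} {a b x : G}
    (D : PairData p V H Q a b x) : Blk p V H Q (Subgroup.closure ({a, b} : Set G)) := by
  have hp := (Fact.out : p.Prime)
  obtain ⟨hp23, w1, w2, hA1, hB1, C, e, he⟩ := D.main
  have hAH : Subgroup.zpowers a ≤ H := by rw [Subgroup.zpowers_le]; exact D.ha
  refine ⟨D.S, hp23, D.E_le, D.comm_le, ?_, D.faithful, ⟨{a, b}, rfl, ?_⟩, ?_, w1, w2, C, e, he⟩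
  · apply Helper5.le_normalizer_closure
    rintro q hq s (rfl | rfl)
    · exact D.absorb hq
    · have h1 : q * s * q⁻¹ = (q * x) * a * (q * x)⁻¹ := by rw [D.hb]; group
      rw [h1]
      exact D.absorb (Q.mul_mem hq D.hx)
  · rintro t (rfl | rfl)
    exacts [D.a_pow, D.b_pow]
  · rw [closure_pair_eq, Helper5.centralizer_sup]
    have h1 : V ⊓ (Subgroup.centralizer ((Subgroup.zpowers a : Subgroup G) : Set G) ⊓
        Subgroup.centralizer ((Subgroup.zpowers b : Subgroup G) : Set G)) =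
        (V ⊓ Subgroup.centralizer ((Subgroup.zpowers a : Subgroup G) : Set G)) ⊓
        (V ⊓ Subgroup.centralizer ((Subgroup.zpowers b : Subgroup G) : Set G)) := by
      rw [inf_inf_distrib_left]
    rw [h1]
    refine Subgroup.relIndex_inf_le.trans ?_
    have h2 := (transvection D.S hAH D.hBO D.hc).2
    have h3 := card_commutator_zpowers V D.S.hV.1 b (D.S.hHV D.hbH)
    rw [hB1, Nat.card_zpowers, orderOf_eq_prime C.p2 C.ne2] at h3
    rw [h2, ← h3, sq]

/-- the distinguished `p'`-element of a block -/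
structure IsM (V E Q : Subgroup G) (m : G) : Prop where
  mE : m ∈ E
  mQ : m ∈ Q
  fpf : ∀ w ∈ ⁅V, E⁆, m * w = w * m → w = 1
  irr : ∀ X : Subgroup G, X ≤ ⁅V, E⁆ → X ≠ ⊥ → (∀ w ∈ X, m * w * m⁻¹ ∈ X) → X = ⁅V, E⁆

variable {p : ℕ} [Fact p.Prime] {V H Q E : Subgroup G}

namespace Blk

theorem hEV (B : Blk p V H Q E) : E ≤ Subgroup.normalizer (V : Set G) := B.hEH.trans B.S.hHV

theorem hWV (B : Blk p V H Q E) : ⁅V, E⁆ ≤ V := Helper5.commutator_le_of_le_normalizer B.hEV le_rfl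

theorem hEW (_B : Blk p V H Q E) : E ≤ Subgroup.normalizer ((⁅V, E⁆ : Subgroup G) : Set G) :=
  Helper5.right_le_normalizer_commutator V E

theorem hQW (B : Blk p V H Q E) : Q ≤ Subgroup.normalizer ((⁅V, E⁆ : Subgroup G) : Set G) :=
  le_normalizer_commutator (B.S.hQH.trans B.S.hHV) B.hQE

theorem card_W (B : Blk p V H Q E) : Nat.card ↥(⁅V, E⁆) = p ^ 2 := by
  obtain ⟨w1, w2, C, _⟩ := B.coord
  exact C.card

theorem card_E (B : Blk p V H Q E) : Nat.card E = p * (p ^ 2 - 1) := by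
  obtain ⟨w1, w2, _, e, _⟩ := B.coord
  rw [Nat.card_congr e.toEquiv]
  have := Cfsg.Agent.Lib.Helper12.card_SL2 (F := ZMod p)
  rw [ZMod.card] at this
  exact this

theorem exists_m [Finite G] (B : Blk p V H Q E) : ∃ m, IsM V E Q m := by
  obtain ⟨w1, w2, C, e, he⟩ := B.coord
  obtain ⟨m, hm⟩ : ∃ m : ↥E, m = ⁅e.symm (tU 1), e.symm (sL 1)⁆ := ⟨_, rfl⟩
  have hmat : mat p w1 w2 (m : G) = !![3, -1; 1, 0] := by
    rw [← he, hm, map_commutatorElement, e.apply_symm_apply, e.apply_symm_apply,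
      SL2R.coe_comm_tU_sL]
  have hmQ : (m : G) ∈ Q := by
    apply B.hEQ
    have : (m : G) = ⁅((e.symm (tU 1) : ↥E) : G), ((e.symm (sL 1) : ↥E) : G)⁆ := by
      rw [hm]; simp [commutatorElement_def]
    rw [this]
    exact Subgroup.commutator_mem_commutator (e.symm (tU 1)).2 (e.symm (sL 1)).2
  exact ⟨m, m.2, hmQ, fun w hw hc => SL2R.fpf_of_mat C (B.hEW m.2) hmat hw hc,
    fun X hX hX1 hinv => SL2R.irr_of_mat B.hp C (B.hEW m.2) hmat hX hX1 hinv⟩

theorem exists_same_action [Finite G] (B : Blk p V H Q E) {t : G}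
    (ht : t ∈ Subgroup.normalizer ((⁅V, E⁆ : Subgroup G) : Set G)) (htp : t ^ p = 1) :
    ∃ h ∈ E, h⁻¹ * t ∈ Subgroup.centralizer ((⁅V, E⁆ : Subgroup G) : Set G) := by
  obtain ⟨w1, w2, C, e, he⟩ := B.coord
  obtain ⟨N, hN⟩ : ∃ N : SL2 (ZMod p), (N : Matrix (Fin 2) (Fin 2) (ZMod p)) = mat p w1 w2 t :=
    ⟨⟨mat p w1 w2 t, SL2R.det_mat_of_pow C ht htp⟩, rfl⟩
  obtain ⟨h, hh⟩ : ∃ h : ↥E, h = e.symm N := ⟨_, rfl⟩
  have h1 : mat p w1 w2 (h : G) = mat p w1 w2 t := by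
    rw [← he, hh, e.apply_symm_apply, hN]
  refine ⟨h, h.2, ?_⟩
  have hhN := B.hEW h.2
  apply SL2R.mem_centralizer_of_mat_eq_one C (mul_mem (inv_mem hhN) ht)
  rw [SL2R.mat_mul C (inv_mem hhN) ht, ← h1, ← SL2R.mat_mul C (inv_mem hhN) hhN, inv_mul_cancel,
    SL2R.mat_one C]

theorem inf_eq_bot [Finite G] (B : Blk p V H Q E) :
    ⁅V, E⁆ ⊓ (V ⊓ Subgroup.centralizer (E : Set G)) = ⊥ := by
  obtain ⟨m, M⟩ := B.exists_m
  rw [eq_bot_iff]
  intro w hw
  obtain ⟨h1, h2⟩ := Subgroup.mem_inf.mp hw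
  obtain ⟨_, h3⟩ := Subgroup.mem_inf.mp h2
  exact Subgroup.mem_bot.mpr (M.fpf w h1 (h3 m M.mE))

theorem sup_eq [Finite G] (B : Blk p V H Q E) :
    ⁅V, E⁆ ⊔ (V ⊓ Subgroup.centralizer (E : Set G)) = V := by
  apply Subgroup.eq_of_le_of_card_ge (sup_le B.hWV inf_le_left)
  have hn : ⁅V, E⁆ ≤ Subgroup.normalizer ((V ⊓ Subgroup.centralizer (E : Set G) : Subgroup G) : Set G) := by
    apply Helper5.le_normalizer_of_le_centralizer
    intro w hw
    rw [Subgroup.mem_centralizer_iff]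
    intro u hu
    exact comm_of_elemAb B.S.hV (Subgroup.mem_inf.mp hu).1 (B.hWV hw)
  have h1 := Helper5.card_sup_mul_card_inf _ _ hn
  rw [B.inf_eq_bot, B.card_W] at h1
  simp only [Subgroup.card_bot, mul_one] at h1
  rw [h1, ← Helper5.card_mul_relIndex (inf_le_left : V ⊓ Subgroup.centralizer (E : Set G) ≤ V),
    mul_comm]
  exact Nat.mul_le_mul_right _ B.idx

theorem mem_CE_of_comm [Finite G] (B : Blk p V H Q E) {m : G} (M : IsM V E Q m) {v : G} (hv : v ∈ V)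
    (hc : m * v = v * m) : v ∈ V ⊓ Subgroup.centralizer (E : Set G) := by
  have hn : ⁅V, E⁆ ≤ Subgroup.normalizer ((V ⊓ Subgroup.centralizer (E : Set G) : Subgroup G) : Set G) := by
    apply Helper5.le_normalizer_of_le_centralizer
    intro w hw
    rw [Subgroup.mem_centralizer_iff]
    intro u hu
    exact comm_of_elemAb B.S.hV (Subgroup.mem_inf.mp hu).1 (B.hWV hw)
  have h1 : v ∈ ((⁅V, E⁆ ⊔ (V ⊓ Subgroup.centralizer (E : Set G)) : Subgroup G) : Set G) := by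
    rw [B.sup_eq]; exact hv
  rw [Subgroup.coe_mul_of_left_le_normalizer_right _ _ hn] at h1
  obtain ⟨w, hw, u, hu, rfl⟩ := Set.mem_mul.mp h1
  have hmu : m * u = u * m := ((Subgroup.mem_inf.mp hu).2 m M.mE)
  have hmw : m * w = w * m := by
    have h2 : m * w * u = w * m * u := by
      calc m * w * u = m * (w * u) := by group
        _ = w * u * m := hc
        _ = w * (u * m) := by group
        _ = w * (m * u) := by rw [hmu]
        _ = _ := by group
    exact mul_right_cancel h2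
  rw [M.fpf w hw hmw, one_mul]
  exact hu

end Blk

end Cfsg.Agent.Lib.Helper4.BO
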