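import Cfsg.Agent.Lib.Helper4.BO8

set_option autoImplicit false

namespace Cfsg.Agent.Lib.Helper4.BO

open Cfsg
open scoped commutatorElement
open Cfsg.Agent.Lib.Helper4.SL2R (Coord phi mat)

variable {G : Type*} [Group G]

local notation "SL2" => Matrix.SpecialLinearGroup (Fin 2)

variable {p : ℕ} [Fact p.Prime] {V H Q E : Subgroup G}

namespace Blk

/-- an element of `H` centralizing `[V, E]` and `C_V(E)` is trivial -/
theorem eq_one_of_centralizes [Finite G] (B : Blk p V H Q E) {k : G} (hk : k ∈ H)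
    (h1 : ∀ w ∈ ⁅V, E⁆, k * w = w * k)
    (h2 : ∀ u ∈ V ⊓ Subgroup.centralizer (E : Set G), k * u = u * k) : k = 1 := by
  have h3 : V ≤ Subgroup.centralizer ({k} : Set G) := by
    rw [← B.sup_eq]
    refine sup_le ?_ ?_
    · intro w hw
      exact Subgroup.mem_centralizer_singleton_iff.mpr (h1 w hw).symm
    · intro u hu
      exact Subgroup.mem_centralizer_singleton_iff.mpr (h2 u hu).symm
  have h4 : k ∈ H ⊓ Subgroup.centralizer (V : Set G) := by
    refine Subgroup.mem_inf.mpr ⟨hk, ?_⟩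
    rw [Subgroup.mem_centralizer_iff]
    intro v hv
    exact Subgroup.mem_centralizer_singleton_iff.mp (h3 hv)
  rw [B.S.hf] at h4
  exact Subgroup.mem_bot.mp h4

theorem le_of_W_eq [Finite G] {E₁ E₂ : Subgroup G} (B₁ : Blk p V H Q E₁) (B₂ : Blk p V H Q E₂)
    (h : ⁅V, E₁⁆ = ⁅V, E₂⁆) : E₂ ≤ E₁ := by
  obtain ⟨T, hT, hTp⟩ := B₂.gen
  have hTE : ∀ t ∈ T, t ∈ E₂ := fun t ht => hT ▸ Subgroup.subset_closure ht
  have key : ∀ t ∈ T, t ∈ E₁ := by
    intro t ht
    have hX : ⁅V, E₁ ⊔ E₂⁆ = ⁅V, E₁⁆ := by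
      rw [commutator_sup_eq B₁.hEV B₂.hEV, ← h, sup_idem]
    have hXN : E₁ ⊔ E₂ ≤ Subgroup.normalizer ((⁅V, E₁⁆ : Subgroup G) : Set G) :=
      hX ▸ Helper5.right_le_normalizer_commutator V (E₁ ⊔ E₂)
    have hXH : E₁ ⊔ E₂ ≤ H := sup_le B₁.hEH B₂.hEH
    have htX : t ∈ E₁ ⊔ E₂ := (le_sup_right : E₂ ≤ _) (hTE t ht)
    obtain ⟨h0, hh0, hk⟩ := B₁.exists_same_action (hXN htX) (hTp t ht)
    obtain ⟨k, hkd⟩ : ∃ k, k = h0⁻¹ * t := ⟨_, rfl⟩
    rw [← hkd] at hk
    have hkX : k ∈ E₁ ⊔ E₂ := hkd ▸ mul_mem (inv_mem ((le_sup_left : E₁ ≤ _) hh0)) htX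
    obtain ⟨m, M⟩ := B₁.exists_m
    have hmX : m ∈ E₁ ⊔ E₂ := (le_sup_left : E₁ ≤ _) M.mE
    have hcX : ⁅k, m⁆ ∈ E₁ ⊔ E₂ := by
      rw [commutatorElement_def]
      exact mul_mem (mul_mem (mul_mem hkX hmX) (inv_mem hkX)) (inv_mem hmX)
    have hcQ : ⁅k, m⁆ ∈ Q := by
      have h1 : ⁅k, m⁆ = (k * m * k⁻¹) * m⁻¹ := by rw [commutatorElement_def]
      rw [h1]
      exact Q.mul_mem ((Subgroup.mem_normalizer_iff.mp (B₁.S.hQn (hXH hkX)) m).mp M.mQ)
        (Q.inv_mem M.mQ)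
    have hcC : ⁅k, m⁆ ∈ Subgroup.centralizer ((⁅V, E₁⁆ : Subgroup G) : Set G) := by
      have h1 : ⁅k, m⁆ = k * (m * k⁻¹ * m⁻¹) := by rw [commutatorElement_def]; group
      rw [h1]
      exact mul_mem hk (conj_mem_centralizer (hXN hmX) (inv_mem hk))
    have hcp : ⁅k, m⁆ ^ p = 1 :=
      pow_eq_one_of_stab B₁.S.hV B₁.S.hf (hXH hcX) B₁.hWV
        (fun v hv => hX ▸ Subgroup.commutator_mem_commutator hv hcX) hcC
    have hkm : k * m = m * k :=
      commutatorElement_eq_one_iff_mul_comm.mp (eq_one_of_pow_of_mem B₁.S.hQp hcQ hcp)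
    have hk1 : k = 1 := by
      apply B₁.eq_one_of_centralizes (hXH hkX)
      · intro w hw
        exact (hk w hw).symm
      · intro u hu
        have hu' := Subgroup.mem_inf.mp hu
        have hw : ⁅u, k⁆ ∈ ⁅V, E₁⁆ := hX ▸ Subgroup.commutator_mem_commutator hu'.1 hkX
        have hmu : m * u = u * m := (hu'.2 m M.mE)
        have hmc : m * ⁅u, k⁆ = ⁅u, k⁆ * m := by
          have c1 : Commute m u := hmu
          have c2 : Commute m k := hkm.symm
          rw [commutatorElement_def]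
          exact (((c1.mul_right c2).mul_right c1.inv_right).mul_right c2.inv_right)
        exact (commutatorElement_eq_one_iff_mul_comm.mp (M.fpf _ hw hmc)).symm
    have : t = h0 := by
      rw [hk1] at hkd
      exact (inv_mul_eq_one.mp hkd.symm).symm
    rw [this]; exact hh0
  rw [hT, Subgroup.closure_le]
  exact key

theorem eq_of_W_eq [Finite G] {E₁ E₂ : Subgroup G} (B₁ : Blk p V H Q E₁) (B₂ : Blk p V H Q E₂)
    (h : ⁅V, E₁⁆ = ⁅V, E₂⁆) : E₁ = E₂ :=
  le_antisymm (B₂.le_of_W_eq B₁ h.symm) (B₁.le_of_W_eq B₂ h)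

/-- a best offender of order `p` lies in the block or centralizes it. -/
theorem dichotomy [Finite G] (B : Blk p V H Q E) {b : G} (hb : b ∈ H)
    (hBO : IsBestOffenderOn p V (Subgroup.zpowers b)) (hc : Nat.card (Subgroup.zpowers b) = p) :
    b ∈ E ∨ (b ∈ Subgroup.centralizer ((⁅V, E⁆ : Subgroup G) : Set G) ∧
      b ∈ Subgroup.centralizer (E : Set G)) := by
  obtain ⟨m, M⟩ := B.exists_m
  have hzH : Subgroup.zpowers b ≤ H := by rw [Subgroup.zpowers_le]; exact hb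
  by_cases hm : m * b * m⁻¹ = b
  · right
    have hmb : m * b = b * m := mul_inv_eq_iff_eq_mul.mp hm
    have hbW : b ∈ Subgroup.centralizer ((⁅V, E⁆ : Subgroup G) : Set G) := by
      obtain ⟨w0, hw0, hw01, hw0c⟩ := exists_fixed B.S.hV.1 B.hWV B.card_W (B.S.hHV hb)
        (transvection B.S hzH hBO hc).1
      have hX := M.irr (⁅V, E⁆ ⊓ Subgroup.centralizer ({b} : Set G)) inf_le_left (by
        intro h
        have : w0 ∈ ⁅V, E⁆ ⊓ Subgroup.centralizer ({b} : Set G) :=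
          Subgroup.mem_inf.mpr ⟨hw0, Subgroup.mem_centralizer_singleton_iff.mpr hw0c.symm⟩
        rw [h] at this
        exact hw01 (Subgroup.mem_bot.mp this)) (by
        intro w hw
        obtain ⟨h1, h2⟩ := Subgroup.mem_inf.mp hw
        refine Subgroup.mem_inf.mpr ⟨(Subgroup.mem_normalizer_iff.mp (B.hEW M.mE) w).mp h1, ?_⟩
        rw [Subgroup.mem_centralizer_singleton_iff] at h2 ⊢
        have c1 : Commute m b := hmb
        have c2 : Commute w b := h2
        exact ((c1.mul_left c2).mul_left c1.inv_left))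
      rw [Subgroup.mem_centralizer_iff]
      intro w hw
      rw [← hX] at hw
      exact Subgroup.mem_centralizer_singleton_iff.mp (Subgroup.mem_inf.mp hw).2
    refine ⟨hbW, ?_⟩
    rw [Subgroup.mem_centralizer_iff]
    intro g hg
    have hcH : ⁅b, g⁆ ∈ H := by
      rw [commutatorElement_def]
      exact mul_mem (mul_mem (mul_mem hb (B.hEH hg)) (inv_mem hb)) (inv_mem (B.hEH hg))
    have h1 : ⁅b, g⁆ = 1 := by
      apply B.eq_one_of_centralizes hcH
      · have h2 : ⁅b, g⁆ ∈ Subgroup.centralizer ((⁅V, E⁆ : Subgroup G) : Set G) := by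
          have h3 : ⁅b, g⁆ = b * (g * b⁻¹ * g⁻¹) := by rw [commutatorElement_def]; group
          rw [h3]
          exact mul_mem hbW (conj_mem_centralizer (B.hEW hg) (inv_mem hbW))
        intro w hw
        exact (h2 w hw).symm
      · intro u hu
        have hu' := Subgroup.mem_inf.mp hu
        have hv : b⁻¹ * u * b⁻¹⁻¹ ∈ V :=
          (Subgroup.mem_normalizer_iff.mp (inv_mem (B.S.hHV hb)) u).mp hu'.1
        have hmu : m * u = u * m := (hu'.2 m M.mE)
        have hmv : m * (b⁻¹ * u * b⁻¹⁻¹) = (b⁻¹ * u * b⁻¹⁻¹) * m := by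
          have c1 : Commute m b := hmb
          have c2 : Commute m u := hmu
          exact ((c1.inv_right.mul_right c2).mul_right c1.inv_right.inv_right)
        have hv' := (Subgroup.mem_inf.mp (B.mem_CE_of_comm M hv hmv)).2
        have e1 : g * u = u * g := (hu'.2 g hg)
        have e2 : g * (b⁻¹ * u * b⁻¹⁻¹) = (b⁻¹ * u * b⁻¹⁻¹) * g := (hv' g hg)
        rw [commutatorElement_def]
        calc b * g * b⁻¹ * g⁻¹ * u = b * g * b⁻¹ * (g⁻¹ * (u * g)) * g⁻¹ := by group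
          _ = b * g * b⁻¹ * (g⁻¹ * (g * u)) * g⁻¹ := by rw [e1]
          _ = b * (g * (b⁻¹ * u * b⁻¹⁻¹)) * b⁻¹ * g⁻¹ := by group
          _ = b * ((b⁻¹ * u * b⁻¹⁻¹) * g) * b⁻¹ * g⁻¹ := by rw [e2]
          _ = u * (b * g * b⁻¹ * g⁻¹) := by group
    exact (commutatorElement_eq_one_iff_mul_comm.mp h1).symm
  · left
    have D' : PairData p V H Q b (m * b * m⁻¹) m := ⟨B.S, hb, hBO, hc, M.mQ, rfl, hm⟩
    have B' := D'.blk
    obtain ⟨_, w1, w2, hA1, hB1, C, _⟩ := D'.main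
    have hw1V : w1 ∈ V := B'.hWV C.h1
    have hmV : m ∈ Subgroup.normalizer (V : Set G) := B.S.hHV (B.S.hQH M.mQ)
    have hX := M.irr (⁅V, E⁆ ⊓ ⁅V, Subgroup.closure ({b, m * b * m⁻¹} : Set G)⁆) inf_le_left (by
      intro h
      have h1 : ⁅w1, m⁆ ∈ ⁅V, E⁆ ⊓ ⁅V, Subgroup.closure ({b, m * b * m⁻¹} : Set G)⁆ := by
        refine Subgroup.mem_inf.mpr ⟨Subgroup.commutator_mem_commutator hw1V M.mE, ?_⟩
        have h2 : ⁅w1, m⁆ = w1 * (m * w1⁻¹ * m⁻¹) := by rw [commutatorElement_def]; group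
        rw [h2]
        exact mul_mem C.h1 ((Subgroup.mem_normalizer_iff.mp (B'.hQW M.mQ) _).mp (inv_mem C.h1))
      rw [h] at h1
      have h3 : w1 * m = m * w1 := commutatorElement_eq_one_iff_mul_comm.mp (Subgroup.mem_bot.mp h1)
      have h4 : Subgroup.zpowers w2 = Subgroup.zpowers w1 := by
        rw [← hB1, comm_map_conj hmV, hA1, MonoidHom.map_zpowers]
        have : (MulAut.conj m).toMonoidHom w1 = w1 := by
          show m * w1 * m⁻¹ = w1
          rw [← h3]; group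
        rw [this]
      have h5 := C.ind
      rw [h4, inf_idem] at h5
      have h6 : w1 ∈ (⊥ : Subgroup G) := h5 ▸ Subgroup.mem_zpowers w1
      exact C.ne1 (Subgroup.mem_bot.mp h6)) (by
      intro w hw
      obtain ⟨h1, h2⟩ := Subgroup.mem_inf.mp hw
      exact Subgroup.mem_inf.mpr ⟨(Subgroup.mem_normalizer_iff.mp (B.hEW M.mE) w).mp h1,
        (Subgroup.mem_normalizer_iff.mp (B'.hQW M.mQ) w).mp h2⟩)
    have hle : ⁅V, E⁆ ≤ ⁅V, Subgroup.closure ({b, m * b * m⁻¹} : Set G)⁆ := by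
      rw [← hX]; exact inf_le_right
    have heq : ⁅V, E⁆ = ⁅V, Subgroup.closure ({b, m * b * m⁻¹} : Set G)⁆ :=
      Subgroup.eq_of_le_of_card_ge hle (by rw [B.card_W, B'.card_W])
    exact B.le_of_W_eq B' heq (Subgroup.subset_closure (by simp))

end Blk

end Cfsg.Agent.Lib.Helper4.BO
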