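import Mathlib

set_option autoImplicit false

namespace Cfsg.Agent.Lib.Helper4.BF

open scoped Classical

variable {G : Type*} [Group G]

theorem invol_mul_self {t : G} (ht : orderOf t = 2) : t * t = 1 := by
  have := pow_orderOf_eq_one t
  rwa [ht, pow_two] at this

theorem invol_ne_one {t : G} (ht : orderOf t = 2) : t ≠ 1 := by
  rintro rfl
  simp at ht

theorem invol_inv {t : G} (ht : orderOf t = 2) : t⁻¹ = t :=
  inv_eq_of_mul_eq_one_left (invol_mul_self ht)

/-- the extended centralizer -/
def Cstar (x : G) : Subgroup G where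
  carrier := {g | g * x * g⁻¹ = x ∨ g * x * g⁻¹ = x⁻¹}
  one_mem' := by simp
  mul_mem' := by
    intro a b ha hb
    have e : (a * b) * x * (a * b)⁻¹ = a * (b * x * b⁻¹) * a⁻¹ := by group
    have e' : a * x⁻¹ * a⁻¹ = (a * x * a⁻¹)⁻¹ := by group
    rcases ha with ha | ha <;> rcases hb with hb | hb
    · left; rw [e, hb, ha]
    · right; rw [e, hb, e', ha]
    · right; rw [e, hb, ha]
    · left; rw [e, hb, e', ha, inv_inv]
  inv_mem' := by
    intro a ha
    rcases ha with ha | ha
    · left
      calc a⁻¹ * x * a⁻¹⁻¹ = a⁻¹ * (a * x * a⁻¹) * a := by rw [ha, inv_inv]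
        _ = x := by group
    · right
      have : a * x⁻¹ * a⁻¹ = x := by
        have e' : a * x⁻¹ * a⁻¹ = (a * x * a⁻¹)⁻¹ := by group
        rw [e', ha, inv_inv]
      calc a⁻¹ * x * a⁻¹⁻¹ = a⁻¹ * (a * x⁻¹ * a⁻¹) * a := by rw [this, inv_inv]
        _ = x⁻¹ := by group

theorem mem_Cstar {x g : G} : g ∈ Cstar x ↔ (g * x * g⁻¹ = x ∨ g * x * g⁻¹ = x⁻¹) := Iff.rfl

theorem mem_cent {x g : G} : g ∈ Subgroup.centralizer ({x} : Set G) ↔ g * x * g⁻¹ = x := by
  rw [Subgroup.mem_centralizer_singleton_iff]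
  constructor
  · intro h; rw [h]; group
  · intro h
    calc g * x = (g * x * g⁻¹) * g := by group
      _ = x * g := by rw [h]

section fin
variable [Fintype G]

/-- the involutions -/
noncomputable def Invo (G : Type*) [Group G] [Fintype G] : Finset G :=
  Finset.univ.filter (fun t => orderOf t = 2)

theorem mem_Invo {t : G} : t ∈ Invo G ↔ orderOf t = 2 := by simp [Invo]

theorem card_Invo : (Invo G).card = Nat.card {t : G // orderOf t = 2} :=
  (Nat.subtype_card (Invo G) (fun _ => mem_Invo)).symm

/-- involutions `s` with `s⁻¹ x` an involution -/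
noncomputable def A (x : G) : Finset G := (Invo G).filter (fun s => s⁻¹ * x ∈ Invo G)

theorem sum_card_A : ∑ x : G, (A x).card = (Invo G).card ^ 2 := by
  unfold A
  simp_rw [Finset.card_filter]
  rw [Finset.sum_comm]
  have : ∀ s ∈ Invo G, ∑ x : G, (if s⁻¹ * x ∈ Invo G then 1 else 0) = (Invo G).card := by
    intro s _
    rw [← Finset.card_filter]
    apply Finset.card_bij (fun x _ => s⁻¹ * x)
    · intro a ha; simpa using ha
    · intro a _ b _ h; exact mul_left_cancel h
    · intro b hb; exact ⟨s * b, by simpa using hb, by simp⟩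
  rw [Finset.sum_congr rfl this]
  simp [sq]

theorem A_prop {x s : G} (hs : s ∈ A x) : orderOf s = 2 ∧ s * x * s⁻¹ = x⁻¹ := by
  rw [A, Finset.mem_filter, mem_Invo, mem_Invo] at hs
  refine ⟨hs.1, ?_⟩
  have h1 := invol_mul_self hs.2
  have h2 := invol_inv hs.1
  rw [h2] at h1 ⊢
  -- s x s x = 1
  have : s * x * s * x = 1 := by rw [← h1]; group
  exact eq_inv_of_mul_eq_one_left this

theorem card_A_one : (A (1 : G)).card = (Invo G).card := by
  congr 1
  unfold A
  rw [Finset.filter_eq_self]
  intro s hs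
  rw [mem_Invo] at hs ⊢
  simpa using hs

theorem card_sub (H : Subgroup G) : Nat.card H = (Finset.univ.filter (fun g => g ∈ H)).card :=
  Nat.subtype_card _ (by simp)

theorem card_A_add_two_le (x : G) (hx : orderOf x = 2) :
    (A x).card + 2 ≤ Nat.card (Subgroup.centralizer ({x} : Set G)) := by
  rw [card_sub]
  have hx1 : x ∉ A x := by
    intro h
    rw [A, Finset.mem_filter, mem_Invo, mem_Invo] at h
    simp at h
  have h11 : (1 : G) ∉ insert x (A x) := by
    intro h
    rw [Finset.mem_insert] at h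
    rcases h with h | h
    · exact invol_ne_one hx h.symm
    · exact invol_ne_one (A_prop h).1 rfl
  have : (insert 1 (insert x (A x))).card = (A x).card + 2 := by
    rw [Finset.card_insert_of_notMem h11, Finset.card_insert_of_notMem hx1]
  rw [← this]
  apply Finset.card_le_card
  intro g hg
  rw [Finset.mem_filter]
  refine ⟨Finset.mem_univ _, ?_⟩
  rw [Finset.mem_insert, Finset.mem_insert] at hg
  rcases hg with rfl | rfl | hg
  · exact one_mem _
  · rw [mem_cent]; group
  · rw [mem_cent, (A_prop hg).2, invol_inv hx]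

theorem two_mul_card_A_le (x : G) (hx : x * x ≠ 1) :
    2 * (A x).card ≤ Nat.card (Cstar x) := by
  rcases (A x).eq_empty_or_nonempty with h | ⟨s0, hs0⟩
  · simp [h]
  have hne : x ≠ x⁻¹ := by
    intro h
    apply hx
    nth_rewrite 2 [h]
    simp
  have hB : ∀ s ∈ A x, (s * s0) * x * (s * s0)⁻¹ = x := by
    intro s hs
    have e : (s * s0) * x * (s * s0)⁻¹ = s * (s0 * x * s0⁻¹) * s⁻¹ := by group
    have e' : s * x⁻¹ * s⁻¹ = (s * x * s⁻¹)⁻¹ := by group
    rw [e, (A_prop hs0).2, e', (A_prop hs).2, inv_inv]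
  have hdis : Disjoint (A x) ((A x).image (fun s => s * s0)) := by
    rw [Finset.disjoint_left]
    intro a ha hb
    obtain ⟨s, hs, rfl⟩ := Finset.mem_image.mp hb
    exact hne ((hB s hs).symm.trans (A_prop ha).2)
  have hcard : ((A x).image (fun s => s * s0)).card = (A x).card :=
    Finset.card_image_of_injective _ (mul_left_injective s0)
  rw [card_sub, two_mul]
  nth_rewrite 2 [← hcard]
  rw [← Finset.card_union_of_disjoint hdis]
  apply Finset.card_le_card
  intro g hg
  rw [Finset.mem_filter]
  refine ⟨Finset.mem_univ _, ?_⟩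
  rw [Finset.mem_union] at hg
  rcases hg with hg | hg
  · exact Or.inr (A_prop hg).2
  · obtain ⟨s, hs, rfl⟩ := Finset.mem_image.mp hg
    exact Or.inl (hB s hs)

theorem index_two_of_Cstar_top (x : G) (hx : x * x ≠ 1) (hA : (A x).Nonempty)
    (htop : Cstar x = ⊤) : (Subgroup.centralizer ({x} : Set G)).index = 2 := by
  obtain ⟨s0, hs0⟩ := hA
  have hne : x ≠ x⁻¹ := by
    intro h
    apply hx
    nth_rewrite 2 [h]
    simp
  rw [Subgroup.index_eq_two_iff]
  refine ⟨s0, fun b => ?_⟩
  have hb : b ∈ Cstar x := by rw [htop]; trivial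
  have e : (b * s0) * x * (b * s0)⁻¹ = b * (s0 * x * s0⁻¹) * b⁻¹ := by group
  have e' : b * x⁻¹ * b⁻¹ = (b * x * b⁻¹)⁻¹ := by group
  rw [mem_cent, mem_cent, e, (A_prop hs0).2, e']
  rcases hb with hb | hb
  · right
    rw [hb]
    exact ⟨rfl, fun h => hne h.symm⟩
  · left
    rw [hb, inv_inv]
    exact ⟨rfl, fun h => hne h.symm⟩

theorem key (c : ℕ)
    (h1 : ∀ x : G, orderOf x = 2 → Nat.card (Subgroup.centralizer ({x} : Set G)) ≤ c)
    (h2 : ∀ x : G, x * x ≠ 1 → (A x).Nonempty → Nat.card (Cstar x) ≤ c) :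
    2 * (Invo G).card ^ 2 + 2 * (Invo G).card + c ≤ c * (Fintype.card G + (Invo G).card) := by
  have hpt : ∀ x : G, 2 * (A x).card + (if x ∈ Invo G then 4 else 0) + (if x = 1 then c else 0)
      ≤ c + (if x ∈ Invo G then c else 0) + (if x = 1 then 2 * (Invo G).card else 0) := by
    intro x
    by_cases hx1 : x = 1
    · subst hx1
      have : (1 : G) ∉ Invo G := by rw [mem_Invo]; simp
      rw [if_neg this, if_neg this, if_pos rfl, if_pos rfl, card_A_one]
      omega
    · rw [if_neg hx1, if_neg hx1]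
      by_cases hxI : x ∈ Invo G
      · rw [if_pos hxI, if_pos hxI]
        have := card_A_add_two_le x (mem_Invo.mp hxI)
        have := h1 x (mem_Invo.mp hxI)
        omega
      · rw [if_neg hxI, if_neg hxI]
        have hxx : x * x ≠ 1 := by
          intro h
          apply hxI
          rw [mem_Invo]
          exact orderOf_eq_prime (by rw [pow_two]; exact h) hx1
        rcases (A x).eq_empty_or_nonempty with h | h
        · simp [h]
        · have := two_mul_card_A_le x hxx
          have := h2 x hxx h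
          omega
  have hsum := Finset.sum_le_sum (fun x (_ : x ∈ (Finset.univ : Finset G)) => hpt x)
  simp only [Finset.sum_add_distrib, ← Finset.mul_sum, sum_card_A, Finset.sum_ite_mem,
    Finset.univ_inter, Finset.sum_const, smul_eq_mul, Finset.sum_ite_eq', Finset.mem_univ,
    if_true, Finset.card_univ] at hsum
  nlinarith [hsum]

theorem card_le_mul (t : G) (ht : orderOf t = 2) :
    Fintype.card G ≤ Nat.card (Subgroup.centralizer ({t} : Set G)) * (Invo G).card := by
  have h := Finset.card_le_mul_card_image (f := fun g : G => g * t * g⁻¹) Finset.univ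
     (Nat.card (Subgroup.centralizer ({t} : Set G))) ?_
  · calc Fintype.card G = (Finset.univ : Finset G).card := Finset.card_univ.symm
      _ ≤ _ := h
      _ ≤ _ := Nat.mul_le_mul_left _ (Finset.card_le_card ?_)
    intro y hy
    obtain ⟨g, -, rfl⟩ := Finset.mem_image.mp hy
    rw [mem_Invo, ← ht]
    exact (MulAut.conj g).orderOf_eq t
  · intro a ha
    obtain ⟨g0, -, rfl⟩ := Finset.mem_image.mp ha
    rw [card_sub]
    apply Finset.card_le_card_of_injOn (fun g => g0⁻¹ * g)
    · intro g hg
      simp only [Finset.coe_filter, Finset.mem_univ, true_and, Set.mem_ofPred_eq] at hg ⊢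
      rw [mem_cent]
      calc g0⁻¹ * g * t * (g0⁻¹ * g)⁻¹ = g0⁻¹ * (g * t * g⁻¹) * g0 := by group
        _ = t := by rw [hg]; group
    · intro a _ b _ h
      exact mul_left_cancel h

end fin

end Cfsg.Agent.Lib.Helper4.BF
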