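import Mathlib
import Cfsg.Prelude.Def_SolvableStructure
import Cfsg.Agent.Lib.Helper4.Factor
import Cfsg.Agent.S0004

set_option autoImplicit false

namespace Cfsg.Agent.Lib.Helper4

open Subgroup
open scoped Pointwise

universe u

variable {G : Type u} [Group G]

theorem index_inf_of_coprime [Finite G] (H K : Subgroup G) (h : H.index.Coprime K.index) :
    (H ⊓ K).index = H.index * K.index :=
  le_antisymm Subgroup.index_inf_le
    (Nat.le_of_dvd (Nat.pos_of_ne_zero index_ne_zero_of_finite)
      (Nat.Coprime.mul_dvd_of_dvd_of_dvd h (index_dvd_of_le inf_le_left) (index_dvd_of_le inf_le_right)))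

theorem index_iInf_of_coprime [Finite G] {ι : Type*} [DecidableEq ι] (H : ι → Subgroup G) (T : Finset ι)
    (hcop : ∀ i ∈ T, ∀ j ∈ T, i ≠ j → (H i).index.Coprime (H j).index) :
    (⨅ i ∈ T, H i).index = ∏ i ∈ T, (H i).index := by
  induction T using Finset.induction_on with
  | empty => simp
  | insert j T hj ih =>
    rw [Finset.iInf_insert, Finset.prod_insert hj]
    have ih' := ih (fun i hi k hk => hcop i (Finset.mem_insert_of_mem hi) k (Finset.mem_insert_of_mem hk))
    rw [index_inf_of_coprime, ih']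
    rw [ih']
    apply Nat.Coprime.prod_right
    intro i hi
    exact hcop j (Finset.mem_insert_self _ _) i (Finset.mem_insert_of_mem hi) (by rintro rfl; exact hj hi)

/-- Chinese remainder theorem for cosets of subgroups of pairwise coprime index. -/
theorem exists_mem_cosets [Finite G] {ι : Type*} [DecidableEq ι] (H : ι → Subgroup G) (a : ι → G)
    (T : Finset ι) (hcop : ∀ i ∈ T, ∀ j ∈ T, i ≠ j → (H i).index.Coprime (H j).index) :
    ∃ g : G, ∀ i ∈ T, (a i)⁻¹ * g ∈ H i := by
  induction T using Finset.induction_on with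
  | empty => exact ⟨1, by simp⟩
  | insert j T hj ih =>
    have hcop' : ∀ i ∈ T, ∀ k ∈ T, i ≠ k → (H i).index.Coprime (H k).index :=
      fun i hi k hk => hcop i (Finset.mem_insert_of_mem hi) k (Finset.mem_insert_of_mem hk)
    obtain ⟨b, hb⟩ := ih hcop'
    have hidx := index_iInf_of_coprime H T hcop'
    have hc : (⨅ i ∈ T, H i).index.Coprime (H j).index := by
      rw [hidx]
      apply Nat.Coprime.prod_left
      intro i hi
      exact hcop i (Finset.mem_insert_of_mem hi) j (Finset.mem_insert_self _ _)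
        (by rintro rfl; exact hj hi)
    have huniv := mul_eq_univ_of_coprime_index _ _ hc
    obtain ⟨d, hd, h, hh, e⟩ := (mul_eq_univ_iff _ _).mp huniv (b⁻¹ * a j)
    refine ⟨b * d, ?_⟩
    intro i hi
    rcases Finset.mem_insert.mp hi with rfl | hi
    · have h2 : (a i)⁻¹ * (b * d) = h⁻¹ := by
        have h3 : a i = b * (d * h) := by rw [← e]; group
        rw [h3]; group
      rw [h2]; exact inv_mem hh
    · have h2 : (a i)⁻¹ * (b * d) = ((a i)⁻¹ * b) * d := by group
      rw [h2]
      exact mul_mem (hb i hi) ((Subgroup.mem_iInf.mp (Subgroup.mem_iInf.mp hd i)) hi)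

theorem conj_smul_eq_self_iff_mem_normalizer {H : Subgroup G} {g : G} :
    MulAut.conj g • H = H ↔ g ∈ normalizer (H : Set G) := by
  constructor
  · intro h
    rw [Subgroup.mem_normalizer_iff]
    intro x
    constructor
    · intro hx
      rw [← h]
      exact ⟨x, hx, rfl⟩
    · intro hx
      rw [← h] at hx
      obtain ⟨y, hy, e⟩ := hx
      have : y = x := by simpa using e
      exact this ▸ hy
  · intro h
    rw [Subgroup.mem_normalizer_iff] at h
    ext x
    constructor
    · rintro ⟨y, hy, rfl⟩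
      exact (h y).mp hy
    · intro hx
      refine ⟨g⁻¹ * x * g, ?_, ?_⟩
      · rw [SetLike.mem_coe, h]
        convert hx using 1
        group
      · simp [mul_assoc]

/-- Conjugacy of Hall subgroups inside a solvable subgroup. -/
theorem hall_conj_rel [Finite G] (M H1 H2 : Subgroup G) [Group.IsSolvable M] (h1 : H1 ≤ M) (h2 : H2 ≤ M)
    (hc : Nat.card H1 = Nat.card H2) (hcop : (Nat.card H1).Coprime (H1.relIndex M)) :
    ∃ m ∈ M, MulAut.conj m • H1 = H2 := by
  have e1 : Nat.card (H1.subgroupOf M) = Nat.card H1 := by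
    rw [card_subgroupOf_eq_card_inf, inf_eq_left.mpr h1]
  have e2 : Nat.card (H2.subgroupOf M) = Nat.card H1 := by
    rw [card_subgroupOf_eq_card_inf, inf_eq_left.mpr h2, hc]
  have e3 : Nat.card M = Nat.card H1 * H1.relIndex M := by
    rw [← card_inf_mul_relIndex H1 M, inf_eq_left.mpr h1]
  obtain ⟨m, hm⟩ := Cfsg.Agent.S0004.result (G := M) (Nat.card H1) (H1.relIndex M) e3 hcop
    (H1.subgroupOf M) (H2.subgroupOf M) e1 e2
  refine ⟨m, m.2, ?_⟩
  rw [Subgroup.conj_smul_subgroupOf h1, Subgroup.subgroupOf_inj, inf_eq_left.mpr h2,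
    inf_eq_left.mpr (Subgroup.conj_smul_le_of_le h1 m)] at hm
  exact hm

section CompSys

variable [Finite G] (K L : Nat.Primes → Subgroup G)

theorem compSys_not_dvd_card (hK : Cfsg.IsComplementSystem K) (p : Nat.Primes) :
    ¬ (p : ℕ) ∣ Nat.card (K p) := by
  intro hd
  have h1 := Subgroup.card_mul_index (K p)
  rw [hK p] at h1
  apply Nat.pow_succ_factorization_not_dvd (Nat.card_pos (α := G)).ne' p.2
  rw [pow_succ, mul_comm]
  conv_rhs => rw [← h1]
  exact Nat.mul_dvd_mul_right hd _

theorem compSys_coprime (hK : Cfsg.IsComplementSystem K) (p : Nat.Primes) :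
    (Nat.card (K p)).Coprime (K p).index := by
  rw [hK p]
  apply Nat.Coprime.pow_right
  exact ((Nat.Prime.coprime_iff_not_dvd p.2).mpr (compSys_not_dvd_card K hK p)).symm

theorem compSys_card_eq (hK : Cfsg.IsComplementSystem K) (hL : Cfsg.IsComplementSystem L)
    (p : Nat.Primes) : Nat.card (K p) = Nat.card (L p) := by
  have h1 := Subgroup.card_mul_index (K p)
  have h2 := Subgroup.card_mul_index (L p)
  rw [hK p] at h1
  rw [hL p] at h2
  exact Nat.eq_of_mul_eq_mul_right (pow_pos p.2.pos _) (h1.trans h2.symm)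

theorem compSys_conj_one [Group.IsSolvable G] (hK : Cfsg.IsComplementSystem K)
    (hL : Cfsg.IsComplementSystem L) (p : Nat.Primes) : ∃ g : G, MulAut.conj g • K p = L p :=
  Cfsg.Agent.S0004.result (Nat.card (K p)) (K p).index (Subgroup.card_mul_index (K p)).symm
    (compSys_coprime K hK p) (K p) (L p) rfl (compSys_card_eq K L hK hL p).symm

theorem compSys_normalizer_index (hK : Cfsg.IsComplementSystem K) (p : Nat.Primes) :
    (normalizer (K p : Set G)).index ∣ (p : ℕ) ^ (Nat.card G).factorization p := by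
  rw [← hK p]
  exact Subgroup.index_dvd_of_le Subgroup.le_normalizer

theorem compSys_normalizer_coprime (hK : Cfsg.IsComplementSystem K) (p q : Nat.Primes) (hpq : p ≠ q) :
    (normalizer (K p : Set G)).index.Coprime (normalizer (K q : Set G)).index := by
  refine Nat.Coprime.coprime_dvd_left (compSys_normalizer_index K hK p)
    (Nat.Coprime.coprime_dvd_right (compSys_normalizer_index K hK q) ?_)
  apply Nat.coprime_pow_primes _ _ p.2 q.2
  exact fun h => hpq (Subtype.ext h)

theorem compSys_eq_top (hK : Cfsg.IsComplementSystem K) (p : Nat.Primes)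
    (h : ¬ (p : ℕ) ∣ Nat.card G) : K p = ⊤ := by
  rw [← Subgroup.index_eq_one, hK p, Nat.factorization_eq_zero_of_not_dvd h, pow_zero]

/-- the primes dividing the order of `G`, as a finset of `Nat.Primes`. -/
noncomputable def primesOf (G : Type u) : Finset Nat.Primes :=
  (Nat.card G).primeFactors.subtype Nat.Prime

theorem mem_primesOf (p : Nat.Primes) : p ∈ primesOf G ↔ (p : ℕ) ∣ Nat.card G := by
  have : p ∈ primesOf G ↔ (p : ℕ) ∈ (Nat.card G).primeFactors := Finset.mem_subtype
  rw [this, Nat.mem_primeFactors]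
  exact ⟨fun h => h.2.1, fun h => ⟨p.2, h, Nat.card_pos.ne'⟩⟩

end CompSys

end Cfsg.Agent.Lib.Helper4
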