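import Mathlib
import Cfsg.Prelude.Def_SolvableStructure
import Cfsg.Agent.S0003
import Cfsg.Agent.Lib.Helper4.Basic
import Cfsg.Agent.Lib.Helper4.CompSys
import Cfsg.Agent.Lib.Helper4.MinNormal
import Cfsg.Agent.Lib.Helper4.Supersolvable3
import Cfsg.Agent.Lib.Helper1.Basic

set_option autoImplicit false

/-! Carter subgroups of finite solvable groups: existence, conjugacy, images in quotients. -/

namespace Cfsg.Agent.Lib.Helper4

open Subgroup
open scoped Pointwise

universe u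

variable {G : Type u} [Group G]

/-- `Q` is a `p`-complement of `X` (both subgroups of `G`). -/
def IsPCompl (p : ℕ) (Q X : Subgroup G) : Prop :=
  Q ≤ X ∧ ¬ p ∣ Nat.card Q ∧ ∃ k : ℕ, Q.relIndex X = p ^ k

section PCompl

variable {p : ℕ} [hp : Fact p.Prime] {Q Q1 Q2 X Y J : Subgroup G}

theorem coprime_pow_of_not_dvd {n : ℕ} (h : ¬ p ∣ n) (k : ℕ) : n.Coprime (p ^ k) :=
  Nat.Coprime.pow_right k ((Nat.Prime.coprime_iff_not_dvd hp.out).mpr h).symm

theorem IsPCompl.coprime (h : IsPCompl p Q X) : (Nat.card Q).Coprime (Q.relIndex X) := by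
  obtain ⟨-, h2, k, hk⟩ := h
  rw [hk]
  exact coprime_pow_of_not_dvd h2 k

omit hp in
theorem IsPCompl.card_mul (h : IsPCompl p Q X) : Nat.card Q * Q.relIndex X = Nat.card X := by
  have := card_inf_mul_relIndex Q X
  rwa [inf_eq_left.mpr h.1] at this

theorem IsPCompl.card_eq (h1 : IsPCompl p Q1 X) (h2 : IsPCompl p Q2 X) :
    Nat.card Q1 = Nat.card Q2 := by
  have e1 := h1.card_mul
  have e2 := h2.card_mul
  obtain ⟨k1, hk1⟩ := h1.2.2
  obtain ⟨k2, hk2⟩ := h2.2.2
  apply Nat.dvd_antisymm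
  · apply (coprime_pow_of_not_dvd h1.2.1 k2).dvd_of_dvd_mul_right
    rw [← hk2, e2, ← e1]
    exact Dvd.intro _ rfl
  · apply (coprime_pow_of_not_dvd h2.2.1 k1).dvd_of_dvd_mul_right
    rw [← hk1, e1, ← e2]
    exact Dvd.intro _ rfl

theorem exists_isPCompl [Finite G] (p : ℕ) [hp : Fact p.Prime] (X : Subgroup G)
    [Group.IsSolvable X] : ∃ Q, IsPCompl p Q X := by
  have hne : Nat.card X ≠ 0 := Nat.card_pos.ne'
  have h2 := Nat.ordProj_mul_ordCompl_eq_self (Nat.card X) p
  obtain ⟨H, hH⟩ := Cfsg.Agent.S0003.result (G := X)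
    (Nat.card X / p ^ (Nat.card X).factorization p) (p ^ (Nat.card X).factorization p)
    (by rw [mul_comm]; exact h2.symm)
    (Nat.Coprime.pow_right _ (Nat.coprime_ordCompl hp.out hne).symm)
  refine ⟨H.map X.subtype, Subgroup.map_subtype_le _, ?_, (Nat.card X).factorization p, ?_⟩
  · rw [Subgroup.card_map_of_injective X.subtype_injective, hH]
    exact Nat.not_dvd_ordCompl hp.out hne
  · have e : (H.map X.subtype).relIndex X = H.index := by
      rw [relIndex]
      congr 1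
      exact comap_map_eq_self_of_injective X.subtype_injective _
    rw [e]
    have h3 := Subgroup.card_mul_index H
    rw [hH] at h3
    have hpos : 0 < Nat.card X / p ^ (Nat.card X).factorization p := by
      rcases Nat.eq_zero_or_pos (Nat.card X / p ^ (Nat.card X).factorization p) with h | h
      · rw [h, mul_zero] at h2
        exact absurd h2.symm hne
      · exact h
    apply Nat.eq_of_mul_eq_mul_left hpos
    rw [h3, mul_comm, h2]

theorem IsPCompl.conj_rel [Finite G] [Group.IsSolvable X] (h1 : IsPCompl p Q1 X)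
    (h2 : IsPCompl p Q2 X) : ∃ x ∈ X, MulAut.conj x • Q1 = Q2 :=
  hall_conj_rel X Q1 Q2 h1.1 h2.1 (h1.card_eq h2) h1.coprime

theorem IsPCompl.le_of_le_normalizer (h : IsPCompl p Q X) (hJX : J ≤ X)
    (hJN : J ≤ normalizer (Q : Set G)) (hJ : ¬ p ∣ Nat.card J) : J ≤ Q := by
  obtain ⟨hQX, -, k, hk⟩ := h
  obtain ⟨Z, hZ⟩ : ∃ Z, Z = X ⊓ normalizer (Q : Set G) := ⟨_, rfl⟩
  have hQZ : Q ≤ Z := hZ ▸ le_inf hQX le_normalizer
  have hJZ : J ≤ Z := hZ ▸ le_inf hJX hJN
  have hZX : Z ≤ X := hZ ▸ inf_le_left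
  haveI : (Q.subgroupOf Z).Normal :=
    (Subgroup.normal_subgroupOf_iff_le_normalizer hQZ).mpr (hZ ▸ inf_le_right)
  have d1 : (Q.subgroupOf Z).relIndex (J.subgroupOf Z) ∣ (Q.subgroupOf Z).index :=
    Subgroup.relIndex_dvd_index_of_normal _ _
  rw [Subgroup.relIndex_subgroupOf hJZ] at d1
  have d2 : Q.relIndex Z ∣ Q.relIndex X := by
    rw [← Subgroup.relIndex_mul_relIndex Q Z X hQZ hZX]
    exact Dvd.intro _ rfl
  have d3 : Q.relIndex J ∣ p ^ k := hk ▸ d1.trans d2
  rw [← Subgroup.relIndex_eq_one]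
  exact Nat.eq_one_of_dvd_coprimes (coprime_pow_of_not_dvd hJ k) (Subgroup.relIndex_dvd_card Q J) d3

theorem IsPCompl.eq_of_le (h : IsPCompl p Q X) (hQJ : Q ≤ J) (hJX : J ≤ X)
    (hJ : ¬ p ∣ Nat.card J) : Q = J := by
  obtain ⟨hQX, -, k, hk⟩ := h
  apply le_antisymm hQJ
  rw [← Subgroup.relIndex_eq_one]
  have d3 : Q.relIndex J ∣ p ^ k := by
    rw [← hk, ← Subgroup.relIndex_mul_relIndex Q J X hQJ hJX]
    exact Dvd.intro _ rfl
  exact Nat.eq_one_of_dvd_coprimes (coprime_pow_of_not_dvd hJ k) (Subgroup.relIndex_dvd_card Q J) d3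

omit hp in
theorem IsPCompl.mono (h : IsPCompl p Q X) (hXY : X ≤ Y) (j : ℕ) (hj : X.relIndex Y = p ^ j) :
    IsPCompl p Q Y := by
  obtain ⟨hQX, h2, k, hk⟩ := h
  refine ⟨hQX.trans hXY, h2, k + j, ?_⟩
  rw [← Subgroup.relIndex_mul_relIndex Q X Y hQX hXY, hk, hj, pow_add]

theorem IsPCompl.of_le (h : IsPCompl p Q X) (hQY : Q ≤ Y) (hYX : Y ≤ X) : IsPCompl p Q Y := by
  obtain ⟨hQX, h2, k, hk⟩ := h
  refine ⟨hQY, h2, ?_⟩
  have d : Q.relIndex Y ∣ p ^ k := by
    rw [← hk, ← Subgroup.relIndex_mul_relIndex Q Y X hQY hYX]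
    exact Dvd.intro _ rfl
  obtain ⟨m, -, hm⟩ := (Nat.dvd_prime_pow hp.out).mp d
  exact ⟨m, hm⟩

omit hp in
theorem IsPCompl.conj (h : IsPCompl p Q X) (g : G) :
    IsPCompl p (MulAut.conj g • Q) (MulAut.conj g • X) := by
  obtain ⟨hQX, h2, k, hk⟩ := h
  refine ⟨Subgroup.pointwise_smul_le_pointwise_smul_iff.mpr hQX, ?_, k, ?_⟩
  · rwa [Cfsg.Agent.Lib.Helper1.card_conj_smul]
  · rw [Subgroup.relIndex_pointwise_smul, hk]

theorem IsPCompl.le_normalizer_of_nilpotent [Finite G] (h : IsPCompl p Q X)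
    (hX : Group.IsNilpotent X) : X ≤ normalizer (Q : Set G) := by
  obtain ⟨N, hN⟩ : ∃ N, N = X ⊓ normalizer (Q : Set G) := ⟨_, rfl⟩
  have hNX : N ≤ X := hN ▸ inf_le_left
  have hQN : Q ≤ N := hN ▸ le_inf h.1 le_normalizer
  have key : N.subgroupOf X = ⊤ := by
    apply normalizerCondition_iff_only_full_group_self_normalizing.mp
      Group.normalizerCondition_of_isNilpotent
    rw [← Subgroup.subgroupOf_normalizer_eq hNX]
    apply le_antisymm
    · intro g hg
      rw [mem_subgroupOf] at hg ⊢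
      have hJN : MulAut.conj (g : G) • Q ≤ N := by
        apply Cfsg.Agent.Lib.Helper1.conj_smul_le_of_forall
        intro x hx
        exact (mem_normalizer_iff.mp hg x).mp (hQN hx)
      have hJ : MulAut.conj (g : G) • Q ≤ Q := by
        apply h.le_of_le_normalizer (hJN.trans hNX) (hJN.trans (hN ▸ inf_le_right))
        rw [Cfsg.Agent.Lib.Helper1.card_conj_smul]
        exact h.2.1
      rw [hN]
      refine mem_inf.mpr ⟨g.2, ?_⟩
      apply mem_normalizer_of_conj_mem
      intro x hx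
      exact hJ ⟨x, hx, rfl⟩
    · intro g hg
      rw [mem_subgroupOf] at hg ⊢
      exact le_normalizer hg
  rw [Subgroup.subgroupOf_eq_top] at key
  exact key.trans (hN ▸ inf_le_right)

end PCompl

section Carter

theorem isNilpotent_of_injective' {H K : Type*} [Group H] [Group K] [Group.IsNilpotent K]
    (f : H →* K) (hf : Function.Injective f) : Group.IsNilpotent H :=
  (Group.isNilpotent_congr (MonoidHom.ofInjective hf)).mpr inferInstance

theorem normalizer_conj (C : Subgroup G) (g : G) :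
    normalizer ((MulAut.conj g • C : Subgroup G) : Set G) = MulAut.conj g • normalizer (C : Set G) :=
  (Subgroup.map_equiv_normalizer_eq C (MulAut.conj g)).symm

theorem carter_conj {C : Subgroup G} (h : Cfsg.IsCarterSubgroup C) (g : G) :
    Cfsg.IsCarterSubgroup (MulAut.conj g • C) := by
  refine ⟨(Group.isNilpotent_congr (Subgroup.equivSMul (MulAut.conj g) C)).mp h.1, ?_⟩
  rw [normalizer_conj, h.2]

theorem carter_subgroupOf {C H : Subgroup G} (h : Cfsg.IsCarterSubgroup C) (hCH : C ≤ H) :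
    Cfsg.IsCarterSubgroup (C.subgroupOf H) := by
  refine ⟨(Group.isNilpotent_congr (Subgroup.subgroupOfEquivOfLe hCH)).mpr h.1, ?_⟩
  rw [← Subgroup.subgroupOf_normalizer_eq hCH, h.2]

/-- A self-normalizing subgroup containing a normal subgroup with nilpotent quotient is everything. -/
theorem eq_top_of_quotient_nilpotent (K C : Subgroup G) [K.Normal] (hKC : K ≤ C)
    [Group.IsNilpotent (G ⧸ K)] (hC : normalizer (C : Set G) = C) : C = ⊤ := by
  have hsurj := QuotientGroup.mk'_surjective K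
  have e1 : (C.map (QuotientGroup.mk' K)).comap (QuotientGroup.mk' K) = C := by
    rw [Subgroup.comap_map_eq, QuotientGroup.ker_mk', sup_eq_left.mpr hKC]
  have e2 : normalizer ((C.map (QuotientGroup.mk' K) : Subgroup (G ⧸ K)) : Set (G ⧸ K)) =
      C.map (QuotientGroup.mk' K) := by
    apply Subgroup.comap_injective hsurj
    rw [Subgroup.comap_normalizer_eq_of_surjective _ hsurj, e1, hC]
  have e3 := normalizerCondition_iff_only_full_group_self_normalizing.mp
      Group.normalizerCondition_of_isNilpotent _ e2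
  rw [← e1, e3, Subgroup.comap_top]

/-- Conjugacy of Carter subgroups for all solvable groups of order less than `n`. -/
def CarterConjBelow (n : ℕ) : Prop :=
  ∀ (X : Type u) [Group X] [Finite X] [Group.IsSolvable X], Nat.card X < n →
    ∀ C D : Subgroup X, Cfsg.IsCarterSubgroup C → Cfsg.IsCarterSubgroup D →
      ∃ g : X, MulAut.conj g • C = D

theorem carter_conj_rel {n : ℕ} (hn : CarterConjBelow.{u} n) [Finite G] [Group.IsSolvable G]
    (H C D : Subgroup G) (hH : Nat.card H < n) (hC : Cfsg.IsCarterSubgroup C)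
    (hD : Cfsg.IsCarterSubgroup D) (hCH : C ≤ H) (hDH : D ≤ H) :
    ∃ h ∈ H, MulAut.conj h • C = D := by
  obtain ⟨m, hm⟩ := hn H hH _ _ (carter_subgroupOf hC hCH) (carter_subgroupOf hD hDH)
  refine ⟨m, m.2, ?_⟩
  rw [Subgroup.conj_smul_subgroupOf hCH, Subgroup.subgroupOf_inj, inf_eq_left.mpr hDH,
    inf_eq_left.mpr (Subgroup.conj_smul_le_of_le hCH m)] at hm
  exact hm

theorem card_lt_of_ne_top [Finite G] {X : Subgroup G} (hX : X ≠ ⊤) : Nat.card X < Nat.card G := by
  have := Cfsg.Agent.Lib.Helper1.card_lt_of_lt (lt_top_iff_ne_top.mpr hX)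
  rwa [Subgroup.card_top] at this

theorem carter_map_aux [Finite G] [Group.IsSolvable G] (hn : CarterConjBelow.{u} (Nat.card G))
    (C : Subgroup G) (hC : Cfsg.IsCarterSubgroup C) (A : Subgroup G) [A.Normal] :
    Cfsg.IsCarterSubgroup (C.map (QuotientGroup.mk' A)) := by
  constructor
  · haveI := hC.1
    exact Group.nilpotent_of_surjective ((QuotientGroup.mk' A).subgroupMap C)
      ((QuotientGroup.mk' A).subgroupMap_surjective C)
  apply le_antisymm _ le_normalizer
  intro yb hyb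
  obtain ⟨y, rfl⟩ := QuotientGroup.mk'_surjective A yb
  have hyX : y ∈ C ⊔ A := by
    by_cases hX : C ⊔ A = ⊤
    · rw [hX]; exact mem_top y
    have hle : MulAut.conj y • C ≤ C ⊔ A := by
      apply Cfsg.Agent.Lib.Helper1.conj_smul_le_of_forall
      intro c hc
      have h1 : QuotientGroup.mk' A (y * c * y⁻¹) ∈ C.map (QuotientGroup.mk' A) := by
        rw [map_mul, map_mul, map_inv]
        exact (mem_normalizer_iff.mp hyb _).mp (mem_map_of_mem _ hc)
      obtain ⟨c', hc', he⟩ := h1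
      have h2 : c'⁻¹ * (y * c * y⁻¹) ∈ A := by
        rw [← QuotientGroup.eq_one_iff, ← QuotientGroup.mk'_apply, map_mul, map_inv, he,
          inv_mul_cancel]
      have h3 : y * c * y⁻¹ = c' * (c'⁻¹ * (y * c * y⁻¹)) := by group
      rw [h3]
      exact mul_mem (mem_sup_left hc') (mem_sup_right h2)
    obtain ⟨x, hx, hxy⟩ := carter_conj_rel hn (C ⊔ A) C (MulAut.conj y • C) (card_lt_of_ne_top hX)
      hC (carter_conj hC y) le_sup_left hle
    have h4 : x⁻¹ * y ∈ normalizer (C : Set G) := by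
      rw [← conj_smul_eq_self_iff_mem_normalizer, map_mul, mul_smul, ← hxy, ← mul_smul, ← map_mul,
        inv_mul_cancel, map_one, one_smul]
    rw [hC.2] at h4
    have h5 : y = x * (x⁻¹ * y) := by group
    rw [h5]
    exact mul_mem hx (mem_sup_left h4)
  rw [mem_sup_of_normal_right] at hyX
  obtain ⟨c, hc, a, ha, rfl⟩ := hyX
  refine ⟨c, hc, ?_⟩
  rw [map_mul, QuotientGroup.mk'_apply A a, (QuotientGroup.eq_one_iff a).mpr ha, mul_one]

theorem map_conj_smul {G' : Type*} [Group G'] (f : G →* G') (C : Subgroup G) (g : G) :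
    (MulAut.conj g • C).map f = MulAut.conj (f g) • C.map f := by
  ext z
  constructor
  · rintro ⟨_, ⟨c, hc, rfl⟩, rfl⟩
    exact ⟨f c, mem_map_of_mem _ hc, by simp⟩
  · rintro ⟨_, ⟨c, hc, rfl⟩, rfl⟩
    exact ⟨g * c * g⁻¹, ⟨c, hc, rfl⟩, by simp⟩

theorem two_le_card_of_ne_bot [Finite G] {A : Subgroup G} (hA : A ≠ ⊥) : 2 ≤ Nat.card A := by
  have h1 : Nat.card A ≠ 1 := fun h => hA (Subgroup.card_eq_one.mp h)
  have h0 : 0 < Nat.card A := Nat.card_pos
  omega

theorem relIndex_top_pow_of_sup_eq_top [Finite G] {p : ℕ} (hp : p.Prime) (A : Subgroup G) [A.Normal]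
    (hAp : IsPGroup p A) (E : Subgroup G) (hE : E ⊔ A = ⊤) : ∃ j : ℕ, E.relIndex ⊤ = p ^ j := by
  have h1 : E.relIndex A = E.relIndex ⊤ := by rw [relIndex_eq_relIndex_sup, hE]
  have h2 : E.relIndex A ∣ Nat.card A := relIndex_dvd_card E A
  haveI : Fact p.Prime := ⟨hp⟩
  obtain ⟨a, ha⟩ := IsPGroup.iff_card.mp hAp
  rw [ha, h1] at h2
  obtain ⟨m, -, hm⟩ := (Nat.dvd_prime_pow hp).mp h2
  exact ⟨m, hm⟩

theorem carter_conj_step [Finite G] [Group.IsSolvable G] (hn : CarterConjBelow.{u} (Nat.card G))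
    (C D : Subgroup G) (hC : Cfsg.IsCarterSubgroup C) (hD : Cfsg.IsCarterSubgroup D) :
    ∃ g : G, MulAut.conj g • C = D := by
  by_cases hsub : Subsingleton G
  · exact ⟨1, Subsingleton.elim _ _⟩
  rw [not_subsingleton_iff_nontrivial] at hsub
  obtain ⟨p, A, hp, hAn, hAb, hAp⟩ := exists_normal_pgroup (G := G)
  haveI := hAn
  haveI : Fact p.Prime := ⟨hp⟩
  have hlt : Nat.card (G ⧸ A) < Nat.card G := card_quotient_lt A (two_le_card_of_ne_bot hAb)
  obtain ⟨gb, hgb⟩ := hn (G ⧸ A) hlt _ _ (carter_map_aux hn C hC A) (carter_map_aux hn D hD A)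
  obtain ⟨g, rfl⟩ := QuotientGroup.mk'_surjective A gb
  obtain ⟨C1, hC1⟩ : ∃ C1, C1 = MulAut.conj g • C := ⟨_, rfl⟩
  suffices hs : ∃ x : G, MulAut.conj x • C1 = D by
    obtain ⟨x, hx⟩ := hs
    exact ⟨x * g, by rw [map_mul, mul_smul, ← hC1, hx]⟩
  have hC1c : Cfsg.IsCarterSubgroup C1 := hC1 ▸ carter_conj hC g
  have hsup : C1 ⊔ A = D ⊔ A := by
    have e : C1.map (QuotientGroup.mk' A) = D.map (QuotientGroup.mk' A) := by
      rw [← hgb, hC1, map_conj_smul]
    have := congrArg (comap (QuotientGroup.mk' A)) e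
    rwa [comap_map_eq, comap_map_eq, QuotientGroup.ker_mk'] at this
  by_cases hX : D ⊔ A = ⊤
  swap
  · obtain ⟨x, -, hx⟩ := carter_conj_rel hn (D ⊔ A) C1 D (card_lt_of_ne_top hX) hC1c hD
      (hsup ▸ le_sup_left) le_sup_left
    exact ⟨x, hx⟩
  obtain ⟨Q1, hQ1⟩ := exists_isPCompl p C1
  obtain ⟨Q2, hQ2⟩ := exists_isPCompl p D
  obtain ⟨j1, hj1⟩ := relIndex_top_pow_of_sup_eq_top hp A hAp C1 (hsup.trans hX)
  obtain ⟨j2, hj2⟩ := relIndex_top_pow_of_sup_eq_top hp A hAp D hX
  obtain ⟨g', -, hg'⟩ := (hQ1.mono le_top j1 hj1).conj_rel (hQ2.mono le_top j2 hj2)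
  obtain ⟨C2, hC2⟩ : ∃ C2, C2 = MulAut.conj g' • C1 := ⟨_, rfl⟩
  suffices hs : ∃ x : G, MulAut.conj x • C2 = D by
    obtain ⟨x, hx⟩ := hs
    exact ⟨x * g', by rw [map_mul, mul_smul, ← hC2, hx]⟩
  have hC2c : Cfsg.IsCarterSubgroup C2 := hC2 ▸ carter_conj hC1c g'
  have hQ2' : IsPCompl p Q2 C2 := by rw [← hg', hC2]; exact hQ1.conj g'
  have hC2N := hQ2'.le_normalizer_of_nilpotent hC2c.1
  have hDN := hQ2.le_normalizer_of_nilpotent hD.1
  by_cases hY : normalizer (Q2 : Set G) = ⊤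
  · haveI : Q2.Normal := normalizer_eq_top_iff.mp hY
    haveI : Group.IsNilpotent (G ⧸ Q2) := by
      obtain ⟨k, hk⟩ := (hQ2.mono le_top j2 hj2).2.2
      rw [relIndex_top_right] at hk
      have : IsPGroup p (G ⧸ Q2) := IsPGroup.of_card (n := k) (by rw [← hk]; rfl)
      exact this.isNilpotent
    have e1 := eq_top_of_quotient_nilpotent Q2 C2 hQ2'.1 hC2c.2
    have e2 := eq_top_of_quotient_nilpotent Q2 D hQ2.1 hD.2
    exact ⟨1, by rw [e1, e2]; simp⟩
  · obtain ⟨x, -, hx⟩ := carter_conj_rel hn _ C2 D (card_lt_of_ne_top hY) hC2c hD hC2N hDN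
    exact ⟨x, hx⟩

theorem carterConjBelow_all : ∀ n : ℕ, CarterConjBelow.{u} n := by
  intro n
  induction n with
  | zero => intro X _ _ _ h; exact absurd h (Nat.not_lt_zero _)
  | succ n ih =>
    intro X _ _ _ h C D hC hD
    by_cases h' : Nat.card X < n
    · exact ih X h' C D hC hD
    · have e : Nat.card X = n := by omega
      exact carter_conj_step (e ▸ ih) C D hC hD

/-- Any two Carter subgroups of a finite solvable group are conjugate. -/
theorem carter_conjugate [Finite G] [Group.IsSolvable G] (C D : Subgroup G)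
    (hC : Cfsg.IsCarterSubgroup C) (hD : Cfsg.IsCarterSubgroup D) :
    ∃ g : G, MulAut.conj g • C = D :=
  carter_conj_step (carterConjBelow_all _) C D hC hD

/-- The image of a Carter subgroup in a quotient is a Carter subgroup. -/
theorem carter_map [Finite G] [Group.IsSolvable G] (C : Subgroup G) (hC : Cfsg.IsCarterSubgroup C)
    (A : Subgroup G) [A.Normal] : Cfsg.IsCarterSubgroup (C.map (QuotientGroup.mk' A)) :=
  carter_map_aux (carterConjBelow_all _) C hC A

theorem carter_exists_aux : ∀ (n : ℕ) (G : Type u) [Group G] [Finite G] [Group.IsSolvable G],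
    Nat.card G = n → ∃ C : Subgroup G, Cfsg.IsCarterSubgroup C := by
  intro n
  induction n using Nat.strong_induction_on with
  | _ n ih =>
  intro G _ _ _ hn
  by_cases hsub : Subsingleton G
  · refine ⟨⊤, ?_, normalizer_eq_top_iff.mpr inferInstance⟩
    infer_instance
  rw [not_subsingleton_iff_nontrivial] at hsub
  obtain ⟨p, A, hp, hAn, hAb, hAp⟩ := exists_normal_pgroup (G := G)
  haveI := hAn
  haveI : Fact p.Prime := ⟨hp⟩
  have hlt : Nat.card (G ⧸ A) < n := hn ▸ card_quotient_lt A (two_le_card_of_ne_bot hAb)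
  obtain ⟨Kb, hKb⟩ := ih _ hlt (G ⧸ A) rfl
  obtain ⟨K, hK⟩ : ∃ K, K = Kb.comap (QuotientGroup.mk' A) := ⟨_, rfl⟩
  have hsurj := QuotientGroup.mk'_surjective A
  have hKmap : K.map (QuotientGroup.mk' A) = Kb := by
    rw [hK]; exact map_comap_eq_self_of_surjective hsurj Kb
  have hAK : A ≤ K := by
    rw [hK]
    intro a ha
    rw [mem_comap, QuotientGroup.mk'_apply, (QuotientGroup.eq_one_iff a).mpr ha]
    exact one_mem _
  have hKN : normalizer (K : Set G) = K := by
    rw [hK, ← comap_normalizer_eq_of_surjective _ hsurj, hKb.2]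
  obtain ⟨Q, hQ⟩ := exists_isPCompl p K
  obtain ⟨C, hCdef⟩ : ∃ C, C = K ⊓ normalizer (Q : Set G) := ⟨_, rfl⟩
  have hCK : C ≤ K := hCdef ▸ inf_le_left
  have hQC : Q ≤ C := hCdef ▸ le_inf hQ.1 le_normalizer
  have hCN : C ≤ normalizer (Q : Set G) := hCdef ▸ inf_le_right
  have hQA : Q ⊓ A = ⊥ := by
    obtain ⟨a, ha⟩ := IsPGroup.iff_card.mp hAp
    have hc : (Nat.card Q).Coprime (Nat.card A) := ha ▸ coprime_pow_of_not_dvd hQ.2.1 a
    exact (Subgroup.disjoint_of_coprime_natCard hc).eq_bot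
  have hQb : IsPCompl p (Q.map (QuotientGroup.mk' A)) Kb := by
    refine ⟨?_, ?_, ?_⟩
    · rw [← hKmap]; exact map_mono hQ.1
    · intro h; exact hQ.2.1 (h.trans (card_map_dvd Q _))
    · obtain ⟨k, hk⟩ := hQ.2.2
      have d : (Q.map (QuotientGroup.mk' A)).relIndex Kb ∣ p ^ k := by
        rw [← hKmap, relIndex_map_map, QuotientGroup.ker_mk', sup_eq_left.mpr hAK, ← hk]
        exact relIndex_dvd_of_le_left K le_sup_left
      obtain ⟨m, -, hm⟩ := (Nat.dvd_prime_pow hp).mp d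
      exact ⟨m, hm⟩
  have hKbN := hQb.le_normalizer_of_nilpotent hKb.1
  have hfrat : K ≤ C ⊔ A := by
    intro k hk
    obtain ⟨W, hW⟩ : ∃ W, W = Q ⊔ A := ⟨_, rfl⟩
    have hWK : W ≤ K := hW ▸ sup_le hQ.1 hAK
    have hJW : MulAut.conj k • Q ≤ W := by
      apply Cfsg.Agent.Lib.Helper1.conj_smul_le_of_forall
      intro q hq
      have h1 : QuotientGroup.mk' A (k * q * k⁻¹) ∈ Q.map (QuotientGroup.mk' A) := by
        rw [map_mul, map_mul, map_inv]
        have hkb : QuotientGroup.mk' A k ∈ Kb := hKmap ▸ mem_map_of_mem _ hk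
        exact (mem_normalizer_iff.mp (hKbN hkb) _).mp (mem_map_of_mem _ hq)
      obtain ⟨q', hq', he⟩ := h1
      have h2 : q'⁻¹ * (k * q * k⁻¹) ∈ A := by
        rw [← QuotientGroup.eq_one_iff, ← QuotientGroup.mk'_apply, map_mul, map_inv, he,
          inv_mul_cancel]
      have h3 : k * q * k⁻¹ = q' * (q'⁻¹ * (k * q * k⁻¹)) := by group
      rw [h3, hW]
      exact mul_mem (mem_sup_left hq') (mem_sup_right h2)
    have hQW : IsPCompl p Q W := hQ.of_le (hW ▸ le_sup_left) hWK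
    have hJW' : IsPCompl p (MulAut.conj k • Q) W := by
      have h1 := hQ.conj k
      have h2 : MulAut.conj k • K = K := conj_smul_eq_self_iff_mem_normalizer.mpr (le_normalizer hk)
      rw [h2] at h1
      exact h1.of_le hJW hWK
    obtain ⟨w, hw, hwk⟩ := hQW.conj_rel hJW'
    have h4 : w⁻¹ * k ∈ normalizer (Q : Set G) := by
      rw [← conj_smul_eq_self_iff_mem_normalizer, map_mul, mul_smul, ← hwk, ← mul_smul, ← map_mul,
        inv_mul_cancel, map_one, one_smul]
    have h5 : w⁻¹ * k ∈ C := hCdef ▸ mem_inf.mpr ⟨K.mul_mem (K.inv_mem (hWK hw)) hk, h4⟩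
    have h6 : k = w * (w⁻¹ * k) := by group
    rw [h6]
    exact mul_mem ((hW ▸ sup_le (hQC.trans le_sup_left) le_sup_right : W ≤ C ⊔ A) hw)
      (mem_sup_left h5)
  have hKeq : K = C ⊔ A := le_antisymm hfrat (sup_le hCK hAK)
  refine ⟨C, ?_, ?_⟩
  · haveI := hKb.1
    haveI hQn : (Q.subgroupOf C).Normal := (normal_subgroupOf_iff_le_normalizer hQC).mpr hCN
    haveI : Group.IsNilpotent (C ⧸ Q.subgroupOf C) := by
      obtain ⟨k, hk⟩ := (hQ.of_le hQC hCK).2.2
      have : IsPGroup p (C ⧸ Q.subgroupOf C) := IsPGroup.of_card (n := k) (by rw [← hk]; rfl)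
      exact this.isNilpotent
    let φ1 : C →* Kb := ((QuotientGroup.mk' A).comp C.subtype).codRestrict Kb (fun c => by
      rw [← hKmap]; exact mem_map_of_mem _ (hCK c.2))
    let φ : C →* Kb × (C ⧸ Q.subgroupOf C) := φ1.prod (QuotientGroup.mk' (Q.subgroupOf C))
    apply isNilpotent_of_injective' φ
    rw [injective_iff_map_eq_one]
    intro c hc
    have h1 : φ1 c = 1 := congrArg Prod.fst hc
    have h2 : QuotientGroup.mk' (Q.subgroupOf C) c = 1 := congrArg Prod.snd hc
    have h3 : (c : G) ∈ A := by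
      have := congrArg Subtype.val h1
      exact (QuotientGroup.eq_one_iff _).mp this
    have h4 : (c : G) ∈ Q := mem_subgroupOf.mp ((QuotientGroup.eq_one_iff c).mp h2)
    have h5 : (c : G) ∈ Q ⊓ A := ⟨h4, h3⟩
    rw [hQA, mem_bot] at h5
    exact Subtype.ext h5
  · apply le_antisymm _ le_normalizer
    intro g hg
    have hgK : g ∈ K := by
      rw [← hKN]
      apply mem_normalizer_of_conj_mem
      intro x hx
      rw [hKeq] at hx ⊢
      rw [mem_sup_of_normal_right] at hx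
      obtain ⟨c, hc, a, ha, rfl⟩ := hx
      have : g * (c * a) * g⁻¹ = (g * c * g⁻¹) * (g * a * g⁻¹) := by group
      rw [this]
      exact mul_mem (mem_sup_left ((mem_normalizer_iff.mp hg c).mp hc))
        (mem_sup_right (hAn.conj_mem a ha g))
    have hJC : MulAut.conj g • Q ≤ C :=
      Cfsg.Agent.Lib.Helper1.conj_smul_le_of_forall
        (fun q hq => (mem_normalizer_iff.mp hg q).mp (hQC hq))
    have hJQ : MulAut.conj g • Q ≤ Q := by
      apply (hQ.of_le hQC hCK).le_of_le_normalizer hJC (hJC.trans hCN)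
      rw [Cfsg.Agent.Lib.Helper1.card_conj_smul]
      exact hQ.2.1
    rw [hCdef]
    refine mem_inf.mpr ⟨hgK, ?_⟩
    apply mem_normalizer_of_conj_mem
    intro x hx
    exact hJQ ⟨x, hx, rfl⟩

/-- A finite solvable group has a Carter subgroup. -/
theorem carter_exists (G : Type u) [Group G] [Finite G] [Group.IsSolvable G] :
    ∃ C : Subgroup G, Cfsg.IsCarterSubgroup C :=
  carter_exists_aux _ G rfl

end Carter

end Cfsg.Agent.Lib.Helper4
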