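import Mathlib
import Cfsg.Agent.S0005
import Cfsg.Agent.S0543
import Cfsg.Agent.S0545
import Cfsg.Agent.Lib.Helper4.Carter

set_option autoImplicit false

/-! Carter subgroups and system normalizers. -/

namespace Cfsg.Agent.Lib.Helper4

open Subgroup
open scoped Pointwise

universe u

theorem index_eq_pow_factorization {X : Type*} [Group X] [Finite X] {q : ℕ} (hq : q.Prime)
    (H : Subgroup X) (b : ℕ) (hb : H.index = q ^ b) (h2 : ¬ q ∣ Nat.card H) :
    H.index = q ^ (Nat.card X).factorization q := by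
  have h3 := Subgroup.card_mul_index H
  rw [← h3, hb, Nat.factorization_mul Nat.card_pos.ne' (pow_ne_zero _ hq.ne_zero), Finsupp.add_apply,
    Nat.factorization_eq_zero_of_not_dvd h2, Nat.factorization_pow, Finsupp.smul_apply,
    hq.factorization_self]
  simp

theorem relIndex_map_dvd {G G' : Type*} [Group G] [Group G'] (f : G →* G') (H C : Subgroup G) :
    (H.map f).relIndex (C.map f) ∣ H.relIndex C := by
  rw [← relIndex_comap, comap_map_eq]
  exact relIndex_dvd_of_le_left C le_sup_left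

/-- The complement system `K` reduces into `C`. -/
def Reduces {G : Type*} [Group G] (K : Nat.Primes → Subgroup G) (C : Subgroup G) : Prop :=
  ∀ q : Nat.Primes, ∃ k : ℕ, (K q).relIndex C = (q : ℕ) ^ k

theorem pow_of_dvd_pow {q : ℕ} (hq : q.Prime) {a k : ℕ} (h : a ∣ q ^ k) : ∃ m : ℕ, a = q ^ m := by
  obtain ⟨m, -, hm⟩ := (Nat.dvd_prime_pow hq).mp h
  exact ⟨m, hm⟩

theorem sysNorm_le_carter_aux : ∀ (n : ℕ) (G : Type u) [Group G] [Finite G] [Group.IsSolvable G],
    Nat.card G = n → ∀ (C : Subgroup G) (K : Nat.Primes → Subgroup G), Cfsg.IsCarterSubgroup C →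
    Cfsg.IsComplementSystem K → Reduces K C → Cfsg.systemNormalizer K ≤ C := by
  intro n
  induction n using Nat.strong_induction_on with
  | _ n ih =>
  intro G _ _ _ hn C K hC hK hred
  by_cases hsub : Subsingleton G
  · intro x _
    rw [Subsingleton.elim x 1]
    exact C.one_mem
  rw [not_subsingleton_iff_nontrivial] at hsub
  obtain ⟨p, A, hp, hAn, hAb, hAp⟩ := exists_normal_pgroup (G := G)
  haveI := hAn
  haveI : Fact p.Prime := ⟨hp⟩
  obtain ⟨a, ha⟩ := IsPGroup.iff_card.mp hAp
  have hlt : Nat.card (G ⧸ A) < n := hn ▸ card_quotient_lt A (two_le_card_of_ne_bot hAb)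
  obtain ⟨hKb, hDb⟩ := Cfsg.Agent.S0545.result K hK A
  have hredb : Reduces (fun q => (K q).map (QuotientGroup.mk' A)) (C.map (QuotientGroup.mk' A)) := by
    intro q
    obtain ⟨k, hk⟩ := hred q
    exact pow_of_dvd_pow q.2 (hk ▸ relIndex_map_dvd (QuotientGroup.mk' A) (K q) C)
  have h1 := ih _ hlt (G ⧸ A) rfl _ _ (carter_map C hC A) hKb hredb
  have hDX : Cfsg.systemNormalizer K ≤ C ⊔ A := by
    intro x hx
    have h2 : QuotientGroup.mk' A x ∈ C.map (QuotientGroup.mk' A) := by
      apply h1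
      rw [hDb]
      exact mem_map_of_mem _ hx
    have h3 : x ∈ (C.map (QuotientGroup.mk' A)).comap (QuotientGroup.mk' A) := h2
    rwa [comap_map_eq, QuotientGroup.ker_mk'] at h3
  by_cases hX : C ⊔ A = ⊤
  · -- `K p ≤ C`
    obtain ⟨k, hk⟩ := hred ⟨p, hp⟩
    obtain ⟨M, hM⟩ : ∃ M, M = K ⟨p, hp⟩ := ⟨_, rfl⟩
    rw [← hM] at hk
    have hMp : ¬ p ∣ Nat.card M := hM ▸ compSys_not_dvd_card K hK ⟨p, hp⟩
    have hC0 : IsPCompl p (M ⊓ C) C := by
      refine ⟨inf_le_right, ?_, k, ?_⟩
      · intro h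
        exact hMp (h.trans (Subgroup.card_dvd_of_le inf_le_left))
      · rw [inf_relIndex_right, hk]
    obtain ⟨j, hj⟩ := relIndex_top_pow_of_sup_eq_top hp A hAp C hX
    have e : M ⊓ C = M := (hC0.mono le_top j hj).eq_of_le inf_le_left le_top hMp
    rw [e] at hC0
    have hCY := hC0.le_normalizer_of_nilpotent hC.1
    obtain ⟨Y, hY⟩ : ∃ Y, Y = normalizer (M : Set G) := ⟨_, rfl⟩
    rw [← hY] at hCY
    have hMY : M ≤ Y := hY ▸ le_normalizer
    haveI : (M.subgroupOf Y).Normal := by rw [hY]; exact normal_in_normalizer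
    haveI : Group.IsNilpotent (Y ⧸ M.subgroupOf Y) := by
      have d : M.relIndex Y ∣ p ^ (Nat.card G).factorization p := by
        have := hK ⟨p, hp⟩
        rw [← hM] at this
        change M.index = p ^ (Nat.card G).factorization p at this
        rw [← this]
        exact relIndex_dvd_index_of_le hMY
      obtain ⟨m, hm⟩ := pow_of_dvd_pow hp d
      have : IsPGroup p (Y ⧸ M.subgroupOf Y) := IsPGroup.of_card (n := m) (by rw [← hm]; rfl)
      exact this.isNilpotent
    have htop := eq_top_of_quotient_nilpotent (M.subgroupOf Y) (C.subgroupOf Y)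
      (by
        intro y hy
        exact mem_subgroupOf.mpr (hC0.1 (mem_subgroupOf.mp hy)))
      (carter_subgroupOf hC hCY).2
    rw [subgroupOf_eq_top] at htop
    intro x hx
    apply htop
    rw [hY, hM]
    exact Subgroup.mem_iInf.mp hx ⟨p, hp⟩
  · obtain ⟨X, hXdef⟩ : ∃ X, X = C ⊔ A := ⟨_, rfl⟩
    rw [← hXdef] at hX hDX
    have hCX : C ≤ X := hXdef ▸ le_sup_left
    have hpow : ∀ q : Nat.Primes, ∃ m : ℕ, (K q).relIndex X = (q : ℕ) ^ m := by
      intro q
      obtain ⟨k, hk⟩ := hred q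
      by_cases hqp : (q : ℕ) = p
      · have d1 : (K q).relIndex X ∣ (K q ⊓ C).relIndex X := relIndex_dvd_of_le_left X inf_le_left
        rw [← relIndex_mul_relIndex (K q ⊓ C) C X inf_le_right hCX, inf_relIndex_right, hk, hXdef,
          ← relIndex_eq_relIndex_sup] at d1
        have d2 : C.relIndex A ∣ (q : ℕ) ^ a := by
          rw [hqp, ← ha]
          exact relIndex_dvd_card C A
        have d3 : (K q).relIndex (C ⊔ A) ∣ (q : ℕ) ^ (k + a) := by
          rw [pow_add]
          exact d1.trans (Nat.mul_dvd_mul_left _ d2)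
        rw [hXdef]
        exact pow_of_dvd_pow q.2 d3
      · have hAK : A ≤ K q := by
          rw [← relIndex_eq_one]
          have d1 : (K q).relIndex A ∣ (q : ℕ) ^ (Nat.card G).factorization q := by
            rw [← hK q]
            exact relIndex_dvd_index_of_normal_right (K q) A
          have d2 : (K q).relIndex A ∣ p ^ a := ha ▸ relIndex_dvd_card (K q) A
          exact Nat.eq_one_of_dvd_coprimes
            (Nat.coprime_pow_primes _ _ q.2 hp hqp) d1 d2
        have e : (K q).relIndex X =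
            ((K q).map (QuotientGroup.mk' A)).relIndex (C.map (QuotientGroup.mk' A)) := by
          rw [relIndex_map_map, QuotientGroup.ker_mk', sup_eq_left.mpr hAK, hXdef]
        rw [e]
        exact hredb q
    have hKX : Cfsg.IsComplementSystem (fun q => (K q).subgroupOf X) := by
      intro q
      obtain ⟨m, hm⟩ := hpow q
      apply index_eq_pow_factorization q.2 _ m hm
      intro h
      apply compSys_not_dvd_card K hK q
      rw [card_subgroupOf_eq_card_inf] at h
      exact h.trans (Subgroup.card_dvd_of_le inf_le_left)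
    have hredX : Reduces (fun q => (K q).subgroupOf X) (C.subgroupOf X) := by
      intro q
      obtain ⟨k, hk⟩ := hred q
      exact ⟨k, by rw [relIndex_subgroupOf hCX, hk]⟩
    have h2 := ih _ (hn ▸ card_lt_of_ne_top hX) X rfl _ _ (carter_subgroupOf hC hCX) hKX hredX
    intro x hx
    have hxX : x ∈ X := hDX hx
    have h3 : (⟨x, hxX⟩ : X) ∈ Cfsg.systemNormalizer (fun q => (K q).subgroupOf X) := by
      apply Subgroup.mem_iInf.mpr
      intro q
      have h4 : x ∈ normalizer (K q : Set G) := Subgroup.mem_iInf.mp hx q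
      rw [mem_normalizer_iff] at h4 ⊢
      intro y
      exact h4 y
    exact mem_subgroupOf.mp (h2 h3)

/-- If a complement system reduces into a Carter subgroup `C` then its system normalizer lies in `C`. -/
theorem sysNorm_le_carter {G : Type u} [Group G] [Finite G] [Group.IsSolvable G] (C : Subgroup G)
    (K : Nat.Primes → Subgroup G) (hC : Cfsg.IsCarterSubgroup C) (hK : Cfsg.IsComplementSystem K)
    (hred : Reduces K C) : Cfsg.systemNormalizer K ≤ C :=
  sysNorm_le_carter_aux _ G rfl C K hC hK hred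

/-- Every subgroup of a finite solvable group has a complement system reducing into it. -/
theorem exists_reduces {G : Type u} [Group G] [Finite G] [Group.IsSolvable G] (C : Subgroup G) :
    ∃ K : Nat.Primes → Subgroup G, Cfsg.IsComplementSystem K ∧ Reduces K C := by
  have key : ∀ q : Nat.Primes, ∃ H : Subgroup G,
      H.index = (q : ℕ) ^ (Nat.card G).factorization q ∧ ∃ k : ℕ, H.relIndex C = (q : ℕ) ^ k := by
    intro q
    haveI : Fact (q : ℕ).Prime := ⟨q.2⟩
    obtain ⟨L, hL⟩ := exists_isPCompl (q : ℕ) C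
    have hne : Nat.card G ≠ 0 := Nat.card_pos.ne'
    have h2 := Nat.ordProj_mul_ordCompl_eq_self (Nat.card G) q
    obtain ⟨H, hH, hLH⟩ := Cfsg.Agent.S0005.result (G := G)
      (Nat.card G / (q : ℕ) ^ (Nat.card G).factorization q) ((q : ℕ) ^ (Nat.card G).factorization q)
      (by rw [mul_comm]; exact h2.symm)
      (Nat.Coprime.pow_right _ (Nat.coprime_ordCompl q.2 hne).symm) L
      (coprime_pow_of_not_dvd hL.2.1 _)
    refine ⟨H, ?_, ?_⟩
    · have h3 := Subgroup.card_mul_index H
      rw [hH] at h3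
      have hpos : 0 < Nat.card G / (q : ℕ) ^ (Nat.card G).factorization q := by
        rcases Nat.eq_zero_or_pos (Nat.card G / (q : ℕ) ^ (Nat.card G).factorization q) with h | h
        · rw [h, mul_zero] at h2
          exact absurd h2.symm hne
        · exact h
      apply Nat.eq_of_mul_eq_mul_left hpos
      rw [h3, mul_comm, h2]
    · obtain ⟨k, hk⟩ := hL.2.2
      exact pow_of_dvd_pow q.2 (hk ▸ relIndex_dvd_of_le_left C hLH)
  choose K hK1 hK2 using key
  exact ⟨K, hK1, hK2⟩

theorem sysNorm_conj {G : Type u} [Group G] (K L : Nat.Primes → Subgroup G) (g : G)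
    (h : ∀ p, MulAut.conj g • K p = L p) :
    Cfsg.systemNormalizer L = MulAut.conj g • Cfsg.systemNormalizer K := by
  ext x
  rw [Cfsg.Agent.Lib.Helper1.mem_conj_smul]
  unfold Cfsg.systemNormalizer
  rw [Subgroup.mem_iInf, Subgroup.mem_iInf]
  apply forall_congr'
  intro p
  rw [← h p, normalizer_conj, Cfsg.Agent.Lib.Helper1.mem_conj_smul]

theorem exists_carter_ge {G : Type u} [Group G] [Finite G] [Group.IsSolvable G]
    (K : Nat.Primes → Subgroup G) (hK : Cfsg.IsComplementSystem K) :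
    ∃ C : Subgroup G, Cfsg.IsCarterSubgroup C ∧ Cfsg.systemNormalizer K ≤ C := by
  obtain ⟨C0, hC0⟩ := carter_exists G
  obtain ⟨K0, hK0, hred⟩ := exists_reduces C0
  obtain ⟨g, hg⟩ := Cfsg.Agent.S0543.result K0 K hK0 hK
  refine ⟨MulAut.conj g • C0, carter_conj hC0 g, ?_⟩
  rw [sysNorm_conj K0 K g hg]
  exact Subgroup.pointwise_smul_le_pointwise_smul_iff.mpr (sysNorm_le_carter C0 K0 hC0 hK0 hred)

/-- In a nilpotent-by-nilpotent group a Carter subgroup normalizes every complement system reducing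
into it. -/
theorem carter_le_sysNorm {G : Type u} [Group G] [Finite G] [Group.IsSolvable G] (F : Subgroup G)
    [hFn : F.Normal] (hF : Group.IsNilpotent F) (hGF : Group.IsNilpotent (G ⧸ F)) (C : Subgroup G)
    (K : Nat.Primes → Subgroup G) (hC : Cfsg.IsCarterSubgroup C) (hK : Cfsg.IsComplementSystem K)
    (hred : Reduces K C) : C ≤ Cfsg.systemNormalizer K := by
  have hCF : C ⊔ F = ⊤ := by
    have h1 := normalizerCondition_iff_only_full_group_self_normalizing.mp
      Group.normalizerCondition_of_isNilpotent _ (carter_map C hC F).2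
    have h2 := congrArg (comap (QuotientGroup.mk' F)) h1
    rwa [comap_map_eq, QuotientGroup.ker_mk', comap_top] at h2
  apply le_iInf
  intro q
  haveI : Fact (q : ℕ).Prime := ⟨q.2⟩
  obtain ⟨k, hk⟩ := hred q
  obtain ⟨M, hM⟩ : ∃ M, M = K q := ⟨_, rfl⟩
  rw [← hM] at hk ⊢
  have hMq : ¬ (q : ℕ) ∣ Nat.card M := hM ▸ compSys_not_dvd_card K hK q
  have hMidx : M.index = (q : ℕ) ^ (Nat.card G).factorization q := hM ▸ hK q
  have hC0 : IsPCompl (q : ℕ) (M ⊓ C) C :=
    ⟨inf_le_right, fun h => hMq (h.trans (Subgroup.card_dvd_of_le inf_le_left)), k,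
      by rw [inf_relIndex_right, hk]⟩
  have hF0 : IsPCompl (q : ℕ) (M ⊓ F) F := by
    refine ⟨inf_le_right, fun h => hMq (h.trans (Subgroup.card_dvd_of_le inf_le_left)), ?_⟩
    rw [inf_relIndex_right]
    exact pow_of_dvd_pow q.2 (hMidx ▸ relIndex_dvd_index_of_normal_right M F)
  have hCN := hC0.le_normalizer_of_nilpotent hC.1
  have hFN := hF0.le_normalizer_of_nilpotent hF
  have hF0n : (M ⊓ F).Normal := by
    rw [← normalizer_eq_top_iff, eq_top_iff]
    intro g _
    have hJF : MulAut.conj g • (M ⊓ F) ≤ F := by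
      apply Cfsg.Agent.Lib.Helper1.conj_smul_le_of_forall
      intro x hx
      exact hFn.conj_mem x hx.2 g
    have hJ : MulAut.conj g • (M ⊓ F) ≤ M ⊓ F := by
      apply hF0.le_of_le_normalizer hJF (hJF.trans hFN)
      rw [Cfsg.Agent.Lib.Helper1.card_conj_smul]
      exact hF0.2.1
    apply mem_normalizer_of_conj_mem
    intro x hx
    exact hJ ⟨x, hx, rfl⟩
  obtain ⟨Y, hY⟩ : ∃ Y, Y = (M ⊓ C) ⊔ (M ⊓ F) := ⟨_, rfl⟩
  have hYM : Y ≤ M := hY ▸ sup_le inf_le_left inf_le_left
  have hYq : ¬ (q : ℕ) ∣ Nat.card Y := fun h => hMq (h.trans (Subgroup.card_dvd_of_le hYM))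
  have hYtop : IsPCompl (q : ℕ) Y ⊤ := by
    refine ⟨le_top, hYq, ?_⟩
    have hle1 : Y ≤ (M ⊓ C) ⊔ F := hY ▸ sup_le le_sup_left (inf_le_right.trans le_sup_right)
    obtain ⟨b, hb⟩ := hF0.2.2
    have d1 : Y.relIndex ((M ⊓ C) ⊔ F) ∣ (q : ℕ) ^ b := by
      have e : Y ⊔ F = (M ⊓ C) ⊔ F := by
        apply le_antisymm (sup_le hle1 le_sup_right)
        exact sup_le ((hY ▸ le_sup_left : M ⊓ C ≤ Y).trans le_sup_left) le_sup_right
      rw [← e, ← relIndex_eq_relIndex_sup, ← hb]
      exact relIndex_dvd_of_le_left F (hY ▸ le_sup_right)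
    have d2 : ((M ⊓ C) ⊔ F).relIndex ⊤ ∣ (q : ℕ) ^ k := by
      have e : ((M ⊓ C) ⊔ F).relIndex ⊤ =
          ((M ⊓ C).map (QuotientGroup.mk' F)).relIndex (C.map (QuotientGroup.mk' F)) := by
        rw [relIndex_map_map, QuotientGroup.ker_mk', hCF]
      have d := relIndex_map_dvd (QuotientGroup.mk' F) (M ⊓ C) C
      rw [inf_relIndex_right, hk] at d
      rw [e]
      exact d
    have d3 : Y.relIndex ⊤ ∣ (q : ℕ) ^ (b + k) := by
      rw [← relIndex_mul_relIndex Y _ ⊤ hle1 le_top, pow_add]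
      exact Nat.mul_dvd_mul d1 d2
    exact pow_of_dvd_pow q.2 d3
  have hYeq : Y = M := hYtop.eq_of_le hYM le_top hMq
  rw [← hYeq]
  apply le_normalizer_of_conj_mem
  intro c hc x hx
  rw [hY] at hx ⊢
  rw [mem_sup_of_normal_right] at hx
  obtain ⟨y, hy, z, hz, rfl⟩ := hx
  have : c * (y * z) * c⁻¹ = (c * y * c⁻¹) * (c * z * c⁻¹) := by group
  rw [this]
  exact mul_mem (mem_sup_left ((mem_normalizer_iff.mp (hCN hc) y).mp hy))
    (mem_sup_right (hF0n.conj_mem z hz c))

theorem carter_iff_sysNorm {G : Type u} [Group G] [Finite G] [Group.IsSolvable G] (F : Subgroup G)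
    [hFn : F.Normal] (hF : Group.IsNilpotent F) (hGF : Group.IsNilpotent (G ⧸ F)) (C : Subgroup G) :
    Cfsg.IsCarterSubgroup C ↔
      ∃ K : Nat.Primes → Subgroup G, Cfsg.IsComplementSystem K ∧ C = Cfsg.systemNormalizer K := by
  constructor
  · intro hC
    obtain ⟨K, hK, hred⟩ := exists_reduces C
    exact ⟨K, hK, le_antisymm (carter_le_sysNorm F hF hGF C K hC hK hred)
      (sysNorm_le_carter C K hC hK hred)⟩
  · rintro ⟨K, hK, rfl⟩
    obtain ⟨C0, hC0⟩ := carter_exists G
    obtain ⟨K0, hK0, hred⟩ := exists_reduces C0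
    obtain ⟨g, hg⟩ := Cfsg.Agent.S0543.result K0 K hK0 hK
    have e : C0 = Cfsg.systemNormalizer K0 :=
      le_antisymm (carter_le_sysNorm F hF hGF C0 K0 hC0 hK0 hred)
        (sysNorm_le_carter C0 K0 hC0 hK0 hred)
    rw [sysNorm_conj K0 K g hg, ← e]
    exact carter_conj hC0 g

end Cfsg.Agent.Lib.Helper4
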