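import Mathlib
import Cfsg.Agent.Lib.Helper4.BO12
import Cfsg.Agent.Lib.Helper17.Core
import Cfsg.Agent.S0640

set_option autoImplicit false

namespace Cfsg.Agent.Lib.Helper4.CoprimeBlk

open Cfsg Cfsg.Agent.Lib.Helper4.BO Cfsg.Agent.Lib.Helper17

variable {Γ : Type*} [Group Γ]

theorem bestOffender_conj {p : ℕ} {V A : Subgroup Γ} {x : Γ}
    (hx : x ∈ Subgroup.normalizer (V : Set Γ)) (hA : IsBestOffenderOn p V A) :
    IsBestOffenderOn p V (A.map (MulAut.conj x).toMonoidHom) := by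
  obtain ⟨h1, h2, h3⟩ := hA
  have hV : V.map (MulAut.conj x).toMonoidHom = V := map_conj_eq_of_mem_normalizer hx
  have hCV : (Subgroup.centralizer (V : Set Γ)).map (MulAut.conj x).toMonoidHom
      = Subgroup.centralizer (V : Set Γ) := by
    rw [← centralizer_map_conj, hV]
  have hcard : ∀ B : Subgroup Γ,
      Nat.card ↥(V ⊓ Subgroup.centralizer ((B.map (MulAut.conj x).toMonoidHom : Subgroup Γ) : Set Γ))
        = Nat.card ↥(V ⊓ Subgroup.centralizer (B : Set Γ)) := by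
    intro B
    rw [centralizer_map_conj]
    conv_lhs => rw [← hV]
    rw [← Subgroup.map_inf _ _ _ (MulAut.conj x).injective, card_map_conj]
  refine ⟨?_, ?_, ?_⟩
  · intro B' hB'
    obtain ⟨B, hB⟩ : ∃ B, B = B'.comap (MulAut.conj x).toMonoidHom := ⟨_, rfl⟩
    have hBm : B.map (MulAut.conj x).toMonoidHom = B' := by
      rw [hB]
      exact Subgroup.map_comap_eq_self_of_surjective (MulAut.conj x).surjective B'
    have hBA : B ≤ A := by
      rw [hB]
      have := Subgroup.comap_mono (f := (MulAut.conj x).toMonoidHom) hB'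
      rwa [Subgroup.comap_map_eq_self_of_injective (MulAut.conj x).injective] at this
    rw [← hBm, hcard, hcard, card_map_conj, card_map_conj]
    exact h1 B hBA
  · rw [← Subgroup.map_commutator, ← hCV]
    exact Subgroup.map_mono h2
  · rintro _ ⟨a, ha, rfl⟩
    rw [← map_pow, ← hCV]
    exact Subgroup.mem_map_of_mem _ (h3 a ha)

theorem isE_conj [Finite Γ] {p : ℕ} {V H Q E : Subgroup Γ} {x : Γ}
    (hxV : x ∈ Subgroup.normalizer (V : Set Γ)) (hxH : x ∈ Subgroup.normalizer (H : Set Γ))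
    (hxQ : x ∈ Subgroup.normalizer (Q : Set Γ)) (hE : IsE p V H Q E) :
    IsE p V H Q (E.map (MulAut.conj x).toMonoidHom) := by
  obtain ⟨a, ha, hBO, hc, rfl⟩ := hE
  have hz : (Subgroup.zpowers a).map (MulAut.conj x).toMonoidHom
      = Subgroup.zpowers (x * a * x⁻¹) := by
    rw [MonoidHom.map_zpowers]
    rfl
  refine ⟨x * a * x⁻¹, (Subgroup.mem_normalizer_iff.mp hxH a).mp ha, ?_, ?_, ?_⟩
  · rw [← hz]; exact bestOffender_conj hxV hBO
  · rw [← hz, card_map_conj]; exact hc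
  · rw [Subgroup.map_sup, Subgroup.map_commutator, hz, map_conj_eq_of_mem_normalizer hxQ]

theorem centralizes_of_normalizes [Finite Γ] {p : ℕ} [Fact p.Prime] {V H Q E : Subgroup Γ}
    (B : Blk p V H Q E) (q : ℕ) [Fact q.Prime] {x : Γ} (hxq : x ^ q = 1)
    (hxV : x ∈ Subgroup.normalizer (V : Set Γ))
    (hxE : E.map (MulAut.conj x).toMonoidHom = E) (hq : ¬ q ∣ Nat.card E) :
    ∀ u ∈ E, x * u * x⁻¹ = u := by
  have hp : p.Prime := Fact.out
  have hqp' : q.Prime := Fact.out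
  obtain ⟨W, hW⟩ : ∃ W, W = ⁅V, E⁆ := ⟨_, rfl⟩
  have hWmap : W.map (MulAut.conj x).toMonoidHom = W := by
    rw [hW, Subgroup.map_commutator, hxE, map_conj_eq_of_mem_normalizer hxV]
  have hxW : ∀ w ∈ W, MulAut.conj x w ∈ W := by
    intro w hw
    have : MulAut.conj x w ∈ W.map (MulAut.conj x).toMonoidHom := ⟨w, hw, rfl⟩
    rwa [hWmap] at this
  have haq : (MulAut.conj x) ^ q = 1 := by rw [← map_pow, hxq, map_one]
  have hmod := Cfsg.Agent.S0640.card_modEq (MulAut.conj x) W hxW q haq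
  have hcW : Nat.card W = p ^ 2 := by rw [hW]; exact B.card_W
  have hWp : IsPGroup p W := IsPGroup.of_card hcW
  obtain ⟨i, hi⟩ := IsPGroup.iff_card.mp
    (hWp.to_le (inf_le_left : W ⊓ Cfsg.Agent.S0640.fixSub (MulAut.conj x) ≤ W))
  have hle : Nat.card ↥(W ⊓ Cfsg.Agent.S0640.fixSub (MulAut.conj x)) ≤ Nat.card W :=
    Subgroup.card_le_of_le inf_le_left
  have hcE := B.card_E
  have hqp : q ≠ p := by
    intro h
    apply hq
    rw [hcE, h]
    exact Dvd.intro _ rfl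
  have hfix : W ≤ Cfsg.Agent.S0640.fixSub (MulAut.conj x) := by
    by_cases hi2 : i < 2
    · exfalso
      rw [hcW, hi] at hmod hle
      have h1 := (Nat.modEq_iff_dvd' hle).mp hmod.symm
      have h2 := Cfsg.Agent.S0640.arith hp hqp' hqp hi2 (by omega) h1
      apply hq
      rw [hcE]
      exact Dvd.dvd.mul_left h2 _
    · have h3 : W ⊓ Cfsg.Agent.S0640.fixSub (MulAut.conj x) = W := by
        apply Subgroup.eq_of_le_of_card_ge inf_le_left
        rw [hcW, hi]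
        exact Nat.pow_le_pow_right hp.pos (by omega)
      rw [← h3]
      exact inf_le_right
  have hfix' : ∀ w ∈ W, x * w = w * x := by
    intro w hw
    have h1 : x * w * x⁻¹ = w := hfix hw
    calc x * w = (x * w * x⁻¹) * x := by group
      _ = w * x := by rw [h1]
  intro u hu
  have hcE' : x * u * x⁻¹ * u⁻¹ ∈ E ⊓ Subgroup.centralizer ((⁅V, E⁆ : Subgroup Γ) : Set Γ) := by
    refine ⟨?_, ?_⟩
    · apply E.mul_mem _ (E.inv_mem hu)
      have : x * u * x⁻¹ ∈ E.map (MulAut.conj x).toMonoidHom := conj_mem_map_conj hu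
      rwa [hxE] at this
    · show x * u * x⁻¹ * u⁻¹ ∈ Subgroup.centralizer ((⁅V, E⁆ : Subgroup Γ) : Set Γ)
      rw [Subgroup.mem_centralizer_iff, ← hW]
      intro w hw
      have hw' : u⁻¹ * w * u ∈ W := by
        have h1 := (Subgroup.mem_normalizer_iff.mp (B.hEW (E.inv_mem hu)) w).mp (hW ▸ hw)
        rw [inv_inv] at h1
        rw [hW]; exact h1
      have e1 := hfix' _ hw'
      have e2 := hfix' w hw
      have e3 : x⁻¹ * (u⁻¹ * w * u) = (u⁻¹ * w * u) * x⁻¹ := by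
        calc x⁻¹ * (u⁻¹ * w * u) = x⁻¹ * ((u⁻¹ * w * u) * x) * x⁻¹ := by group
          _ = x⁻¹ * (x * (u⁻¹ * w * u)) * x⁻¹ := by rw [e1]
          _ = _ := by group
      symm
      calc x * u * x⁻¹ * u⁻¹ * w = x * u * (x⁻¹ * (u⁻¹ * w * u)) * u⁻¹ := by group
        _ = x * u * ((u⁻¹ * w * u) * x⁻¹) * u⁻¹ := by rw [e3]
        _ = (x * w) * u * x⁻¹ * u⁻¹ := by group
        _ = (w * x) * u * x⁻¹ * u⁻¹ := by rw [e2]
        _ = _ := by group
  rw [B.faithful, Subgroup.mem_bot] at hcE'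
  calc x * u * x⁻¹ = (x * u * x⁻¹ * u⁻¹) * u := by group
    _ = u := by rw [hcE', one_mul]

theorem reindex [DecidableEq Γ] (O : Finset Γ) (e : Γ ≃* Γ)
    (hO : O.image e = O) (h1 : (O : Set Γ).Pairwise (Function.onFun Commute id)) :
    e (O.noncommProd id h1) = O.noncommProd id h1 := by
  rw [Finset.map_noncommProd]
  unfold Finset.noncommProd
  congr 1
  have h2 : (O.image e).val = O.val.map e := Finset.image_val_of_injOn (e.injective.injOn)
  rw [hO] at h2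
  simp only [id, Multiset.map_id']
  exact h2.symm

theorem exists_norm [Finite Γ] (X E F H : Subgroup Γ)
    (hXH : X ≤ Subgroup.normalizer (H : Set Γ)) (hEH : E ≤ H)
    (hFE : F ≤ Subgroup.centralizer (E : Set Γ))
    (hd : ∀ x ∈ X, ∀ u ∈ E, x * u * x⁻¹ = u ∨ x * u * x⁻¹ ∈ F) (u : Γ) (hu : u ∈ E) :
    ∃ c ∈ H ⊓ Subgroup.centralizer (X : Set Γ), ∃ d ∈ F, c = u * d := by
  classical
  haveI : Fintype Γ := Fintype.ofFinite Γ
  obtain ⟨O, hO⟩ : ∃ O : Finset Γ, O = Finset.univ.filter (fun g => ∃ x ∈ X, g = x * u * x⁻¹) :=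
    ⟨_, rfl⟩
  have hmem : ∀ g, g ∈ O ↔ ∃ x ∈ X, g = x * u * x⁻¹ := by
    intro g; rw [hO]; simp
  have hcomm : (O : Set Γ).Pairwise (Function.onFun Commute id) := by
    intro g hg g' hg' _
    obtain ⟨x, hx, rfl⟩ := (hmem g).mp hg
    obtain ⟨y, hy, rfl⟩ := (hmem g').mp hg'
    have h0 : Commute u ((x⁻¹ * y) * u * (x⁻¹ * y)⁻¹) := by
      rcases hd (x⁻¹ * y) (X.mul_mem (X.inv_mem hx) hy) u hu with h | h
      · rw [h]
      · exact Subgroup.mem_centralizer_iff.mp (hFE h) u hu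
    have h1 := h0.map (MulAut.conj x)
    simp only [MulAut.conj_apply] at h1
    have h2 : x * ((x⁻¹ * y) * u * (x⁻¹ * y)⁻¹) * x⁻¹ = y * u * y⁻¹ := by group
    rw [h2] at h1
    exact h1
  have huO : u ∈ O := (hmem u).mpr ⟨1, X.one_mem, by simp⟩
  have hsplit := Finset.mul_noncommProd_erase O huO id hcomm
  refine ⟨O.noncommProd id hcomm, ⟨?_, ?_⟩, _, ?_, hsplit.symm⟩
  · apply Subgroup.noncommProd_mem
    intro g hg
    obtain ⟨x, hx, rfl⟩ := (hmem g).mp hg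
    exact (Subgroup.mem_normalizer_iff.mp (hXH hx) u).mp (hEH hu)
  · show O.noncommProd id hcomm ∈ Subgroup.centralizer (X : Set Γ)
    rw [Subgroup.mem_centralizer_iff]
    intro y hy
    have himg : O.image (MulAut.conj y) = O := by
      ext g
      rw [Finset.mem_image]
      constructor
      · rintro ⟨g', hg', rfl⟩
        obtain ⟨x, hx, rfl⟩ := (hmem g').mp hg'
        exact (hmem _).mpr ⟨y * x, X.mul_mem hy hx, by simp [MulAut.conj_apply, mul_assoc]⟩
      · intro hg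
        obtain ⟨x, hx, rfl⟩ := (hmem g).mp hg
        exact ⟨(y⁻¹ * x) * u * (y⁻¹ * x)⁻¹, (hmem _).mpr ⟨_, X.mul_mem (X.inv_mem hy) hx, rfl⟩,
          by simp [MulAut.conj_apply, mul_assoc]⟩
    have h1 := reindex O (MulAut.conj y) himg hcomm
    rw [MulAut.conj_apply] at h1
    calc y * O.noncommProd id hcomm = (y * O.noncommProd id hcomm * y⁻¹) * y := by group
      _ = _ := by rw [h1]
  · apply Subgroup.noncommProd_mem
    intro g hg
    obtain ⟨hne, hgO⟩ := Finset.mem_erase.mp hg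
    obtain ⟨x, hx, rfl⟩ := (hmem g).mp hgO
    rcases hd x hx u hu with h | h
    · exact absurd h hne
    · exact h

theorem core_gen [Finite Γ] {p : ℕ} [Fact p.Prime] {V H Q : Subgroup Γ}
    (S : Setup p V H Q)
    (hS3 : H = ⨆ A : {A : Subgroup Γ // A ≤ H ∧ IsBestOffenderOn p V A}, (A : Subgroup Γ))
    (q : ℕ) [Fact q.Prime] (X : Subgroup Γ) (hXq : ∀ x ∈ X, x ^ q = 1)
    (hXV : X ≤ Subgroup.normalizer (V : Set Γ)) (hXH : X ≤ Subgroup.normalizer (H : Set Γ))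
    (hXQ : X ≤ Subgroup.normalizer (Q : Set Γ)) (hq : ¬ q ∣ Nat.card H)
    (T : Subgroup Γ) (hT : ∀ b ∈ H, b ^ p = 1 → ∃ h ∈ H, h * b * h⁻¹ ∈ T) :
    H ≤ T ⊔ (H ⊓ Subgroup.centralizer (X : Set Γ)) := by
  apply le_of_forall_offender S hS3
  intro b hb hBO hc
  obtain ⟨E, hEdef⟩ : ∃ E, E = ⁅Q, Subgroup.zpowers b⁆ ⊔ Subgroup.zpowers b := ⟨_, rfl⟩
  have hE : IsE p V H Q E := ⟨b, hb, hBO, hc, hEdef⟩
  have B : Blk p V H Q E := hE.blk S
  obtain ⟨F, hF⟩ : ∃ F, F = H ⊓ Subgroup.centralizer ((⁅V, E⁆ : Subgroup Γ) : Set Γ) := ⟨_, rfl⟩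
  have hFE : F ≤ Subgroup.centralizer (E : Set Γ) := by rw [hF]; exact B.F_le hS3
  have hqE : ¬ q ∣ Nat.card E := fun h => hq (h.trans (Subgroup.card_dvd_of_le B.hEH))
  have hd : ∀ x ∈ X, ∀ u ∈ E, x * u * x⁻¹ = u ∨ x * u * x⁻¹ ∈ F := by
    intro x hx u hu
    rcases B.eq_or_le_F hS3 (isE_conj (hXV hx) (hXH hx) (hXQ hx) hE) with h | h
    · left
      exact centralizes_of_normalizes B q (hXq x hx) (hXV hx) h hqE u hu
    · right
      rw [hF]
      exact h (conj_mem_map_conj hu)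
  have hbE : b ∈ E := by
    rw [hEdef]
    exact (le_sup_right : Subgroup.zpowers b ≤ _) (Subgroup.mem_zpowers b)
  have hbp : b ^ p = 1 := by
    rw [← hc, Nat.card_zpowers]
    exact pow_orderOf_eq_one b
  obtain ⟨h, hh, ht⟩ := hT b hb hbp
  have h1 : h ∈ ((E ⊔ F : Subgroup Γ) : Set Γ) := by
    rw [hF, B.sup_F hS3]; exact hh
  rw [Subgroup.coe_mul_of_right_le_normalizer_left E _
    (Helper5.le_normalizer_of_le_centralizer hFE)] at h1
  obtain ⟨e, he, f, hf, rfl⟩ := Set.mem_mul.mp h1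
  have hfb : b * f = f * b := Subgroup.mem_centralizer_iff.mp (hFE hf) b hbE
  have ht' : e * b * e⁻¹ ∈ T := by
    have : e * f * b * (e * f)⁻¹ = e * b * e⁻¹ := by
      calc e * f * b * (e * f)⁻¹ = e * (f * b) * f⁻¹ * e⁻¹ := by group
        _ = e * (b * f) * f⁻¹ * e⁻¹ := by rw [hfb]
        _ = _ := by group
    rwa [this] at ht
  obtain ⟨c, hcM, d, hd', hcd⟩ := exists_norm X E F H hXH B.hEH hFE hd e⁻¹ (E.inv_mem he)
  have htE : e * b * e⁻¹ ∈ E := E.mul_mem (E.mul_mem he hbE) (E.inv_mem he)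
  have hdt : (e * b * e⁻¹) * d = d * (e * b * e⁻¹) := Subgroup.mem_centralizer_iff.mp (hFE hd') _ htE
  have hb' : b = c * (e * b * e⁻¹) * c⁻¹ := by
    rw [hcd]
    calc b = e⁻¹ * ((e * b * e⁻¹) * d) * d⁻¹ * e := by group
      _ = e⁻¹ * (d * (e * b * e⁻¹)) * d⁻¹ * e := by rw [hdt]
      _ = _ := by group
  rw [hb']
  have hcM' : c ∈ T ⊔ (H ⊓ Subgroup.centralizer (X : Set Γ)) := (le_sup_right : _ ≤ T ⊔ _) hcM
  exact mul_mem (mul_mem hcM' ((le_sup_left : T ≤ T ⊔ _) ht')) (inv_mem hcM')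

end Cfsg.Agent.Lib.Helper4.CoprimeBlk
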