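import Mathlib
import Cfsg.Prelude.Def_PLocal
import Cfsg.Prelude.Def_CaseTheorems
import Cfsg.Agent.Lib.Helper4.Transport1

set_option autoImplicit false

namespace Cfsg.Agent.Lib.Helper4.Transport

open Cfsg Cfsg.Agent.Lib.Helper5

variable {G : Type*} [Group G] {p : ℕ} (V : Subgroup G) [V.Normal]

/-- the holomorph of `V` -/
abbrev Hol : Type _ := SemidirectProduct V (MulAut V) (MonoidHom.id _)

instance [Finite G] : Finite (Hol V) := Finite.of_equiv _ SemidirectProduct.equivProd.symm

/-- the map `G → Hol V` -/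
def toHol : G →* Hol V := (SemidirectProduct.inr).comp (MulAut.conjNormal)

/-- the copy of `V` -/
def VH : Subgroup (Hol V) := (SemidirectProduct.inl : V →* Hol V).range

instance : (VH V).Normal := by
  unfold VH
  rw [SemidirectProduct.range_inl_eq_ker_rightHom]
  infer_instance

theorem toHol_conj (g : G) (v : V) :
    toHol V g * SemidirectProduct.inl v * (toHol V g)⁻¹
      = SemidirectProduct.inl (MulAut.conjNormal g v) := by
  have := SemidirectProduct.inl_aut (φ := MonoidHom.id (MulAut V)) (MulAut.conjNormal g) v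
  rw [MonoidHom.id_apply] at this
  rw [this]
  simp [toHol]

theorem ker_toHol : (toHol V).ker = Subgroup.centralizer (V : Set G) := by
  ext g
  rw [MonoidHom.mem_ker, Subgroup.mem_centralizer_iff]
  constructor
  · intro h v hv
    have h1 := toHol_conj V g ⟨v, hv⟩
    rw [h] at h1
    simp only [one_mul, inv_one, mul_one] at h1
    have h2 := congrArg Subtype.val (SemidirectProduct.inl_injective h1)
    rw [MulAut.conjNormal_apply] at h2
    simp only at h2
    calc v * g = (g * v * g⁻¹) * g := by rw [← h2]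
      _ = g * v := by group
  · intro h
    have : (MulAut.conjNormal g : MulAut V) = 1 := by
      ext v
      rw [MulAut.conjNormal_apply]
      have := h v v.2
      simp only [MulAut.one_apply]
      rw [← this]; group
    simp [toHol, this]

theorem mem_centralizer_map_iff (B : Subgroup G) (v : V) :
    (SemidirectProduct.inl v : Hol V) ∈ Subgroup.centralizer ((B.map (toHol V) : Subgroup _) : Set (Hol V))
      ↔ (v : G) ∈ Subgroup.centralizer (B : Set G) := by
  rw [Subgroup.mem_centralizer_iff, Subgroup.mem_centralizer_iff]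
  constructor
  · intro h b hb
    have h1 := h (toHol V b) (Subgroup.mem_map_of_mem _ hb)
    have h2 := toHol_conj V b v
    rw [h1] at h2
    simp only [mul_inv_cancel_right] at h2
    have h3 := congrArg Subtype.val (SemidirectProduct.inl_injective h2)
    rw [MulAut.conjNormal_apply] at h3
    calc b * v = (b * v * b⁻¹) * b := by group
      _ = v * b := by rw [← h3]
  · rintro h _ ⟨b, hb, rfl⟩
    have h1 := h b hb
    have h2 := toHol_conj V b v
    have h3 : MulAut.conjNormal b v = v := by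
      ext
      rw [MulAut.conjNormal_apply, h1]; group
    rw [h3] at h2
    calc toHol V b * SemidirectProduct.inl v
        = (toHol V b * SemidirectProduct.inl v * (toHol V b)⁻¹) * toHol V b := by group
      _ = _ := by rw [h2]

theorem VH_inf_centralizer (B : Subgroup G) :
    VH V ⊓ Subgroup.centralizer ((B.map (toHol V) : Subgroup _) : Set (Hol V))
      = ((V ⊓ Subgroup.centralizer (B : Set G)).subgroupOf V).map SemidirectProduct.inl := by
  ext x
  constructor
  · rintro ⟨⟨v, rfl⟩, h2⟩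
    refine ⟨v, ?_, rfl⟩
    exact Subgroup.mem_subgroupOf.mpr ⟨v.2, (mem_centralizer_map_iff V B v).mp h2⟩
  · rintro ⟨v, hv, rfl⟩
    exact ⟨⟨v, rfl⟩, (mem_centralizer_map_iff V B v).mpr (Subgroup.mem_subgroupOf.mp hv).2⟩

theorem card_VH_inf_centralizer (B : Subgroup G) :
    Nat.card ↥(VH V ⊓ Subgroup.centralizer ((B.map (toHol V) : Subgroup _) : Set (Hol V)))
      = Nat.card ↥(V ⊓ Subgroup.centralizer (B : Set G)) := by
  rw [VH_inf_centralizer, Subgroup.card_map_of_injective SemidirectProduct.inl_injective,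
    ← Subgroup.card_map_of_injective V.subtype_injective,
    Subgroup.map_subgroupOf_eq_of_le inf_le_left]

theorem card_VH : Nat.card ↥(VH V) = Nat.card V :=
  (Nat.card_congr (MonoidHom.ofInjective (f := (SemidirectProduct.inl : V →* Hol V))
    SemidirectProduct.inl_injective).toEquiv).symm

theorem card_map_mul (B : Subgroup G) :
    Nat.card ↥(B ⊓ Subgroup.centralizer (V : Set G)) * Nat.card ↥(B.map (toHol V))
      = Nat.card B := by
  rw [← Subgroup.relIndex_ker, ker_toHol, ← Subgroup.inf_relIndex_right, inf_comm]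
  exact card_mul_relIndex inf_le_right

theorem VH_elem (hV : IsElementaryAbelian p V) : IsElementaryAbelian p (VH V) := by
  obtain ⟨h1, h2⟩ := hV
  refine ⟨⟨⟨?_⟩⟩, ?_⟩
  · rintro ⟨_, ⟨a, rfl⟩⟩ ⟨_, ⟨b, rfl⟩⟩
    apply Subtype.ext
    show (SemidirectProduct.inl a : Hol V) * SemidirectProduct.inl b
      = SemidirectProduct.inl b * SemidirectProduct.inl a
    rw [← map_mul, ← map_mul, h1.is_comm.comm a b]
  · rintro _ ⟨a, rfl⟩
    rw [← map_pow]
    have : a ^ p = 1 := Subtype.ext (h2 a a.2)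
    rw [this, map_one]

theorem faithful (H : Subgroup G) :
    H.map (toHol V) ⊓ Subgroup.centralizer (VH V : Set (Hol V)) = ⊥ := by
  rw [eq_bot_iff]
  rintro _ ⟨⟨g, hg, rfl⟩, h2⟩
  rw [Subgroup.mem_bot, ← MonoidHom.mem_ker, ker_toHol, Subgroup.mem_centralizer_iff]
  intro v hv
  have h3 := (Subgroup.mem_centralizer_iff.mp h2) (SemidirectProduct.inl ⟨v, hv⟩) ⟨_, rfl⟩
  have h4 := toHol_conj V g ⟨v, hv⟩
  rw [← h3] at h4
  simp only [mul_inv_cancel_right] at h4
  have h5 := congrArg Subtype.val (SemidirectProduct.inl_injective h4)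
  rw [MulAut.conjNormal_apply] at h5
  simp only at h5
  calc v * g = (g * v * g⁻¹) * g := by rw [← h5]
    _ = g * v := by group

theorem bestOffender_map [Finite G] {A : Subgroup G} (hA : IsBestOffenderOn p V A) :
    IsBestOffenderOn p (VH V) (A.map (toHol V)) := by
  obtain ⟨h1, h2, h3⟩ := hA
  refine ⟨?_, ?_, ?_⟩
  · intro B' hB'
    set B := A ⊓ B'.comap (toHol V) with hB
    have hBm : B.map (toHol V) = B' := by
      apply le_antisymm
      · rintro _ ⟨b, hb, rfl⟩
        exact hb.2
      · intro x hx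
        obtain ⟨a, ha, rfl⟩ := hB' hx
        exact ⟨a, ⟨ha, hx⟩, rfl⟩
    have hBC : B ⊓ Subgroup.centralizer (V : Set G) = A ⊓ Subgroup.centralizer (V : Set G) := by
      apply le_antisymm
      · exact inf_le_inf_right _ inf_le_left
      · intro x hx
        refine ⟨⟨hx.1, ?_⟩, hx.2⟩
        have : x ∈ (toHol V).ker := by rw [ker_toHol]; exact hx.2
        show toHol V x ∈ B'
        rw [MonoidHom.mem_ker.mp this]; exact one_mem _
    have e1 := card_map_mul V B
    have e2 := card_map_mul V A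
    have e3 := h1 B inf_le_left
    rw [← hBm, card_VH_inf_centralizer, card_VH_inf_centralizer]
    rw [hBC] at e1
    have hc : 0 < Nat.card ↥(A ⊓ Subgroup.centralizer (V : Set G)) := Nat.card_pos
    apply Nat.le_of_mul_le_mul_left _ hc
    rw [← mul_assoc, e1, ← mul_assoc, e2]
    exact e3
  · rw [← Subgroup.map_commutator]
    have : ⁅A, A⁆ ≤ (toHol V).ker := by rw [ker_toHol]; exact h2
    rw [(Subgroup.map_eq_bot_iff _).mpr this]
    exact bot_le
  · rintro _ ⟨a, ha, rfl⟩
    rw [← map_pow]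
    have : a ^ p ∈ (toHol V).ker := by rw [ker_toHol]; exact h3 a ha
    rw [MonoidHom.mem_ker.mp this]; exact one_mem _

theorem pCore_map_eq_bot [Finite G] [Fact p.Prime]
    (hO : pCore p (G ⧸ Subgroup.centralizer (V : Set G)) = ⊥)
    (J : Subgroup G) [hJ : J.Normal] : pCore p ↥(J.map (toHol V)) = ⊥ := by
  obtain ⟨f, hf⟩ : ∃ f, f = toHol V := ⟨_, rfl⟩
  rw [← hf]
  obtain ⟨H', hH'⟩ : ∃ H', H' = J.map f := ⟨_, rfl⟩
  rw [← hH']
  obtain ⟨Q, hQ⟩ : ∃ Q, Q = pCore p ↥H' := ⟨_, rfl⟩
  rw [← hQ]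
  obtain ⟨Q', hQ'⟩ : ∃ Q', Q' = Q.map H'.subtype := ⟨_, rfl⟩
  have hQ'H : Q' ≤ H' := by rw [hQ']; exact Subgroup.map_subtype_le _
  have hQn : Q.Normal := by rw [hQ]; infer_instance
  have hQp : IsPGroup p Q := by rw [hQ]; exact pCore_isPGroup
  have hQ'p : IsPGroup p Q' := by rw [hQ']; exact hQp.map _
  have hnormH : ∀ g : G, ∀ h ∈ H', f g * h * (f g)⁻¹ ∈ H' := by
    intro g h hh
    rw [hH'] at hh ⊢
    obtain ⟨j, hj, rfl⟩ := hh
    exact ⟨g * j * g⁻¹, hJ.conj_mem j hj g, by simp⟩
  have hconj : ∀ g : G, ∀ y ∈ Q', f g * y * (f g)⁻¹ ∈ Q' := by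
    intro g
    obtain ⟨Qg, hQg⟩ : ∃ Qg : Subgroup (Hol V), Qg = Q'.map (MulAut.conj (f g)).toMonoidHom :=
      ⟨_, rfl⟩
    have hmem : ∀ x, x ∈ Qg ↔ (f g)⁻¹ * x * f g ∈ Q' := by
      intro x
      rw [hQg]
      constructor
      · rintro ⟨y, hy, rfl⟩
        simpa [mul_assoc] using hy
      · intro h
        exact ⟨_, h, by simp [mul_assoc]⟩
    have hQgH : Qg ≤ H' := by
      intro x hx
      have h1 := hnormH g _ (hQ'H ((hmem x).mp hx))
      simpa [mul_assoc] using h1
    have hn : (Qg.subgroupOf H').Normal := by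
      constructor
      rintro ⟨x, hxH⟩ hx ⟨h, hh⟩
      have hx1 : (f g)⁻¹ * x * f g ∈ Q' := (hmem x).mp (Subgroup.mem_subgroupOf.mp hx)
      rw [hQ'] at hx1
      obtain ⟨y, hy, hyx⟩ := hx1
      have hh' : (f g)⁻¹ * h * f g ∈ H' := by
        have := hnormH g⁻¹ h hh
        simpa using this
      have h2 := hQn.conj_mem y hy ⟨_, hh'⟩
      apply Subgroup.mem_subgroupOf.mpr
      apply (hmem _).mpr
      rw [hQ']
      refine ⟨_, h2, ?_⟩
      simp only [Subgroup.coe_subtype, Subgroup.coe_mul, Subgroup.coe_inv] at hyx ⊢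
      rw [hyx]
      group
    have hp : IsPGroup p (Qg.subgroupOf H') := by
      have : IsPGroup p Qg := by rw [hQg]; exact hQ'p.map _
      exact this.comap_subtype
    have hle : Qg.subgroupOf H' ≤ Q := by rw [hQ]; exact le_pCore hn hp
    intro y hy
    have hy2 : f g * y * (f g)⁻¹ ∈ Qg := (hmem _).mpr (by simpa [mul_assoc] using hy)
    have h3 : (⟨_, hQgH hy2⟩ : H') ∈ Q := hle (Subgroup.mem_subgroupOf.mpr hy2)
    rw [hQ']
    exact ⟨_, h3, rfl⟩
  obtain ⟨D, hD⟩ : ∃ D, D = Q'.comap f := ⟨_, rfl⟩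
  have hDn : D.Normal := by
    constructor
    intro x hx g
    rw [hD] at hx ⊢
    show f (g * x * g⁻¹) ∈ Q'
    rw [map_mul, map_mul, map_inv]
    exact hconj g _ hx
  have hDm : D.map f = Q' := by
    rw [hD]
    apply Subgroup.map_comap_eq_self
    refine hQ'H.trans ?_
    rw [hH']
    exact Subgroup.map_le_range _ _
  have hDp : IsPGroup p (D.map (QuotientGroup.mk' (Subgroup.centralizer (V : Set G)))) := by
    obtain ⟨k, hk⟩ := IsPGroup.iff_card.mp hQ'p
    apply IsPGroup.of_card (n := k)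
    rw [← relIndex_eq_card_map, ← ker_toHol, ← hf, Subgroup.relIndex_ker, hDm, hk]
  have hle := le_pCore (hDn.map _ (QuotientGroup.mk'_surjective _)) hDp
  rw [hO, le_bot_iff, Subgroup.map_eq_bot_iff, QuotientGroup.ker_mk', ← ker_toHol, ← hf,
    ← Subgroup.map_eq_bot_iff, hDm, hQ',
    Subgroup.map_eq_bot_iff_of_injective _ H'.subtype_injective] at hle
  exact hle

end Cfsg.Agent.Lib.Helper4.Transport
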