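import Mathlib
import Cfsg.Prelude.Def_PLocal
import Cfsg.Agent.Lib.Helper4.Transport2
import Cfsg.Agent.S0602
import Cfsg.Agent.S0606

set_option autoImplicit false

namespace Cfsg.Agent.Lib.Helper4.Transport

open Cfsg Cfsg.Agent.Lib.Helper5

variable {G : Type*} [Group G] {p : ℕ} (V : Subgroup G) [V.Normal]

theorem hyps [Finite G] [Fact p.Prime] (hsep : IsPSolvable p G) (hV : IsElementaryAbelian p V)
    (hO : pCore p (G ⧸ Subgroup.centralizer (V : Set G)) = ⊥) :
    (thompsonSubgroup p G).map (toHol V) ≤ Subgroup.normalizer (VH V : Set (Hol V)) ∧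
    (thompsonSubgroup p G).map (toHol V) ⊓ Subgroup.centralizer (VH V : Set (Hol V)) = ⊥ ∧
    Subgroup.centralizer (pPrimeCore p ↥((thompsonSubgroup p G).map (toHol V)) :
      Set ↥((thompsonSubgroup p G).map (toHol V)))
        ≤ pPrimeCore p ↥((thompsonSubgroup p G).map (toHol V)) ∧
    (thompsonSubgroup p G).map (toHol V) =
      ⨆ A : {A : Subgroup (Hol V) // A ≤ (thompsonSubgroup p G).map (toHol V) ∧
        IsBestOffenderOn p (VH V) A}, (A : Subgroup (Hol V)) := by
  have hJc : (thompsonSubgroup p G).Characteristic := (Cfsg.Agent.S0602.result (G := G) (p := p)).1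
  have hJn : (thompsonSubgroup p G).Normal := inferInstance
  refine ⟨?_, faithful V _, ?_, ?_⟩
  · rw [Subgroup.normalizer_eq_top_iff.mpr (inferInstance : (VH V).Normal)]
    exact le_top
  · apply centralizer_pPrimeCore_le'
    · exact isPSolvable_of_surjective ((toHol V).subgroupMap _)
        ((toHol V).subgroupMap_surjective _) (isPSolvable_subgroup' Fact.out hsep _)
    · exact pCore_map_eq_bot V hO _
  · apply le_antisymm
    · rw [Subgroup.map_le_iff_le_comap]
      apply sSup_le
      intro A hA
      rw [← Subgroup.map_le_iff_le_comap]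
      exact le_iSup (fun A : {A : Subgroup (Hol V) // A ≤ (thompsonSubgroup p G).map (toHol V) ∧
        IsBestOffenderOn p (VH V) A} => (A : Subgroup (Hol V)))
        ⟨A.map (toHol V), Subgroup.map_mono (le_sSup hA),
          bestOffender_map V (Cfsg.Agent.S0606.result V hV A hA)⟩
    · exact iSup_le fun A => A.2.1

theorem exists_index {Γ : Type*} {ι : Sort*} [Group Γ] {F : ι → Subgroup Γ} {H : Subgroup Γ}
    (h : (⨆ i, F i) = H) (hH : H ≠ ⊥) : ∃ i, F i ≤ H := by
  by_contra hcon
  push Not at hcon
  apply hH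
  rw [← h, iSup_eq_bot]
  intro i
  exact absurd (h ▸ le_iSup F i) (hcon i)

end Cfsg.Agent.Lib.Helper4.Transport
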