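import Mathlib
import Cfsg.Agent.Lib.Helper4.CoprimeBlk1
import Cfsg.Agent.Lib.Helper4.Transport3
import Cfsg.Agent.Lib.Helper5.SylowMore

set_option autoImplicit false

namespace Cfsg.Agent.Lib.Helper4.CoprimeBlk

open Cfsg Cfsg.Agent.Lib.Helper4.BO Cfsg.Agent.Lib.Helper17 Cfsg.Agent.Lib.Helper4.Transport

theorem normalizer_le_normalizer_pPrimeCore {Γ : Type*} [Group Γ] [Finite Γ] (p : ℕ)
    (H : Subgroup Γ) :
    Subgroup.normalizer (H : Set Γ) ≤
      Subgroup.normalizer (((pPrimeCore p ↥H).map H.subtype : Subgroup Γ) : Set Γ) := by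
  apply le_normalizer_of_conj_mem
  intro n hn
  obtain ⟨Q, hQ⟩ : ∃ Q, Q = pPrimeCore p ↥H := ⟨_, rfl⟩
  rw [← hQ]
  obtain ⟨Q', hQ'⟩ : ∃ Q', Q' = Q.map H.subtype := ⟨_, rfl⟩
  rw [← hQ']
  have hQ'H : Q' ≤ H := by rw [hQ']; exact Subgroup.map_subtype_le _
  have hQn : Q.Normal := by rw [hQ]; infer_instance
  have hQc : (Nat.card Q).Coprime p := by rw [hQ]; exact Helper5.pPrimeCore_coprime
  have hnH : ∀ h ∈ H, n * h * n⁻¹ ∈ H := fun h hh => (Subgroup.mem_normalizer_iff.mp hn h).mp hh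
  have hnH' : ∀ h ∈ H, n⁻¹ * h * n ∈ H := by
    intro h hh
    have := (Subgroup.mem_normalizer_iff.mp (Subgroup.inv_mem _ hn) h).mp hh
    simpa using this
  obtain ⟨Qg, hQg⟩ : ∃ Qg : Subgroup Γ, Qg = Q'.map (MulAut.conj n).toMonoidHom := ⟨_, rfl⟩
  have hmem : ∀ x, x ∈ Qg ↔ n⁻¹ * x * n ∈ Q' := by
    intro x; rw [hQg]; exact mem_map_conj
  have hQgH : Qg ≤ H := by
    intro x hx
    have h1 := hnH _ (hQ'H ((hmem x).mp hx))
    simpa [mul_assoc] using h1
  have hnorm : (Qg.subgroupOf H).Normal := by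
    constructor
    rintro ⟨x, hxH⟩ hx ⟨h, hh⟩
    have hx1 : n⁻¹ * x * n ∈ Q' := (hmem x).mp (Subgroup.mem_subgroupOf.mp hx)
    rw [hQ'] at hx1
    obtain ⟨y, hy, hyx⟩ := hx1
    have h2 := hQn.conj_mem y hy ⟨_, hnH' h hh⟩
    apply Subgroup.mem_subgroupOf.mpr
    apply (hmem _).mpr
    rw [hQ']
    refine ⟨_, h2, ?_⟩
    simp only [Subgroup.coe_subtype, Subgroup.coe_mul, Subgroup.coe_inv] at hyx ⊢
    rw [hyx]
    group
  have hcard : (Nat.card (Qg.subgroupOf H)).Coprime p := by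
    have h1 : Nat.card (Qg.subgroupOf H) = Nat.card Q := by
      rw [← Subgroup.card_map_of_injective H.subtype_injective,
        Subgroup.map_subgroupOf_eq_of_le hQgH, hQg, card_map_conj, hQ',
        Subgroup.card_map_of_injective H.subtype_injective]
    rw [h1]; exact hQc
  have hle : Qg.subgroupOf H ≤ Q := by rw [hQ]; exact Helper5.le_pPrimeCore hnorm hcard
  intro y hy
  have hy2 : n * y * n⁻¹ ∈ Qg := (hmem _).mpr (by simpa [mul_assoc] using hy)
  have h3 : (⟨_, hQgH hy2⟩ : H) ∈ Q := hle (Subgroup.mem_subgroupOf.mpr hy2)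
  rw [hQ']
  exact ⟨_, h3, rfl⟩

variable {G : Type*} [Group G]

theorem lift_fixed [Finite G] (q : ℕ) [Fact q.Prime] (X : Subgroup (MulAut G)) (hX : IsPGroup q X)
    (C : Subgroup G) (hC : ¬ q ∣ Nat.card C) (hCX : ∀ α ∈ X, ∀ c ∈ C, α c ∈ C) (j : G)
    (hj : ∀ α ∈ X, j⁻¹ * α j ∈ C) : ∃ g, j⁻¹ * g ∈ C ∧ ∀ α ∈ X, α g = g := by
  let Sb : SubMulAction X G :=
    { carrier := {g | j⁻¹ * g ∈ C}
      smul_mem' := by
        intro α g hg
        show j⁻¹ * (α.1 g) ∈ C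
        have h1 : j⁻¹ * (α.1 g) = (j⁻¹ * α.1 j) * α.1 (j⁻¹ * g) := by
          rw [map_mul, map_inv]; group
        rw [h1]
        exact C.mul_mem (hj α.1 α.2) (hCX α.1 α.2 _ hg) }
  have hcard : Nat.card Sb = Nat.card C := by
    apply Nat.card_congr
    refine ⟨fun g => ⟨j⁻¹ * g.1, g.2⟩, fun c => ⟨j * c.1, ?_⟩, ?_, ?_⟩
    · show j⁻¹ * (j * c.1) ∈ C
      rw [inv_mul_cancel_left]; exact c.2
    · intro g; apply Subtype.ext; simp
    · intro c; apply Subtype.ext; simp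
  obtain ⟨g, hg⟩ := hX.nonempty_fixed_point_of_prime_not_dvd_card Sb (by rw [hcard]; exact hC)
  refine ⟨g.1, g.2, ?_⟩
  intro α hα
  have := hg ⟨α, hα⟩
  exact congrArg Subtype.val this

theorem equivariant (V : Subgroup G) [V.Normal] (α : MulAut G) (ξ : MulAut V)
    (h : ∀ v : V, ((ξ v : V) : G) = α v) (g : G) :
    (SemidirectProduct.inr ξ : Hol V) * toHol V g * (SemidirectProduct.inr ξ)⁻¹
      = toHol V (α g) := by
  have h1 : ξ * MulAut.conjNormal g * ξ⁻¹ = (MulAut.conjNormal (α g) : MulAut V) := by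
    ext v
    rw [MulAut.mul_apply, MulAut.mul_apply, h, MulAut.conjNormal_apply, MulAut.conjNormal_apply,
      map_mul, map_mul, map_inv, ← h, MulAut.apply_inv_self]
  show (SemidirectProduct.inr ξ : Hol V) * SemidirectProduct.inr (MulAut.conjNormal g)
    * (SemidirectProduct.inr ξ)⁻¹ = SemidirectProduct.inr (MulAut.conjNormal (α g))
  rw [← h1, map_mul, map_mul, map_inv]

theorem omegaZ_aut {p : ℕ} (α : MulAut G) :
    ∀ v ∈ (⨆ S : Sylow p G, omegaOne p ((S : Subgroup G) ⊓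
      Subgroup.centralizer ((S : Subgroup G) : Set G))),
    α v ∈ (⨆ S : Sylow p G, omegaOne p ((S : Subgroup G) ⊓
      Subgroup.centralizer ((S : Subgroup G) : Set G))) := by
  have hle : (⨆ S : Sylow p G, omegaOne p ((S : Subgroup G) ⊓
      Subgroup.centralizer ((S : Subgroup G) : Set G))) ≤
      (⨆ S : Sylow p G, omegaOne p ((S : Subgroup G) ⊓
      Subgroup.centralizer ((S : Subgroup G) : Set G))).comap α.toMonoidHom := by
    apply iSup_le
    intro S
    unfold omegaOne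
    rw [Subgroup.closure_le]
    rintro x ⟨⟨hx1, hx2⟩, hx3⟩
    rw [SetLike.mem_coe, Subgroup.mem_comap]
    show α x ∈ (⨆ S : Sylow p G, Subgroup.closure {x : G | x ∈ ((S : Subgroup G) ⊓
      Subgroup.centralizer ((S : Subgroup G) : Set G)) ∧ x ^ p = 1})
    apply Subgroup.mem_iSup_of_mem (α • S)
    apply Subgroup.subset_closure
    refine ⟨⟨?_, ?_⟩, ?_⟩
    · exact Subgroup.smul_mem_pointwise_smul x α _ hx1
    · show α x ∈ Subgroup.centralizer (((α • S : Sylow p G) : Subgroup G) : Set G)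
      rw [Subgroup.mem_centralizer_iff]
      rintro _ ⟨y, hy, rfl⟩
      have := Subgroup.mem_centralizer_iff.mp hx2 y hy
      show α y * α x = α x * α y
      rw [← map_mul, ← map_mul, this]
    · rw [← map_pow, hx3, map_one]
  intro v hv
  exact hle hv

end Cfsg.Agent.Lib.Helper4.CoprimeBlk
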