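import Mathlib
import Cfsg.Agent.Lib.Helper4.CoprimeBlk2
import Cfsg.Agent.S0600
import Cfsg.Agent.S0601
import Cfsg.Agent.S0602

set_option autoImplicit false

namespace Cfsg.Agent.Lib.Helper4.CoprimeBlk

open Cfsg Cfsg.Agent.Lib.Helper4.BO Cfsg.Agent.Lib.Helper17 Cfsg.Agent.Lib.Helper4.Transport

variable {G : Type*} [Group G]

theorem thmT [Finite G] {p : ℕ} [Fact p.Prime] (hsep : IsPSolvable p G) (hO : pPrimeCore p G = ⊥)
    (q : ℕ) [Fact q.Prime] (hq : ¬ q ∣ Nat.card G)
    (X : Subgroup (MulAut G)) (hXq : ∀ α ∈ X, α ^ q = 1) (S : Sylow p G) (Fx : Subgroup G)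
    (hFx : ∀ g, (∀ α ∈ X, α g = g) → g ∈ Fx) :
    Subgroup.normalizer (thompsonSubgroupOf p (S : Subgroup G) : Set G) ⊔
      Subgroup.centralizer (omegaOne p ((S : Subgroup G) ⊓
        Subgroup.centralizer ((S : Subgroup G) : Set G)) : Set G) ⊔ Fx = ⊤ := by
  classical
  obtain ⟨V, hVdef⟩ : ∃ V, V = ⨆ S : Sylow p G, omegaOne p ((S : Subgroup G) ⊓
    Subgroup.centralizer ((S : Subgroup G) : Set G)) := ⟨_, rfl⟩
  have hc := Helper5.centralizer_pCore_le hsep hO
  obtain ⟨hVn, hVe, -⟩ := Cfsg.Agent.S0601.result hc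
  rw [← hVdef] at hVn hVe
  have hgen : V = ⨆ S : Sylow p G, V ⊓ Subgroup.centralizer ((S : Subgroup G) : Set G) := by
    apply le_antisymm
    · conv_lhs => rw [hVdef]
      apply iSup_mono
      intro S
      apply le_inf
      · rw [hVdef]
        exact le_iSup (fun S : Sylow p G => omegaOne p ((S : Subgroup G) ⊓
          Subgroup.centralizer ((S : Subgroup G) : Set G))) S
      · unfold omegaOne
        rw [Subgroup.closure_le]
        intro x hx
        exact hx.1.2
    · exact iSup_le fun S => inf_le_left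
  have hOq := Cfsg.Agent.S0600.result V hVe hgen
  obtain ⟨h1, h2, h3, h4⟩ := hyps V hsep hVe hOq
  have St := setup_of (VH_elem V hVe) h1 h2 h3
  have hJc : (thompsonSubgroup p G).Characteristic := (Cfsg.Agent.S0602.result (G := G) (p := p)).1
  have hJn : (thompsonSubgroup p G).Normal := inferInstance
  have hJα : ∀ α : MulAut G, ∀ j ∈ thompsonSubgroup p G, α j ∈ thompsonSubgroup p G := by
    intro α j hj
    have h5 : j ∈ (thompsonSubgroup p G).comap α.toMonoidHom := by rw [hJc.fixed α]; exact hj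
    exact h5
  have hVX : ∀ α : MulAut G, ∀ v ∈ V, α v ∈ V := by
    intro α; rw [hVdef]; exact omegaZ_aut α
  let Xi : X →* Hol V := SemidirectProduct.inr.comp
    (MonoidHom.mk' (fun α : X => Cfsg.Agent.S0640.resAut α.1 V (hVX α.1))
      (by intro a b; ext v; rfl))
  have hXi : ∀ (α : X) (g : G), Xi α * toHol V g * (Xi α)⁻¹ = toHol V (α.1 g) :=
    fun α g => equivariant V α.1 _ (fun v => rfl) g
  have hXq' : ∀ x ∈ Xi.range, x ^ q = 1 := by
    rintro _ ⟨α, rfl⟩
    rw [← map_pow]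
    have : α ^ q = 1 := Subtype.ext (hXq α.1 α.2)
    rw [this, map_one]
  have hXV : Xi.range ≤ Subgroup.normalizer (VH V : Set (Hol V)) := by
    rw [Subgroup.normalizer_eq_top_iff.mpr (inferInstance : (VH V).Normal)]
    exact le_top
  have hXH : Xi.range ≤ Subgroup.normalizer
      (((thompsonSubgroup p G).map (toHol V) : Subgroup (Hol V)) : Set (Hol V)) := by
    apply le_normalizer_of_conj_mem
    rintro _ ⟨α, rfl⟩ _ ⟨j, hj, rfl⟩
    rw [hXi]
    exact Subgroup.mem_map_of_mem _ (hJα α.1 j hj)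
  have hXQ := hXH.trans (normalizer_le_normalizer_pPrimeCore p _)
  have hq' : ¬ q ∣ Nat.card ↥((thompsonSubgroup p G).map (toHol V)) := by
    intro h
    apply hq
    refine (h.trans ?_).trans (Subgroup.card_subgroup_dvd_card (thompsonSubgroup p G))
    exact Dvd.intro_left _ (card_map_mul V (thompsonSubgroup p G))
  obtain ⟨P, hP⟩ := Helper5.exists_sylow_subgroupOf_normal S (thompsonSubgroup p G)
  have hT : ∀ b ∈ (thompsonSubgroup p G).map (toHol V), b ^ p = 1 →
      ∃ h ∈ (thompsonSubgroup p G).map (toHol V),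
        h * b * h⁻¹ ∈ ((S : Subgroup G) ⊓ thompsonSubgroup p G).map (toHol V) := by
    intro b hb hbp
    have hφ := (toHol V).subgroupMap_surjective (thompsonSubgroup p G)
    have hb0 : (⟨b, hb⟩ : ↥((thompsonSubgroup p G).map (toHol V))) ^ p = 1 := Subtype.ext hbp
    obtain ⟨g, hg⟩ := pgroup_le_conj_sylow
      (Helper5.elemAb_isPGroup (Helper5.elemAb_zpowers hb0)) (P.mapSurjective hφ)
    have h5 := mem_map_conj.mp (hg (Subgroup.mem_zpowers _))
    rw [Sylow.coe_mapSurjective] at h5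
    obtain ⟨t, ht, hts⟩ := h5
    rw [SetLike.mem_coe, hP, Subgroup.mem_subgroupOf] at ht
    refine ⟨(g⁻¹ : ↥((thompsonSubgroup p G).map (toHol V))).1, (g⁻¹).2, ?_⟩
    refine ⟨t.1, ⟨ht, t.2⟩, ?_⟩
    have h6 := congrArg Subtype.val hts
    simpa using h6
  have hcore := core_gen St h4 q Xi.range hXq' hXV hXH hXQ hq' _ hT
  obtain ⟨L, hL⟩ : ∃ L, L = Subgroup.normalizer (thompsonSubgroupOf p (S : Subgroup G) : Set G) ⊔
      Subgroup.centralizer (omegaOne p ((S : Subgroup G) ⊓
        Subgroup.centralizer ((S : Subgroup G) : Set G)) : Set G) ⊔ Fx := ⟨_, rfl⟩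
  rw [← hL]
  obtain ⟨A₀, hA₀, hA₀S⟩ := Helper5.exists_maxElemAb_le_sylow S
  have hNL : Subgroup.normalizer (thompsonSubgroupOf p (S : Subgroup G) : Set G) ≤ L := by
    rw [hL]; exact le_sup_left.trans le_sup_left
  have hSL : (S : Subgroup G) ≤ L :=
    (Subgroup.le_normalizer.trans (Helper5.normalizer_le_normalizer_thompsonOf hA₀ hA₀S)).trans hNL
  have hCL : Subgroup.centralizer (V : Set G) ≤ L := by
    rw [hL]
    refine le_trans ?_ (le_sup_right.trans le_sup_left)
    apply Subgroup.centralizer_le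
    rw [hVdef]
    exact SetLike.coe_subset_coe.mpr (le_iSup (fun S : Sylow p G => omegaOne p ((S : Subgroup G) ⊓
      Subgroup.centralizer ((S : Subgroup G) : Set G))) S)
  have hFL : Fx ≤ L := by rw [hL]; exact le_sup_right
  have hker := ker_toHol V
  have hXp : IsPGroup q X := by
    intro α
    exact ⟨1, by rw [pow_one]; exact Subtype.ext (hXq α.1 α.2)⟩
  have hCq : ¬ q ∣ Nat.card ↥(Subgroup.centralizer (V : Set G)) :=
    fun h => hq (h.trans (Subgroup.card_subgroup_dvd_card _))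
  have hCX : ∀ α ∈ X, ∀ c ∈ Subgroup.centralizer (V : Set G),
      α c ∈ Subgroup.centralizer (V : Set G) := by
    intro α _ c hc
    rw [Subgroup.mem_centralizer_iff]
    intro v hv
    have hv' : α⁻¹ v ∈ V := hVX α⁻¹ v hv
    have h5 := Subgroup.mem_centralizer_iff.mp hc _ hv'
    have h6 : α (α⁻¹ v) = v := MulAut.apply_inv_self _ α v
    calc v * α c = α (α⁻¹ v) * α c := by rw [h6]
      _ = α (α⁻¹ v * c) := by rw [map_mul]
      _ = α (c * α⁻¹ v) := by rw [h5]
      _ = α c * v := by rw [map_mul, h6]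
  have hJL : thompsonSubgroup p G ≤ L := by
    have h5 : (thompsonSubgroup p G).map (toHol V) ≤ L.map (toHol V) := by
      refine hcore.trans (sup_le ?_ ?_)
      · exact Subgroup.map_mono (inf_le_left.trans hSL)
      · rintro _ ⟨⟨j, hj, rfl⟩, hx2⟩
        have hjα : ∀ α ∈ X, j⁻¹ * α j ∈ Subgroup.centralizer (V : Set G) := by
          intro α hα
          rw [← hker, MonoidHom.mem_ker, map_mul, map_inv, ← hXi ⟨α, hα⟩ j]
          have h6 := Subgroup.mem_centralizer_iff.mp hx2 (Xi ⟨α, hα⟩) ⟨_, rfl⟩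
          rw [h6]
          group
        obtain ⟨g, hg1, hg2⟩ := lift_fixed q X hXp _ hCq hCX j hjα
        refine ⟨g, hFL (hFx g hg2), ?_⟩
        rw [← hker, MonoidHom.mem_ker, map_mul, map_inv] at hg1
        exact (inv_mul_eq_one.mp hg1).symm
    rw [Subgroup.map_le_map_iff, hker, sup_eq_left.mpr hCL] at h5
    exact h5
  have hA₀T : A₀ ≤ (S : Subgroup G) ⊓ thompsonSubgroup p G :=
    le_inf hA₀S (Helper5.le_thompson hA₀)
  have hJeq : thompsonSubgroupOf p ((S : Subgroup G) ⊓ thompsonSubgroup p G) =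
      thompsonSubgroupOf p (S : Subgroup G) := by
    rw [Helper5.thompsonOf_eq hA₀ hA₀T, Helper5.thompsonOf_eq hA₀ hA₀S]
    congr 1
    ext A
    constructor
    · rintro ⟨hA, hAT⟩
      exact ⟨hA, hAT.trans inf_le_left⟩
    · rintro ⟨hA, hAS⟩
      exact ⟨hA, le_inf hAS (Helper5.le_thompson hA)⟩
  have hfr := Sylow.normalizer_sup_eq_top P
  rw [hP, Subgroup.subgroupOf_map_subtype] at hfr
  rw [eq_top_iff, ← hfr]
  apply sup_le _ hJL
  refine le_trans ?_ hNL
  rw [← hJeq]
  exact Helper5.normalizer_le_normalizer_thompsonOf hA₀ hA₀T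

end Cfsg.Agent.Lib.Helper4.CoprimeBlk
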