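import Mathlib

set_option autoImplicit false

namespace Cfsg.Agent.Lib.Helper4.CoprimeBlk

theorem norm_comm {M Xt : Type*} [CommGroup M] [Group Xt] [Fintype Xt] (κ : Xt →* MulAut M) :
    ∃ N : M →* M, (∀ (y : Xt) (v : M), κ y (N v) = N v) ∧
      (∀ γ : MulAut M, (∀ x v, γ (κ x v) = κ x (γ v)) → ∀ v, γ (N v) = N (γ v)) ∧
      (∀ (w : M) (P : Xt → Prop) (R : Subgroup M), (∀ x, P x → κ x w = w) →
        (∀ x, ¬ P x → κ x w ∈ R) → ∃ r ∈ R, N w = w ^ (Nat.card {x // P x}) * r) := by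
  classical
  refine ⟨∏ x : Xt, (κ x).toMonoidHom, ?_, ?_, ?_⟩
  · intro y v
    rw [MonoidHom.finsetProd_apply, map_prod]
    rw [← Equiv.prod_comp (Equiv.mulLeft y) (fun x => (κ x).toMonoidHom v)]
    apply Finset.prod_congr rfl
    intro x _
    show κ y (κ x v) = κ (y * x) v
    rw [map_mul, MulAut.mul_apply]
  · intro γ hγ v
    rw [MonoidHom.finsetProd_apply, MonoidHom.finsetProd_apply, map_prod]
    apply Finset.prod_congr rfl
    intro x _
    exact hγ x v
  · intro w P R h1 h2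
    refine ⟨∏ x ∈ Finset.univ.filter (fun x => ¬ P x), κ x w, ?_, ?_⟩
    · apply Subgroup.prod_mem
      intro x hx
      exact h2 x (Finset.mem_filter.mp hx).2
    · rw [MonoidHom.finsetProd_apply, ← Finset.prod_filter_mul_prod_filter_not Finset.univ P]
      congr 1
      have h3 : ∏ x ∈ Finset.univ.filter P, (MulEquiv.toMonoidHom (κ x)) w
          = ∏ x ∈ Finset.univ.filter P, w :=
        Finset.prod_congr rfl (fun x hx => h1 x (Finset.mem_filter.mp hx).2)
      rw [h3, Finset.prod_const, Nat.card_eq_fintype_card, Fintype.card_subtype]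

theorem norm_grp {M Xt : Type*} [Group M] (hM : ∀ a b : M, a * b = b * a) [Group Xt] [Finite Xt]
    (κ : Xt →* MulAut M) :
    ∃ N : M →* M, (∀ (y : Xt) (v : M), κ y (N v) = N v) ∧
      (∀ γ : MulAut M, (∀ x v, γ (κ x v) = κ x (γ v)) → ∀ v, γ (N v) = N (γ v)) ∧
      (∀ (w : M) (P : Xt → Prop) (R : Subgroup M), (∀ x, P x → κ x w = w) →
        (∀ x, ¬ P x → κ x w ∈ R) → ∃ r ∈ R, N w = w ^ (Nat.card {x // P x}) * r) := by
  haveI : Fintype Xt := Fintype.ofFinite Xt
  letI : CommGroup M := { (inferInstance : Group M) with mul_comm := hM }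
  exact norm_comm κ

end Cfsg.Agent.Lib.Helper4.CoprimeBlk
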