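import Mathlib
import Cfsg.Agent.Lib.Helper4.CoprimeBlk1
import Cfsg.Agent.Lib.Helper4.CoprimeBlk4

set_option autoImplicit false

namespace Cfsg.Agent.Lib.Helper4.CoprimeBlk

open Cfsg Cfsg.Agent.Lib.Helper4.BO Cfsg.Agent.Lib.Helper17

variable {Γ : Type*} [Group Γ]

theorem centralizes_W [Finite Γ] {p : ℕ} [Fact p.Prime] {V H Q E : Subgroup Γ}
    (B : Blk p V H Q E) (q : ℕ) [Fact q.Prime] {x : Γ} (hxq : x ^ q = 1)
    (hxV : x ∈ Subgroup.normalizer (V : Set Γ))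
    (hxE : E.map (MulAut.conj x).toMonoidHom = E) (hq : ¬ q ∣ Nat.card E) :
    ∀ w ∈ ⁅V, E⁆, x * w * x⁻¹ = w := by
  have hp : p.Prime := Fact.out
  have hqp' : q.Prime := Fact.out
  obtain ⟨W, hW⟩ : ∃ W, W = ⁅V, E⁆ := ⟨_, rfl⟩
  rw [← hW]
  have hWmap : W.map (MulAut.conj x).toMonoidHom = W := by
    rw [hW, Subgroup.map_commutator, hxE, map_conj_eq_of_mem_normalizer hxV]
  have hxW : ∀ w ∈ W, MulAut.conj x w ∈ W := by
    intro w hw
    have : MulAut.conj x w ∈ W.map (MulAut.conj x).toMonoidHom := ⟨w, hw, rfl⟩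
    rwa [hWmap] at this
  have haq : (MulAut.conj x) ^ q = 1 := by rw [← map_pow, hxq, map_one]
  have hmod := Cfsg.Agent.S0640.card_modEq (MulAut.conj x) W hxW q haq
  have hcW : Nat.card W = p ^ 2 := by rw [hW]; exact B.card_W
  have hWp : IsPGroup p W := IsPGroup.of_card hcW
  obtain ⟨i, hi⟩ := IsPGroup.iff_card.mp
    (hWp.to_le (inf_le_left : W ⊓ Cfsg.Agent.S0640.fixSub (MulAut.conj x) ≤ W))
  have hle : Nat.card ↥(W ⊓ Cfsg.Agent.S0640.fixSub (MulAut.conj x)) ≤ Nat.card W :=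
    Subgroup.card_le_of_le inf_le_left
  have hcE := B.card_E
  have hqp : q ≠ p := by
    intro h
    apply hq
    rw [hcE, h]
    exact Dvd.intro _ rfl
  have hfix : W ≤ Cfsg.Agent.S0640.fixSub (MulAut.conj x) := by
    by_cases hi2 : i < 2
    · exfalso
      rw [hcW, hi] at hmod hle
      have h1 := (Nat.modEq_iff_dvd' hle).mp hmod.symm
      have h2 := Cfsg.Agent.S0640.arith hp hqp' hqp hi2 (by omega) h1
      apply hq
      rw [hcE]
      exact Dvd.dvd.mul_left h2 _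
    · have h3 : W ⊓ Cfsg.Agent.S0640.fixSub (MulAut.conj x) = W := by
        apply Subgroup.eq_of_le_of_card_ge inf_le_left
        rw [hcW, hi]
        exact Nat.pow_le_pow_right hp.pos (by omega)
      rw [← h3]
      exact inf_le_right
  intro w hw
  exact hfix hw

theorem diag_W [Finite Γ] {p : ℕ} [Fact p.Prime] {V H Q E : Subgroup Γ}
    (S : Setup p V H Q)
    (hS3 : H = ⨆ A : {A : Subgroup Γ // A ≤ H ∧ IsBestOffenderOn p V A}, (A : Subgroup Γ))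
    (q : ℕ) [Fact q.Prime] (X : Subgroup Γ) (hXq : ∀ x ∈ X, x ^ q = 1)
    (hXV : X ≤ Subgroup.normalizer (V : Set Γ)) (hXH : X ≤ Subgroup.normalizer (H : Set Γ))
    (hXQ : X ≤ Subgroup.normalizer (Q : Set Γ)) (hq : ¬ q ∣ Nat.card H)
    (hE : IsE p V H Q E) :
    ∃ Ws : Subgroup Γ, Ws ≤ V ⊓ Subgroup.centralizer (X : Set Γ) ∧ Nat.card Ws = p ^ 2 ∧
      (H ⊓ Subgroup.centralizer (X : Set Γ) ≤ Subgroup.normalizer (Ws : Set Γ)) ∧
      ∀ c ∈ H ⊓ Subgroup.centralizer (X : Set Γ),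
        (c ∈ Subgroup.centralizer (Ws : Set Γ) ↔
          c ∈ Subgroup.centralizer ((⁅V, E⁆ : Subgroup Γ) : Set Γ)) := by
  classical
  have hp : p.Prime := Fact.out
  have hqp' : q.Prime := Fact.out
  have B : Blk p V H Q E := hE.blk S
  have hqE : ¬ q ∣ Nat.card E := fun h => hq (h.trans (Subgroup.card_dvd_of_le B.hEH))
  have hqp : q ≠ p := by
    intro h
    apply hqE
    rw [B.card_E, h]
    exact Dvd.intro _ rfl
  have hVc : ∀ a b : ↥V, a * b = b * a := fun a b => S.hV.1.is_comm.comm a b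
  have hinvN : ∀ n ∈ Subgroup.normalizer (V : Set Γ), ∀ v ∈ V, MulAut.conj n v ∈ V :=
    fun n hn v hv => (Subgroup.mem_normalizer_iff.mp hn v).mp hv
  let κ : X →* MulAut ↥V := MonoidHom.mk'
    (fun x => Cfsg.Agent.S0640.resAut (MulAut.conj x.1) V (hinvN x.1 (hXV x.2))) (by
      intro a b
      apply MulEquiv.ext
      intro k
      apply Subtype.ext
      show (a.1 * b.1) * k.1 * (a.1 * b.1)⁻¹ = a.1 * (b.1 * k.1 * b.1⁻¹) * a.1⁻¹
      group)
  have hκ : ∀ (x : X) (v : ↥V), ((κ x v : ↥V) : Γ) = x.1 * v.1 * x.1⁻¹ := fun x v => rfl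
  obtain ⟨N, hN1, hN3, hN2⟩ := norm_grp hVc κ
  obtain ⟨W, hW⟩ : ∃ W, W = ⁅V, E⁆ := ⟨_, rfl⟩
  have hWV : W ≤ V := by rw [hW]; exact B.hWV
  obtain ⟨Wt, hWt⟩ : ∃ Wt, Wt = W.subgroupOf V := ⟨_, rfl⟩
  have hmemWt : ∀ w : ↥V, w ∈ Wt ↔ w.1 ∈ W := by
    intro w; rw [hWt]; exact Subgroup.mem_subgroupOf
  obtain ⟨R, hR⟩ : ∃ R, R = (V ⊓ Subgroup.centralizer (E : Set Γ)).subgroupOf V := ⟨_, rfl⟩
  obtain ⟨m, hm⟩ : ∃ m, m = Nat.card {x : X // E.map (MulAut.conj x.1).toMonoidHom = E} :=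
    ⟨_, rfl⟩
  have hmp : Nat.Coprime m p := by
    have h1 : m = Nat.card ↥((Subgroup.normalizer (E : Set Γ)).subgroupOf X) := by
      rw [hm]
      apply Nat.card_congr
      apply Equiv.subtypeEquivRight
      intro x
      rw [Subgroup.mem_subgroupOf, mem_normalizer_iff_map_conj]
    have hXp : IsPGroup q X := by
      intro x
      exact ⟨1, by rw [pow_one]; exact Subtype.ext (hXq x.1 x.2)⟩
    obtain ⟨k, hk⟩ := IsPGroup.iff_card.mp hXp
    have h2 : m ∣ q ^ k := by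
      rw [h1, ← hk]
      exact Subgroup.card_subgroup_dvd_card _
    exact Nat.Coprime.coprime_dvd_left h2
      (Nat.Coprime.pow_left k ((Nat.coprime_primes hqp' hp).mpr hqp))
  have hsplit : ∀ w ∈ Wt, ∃ r ∈ R, N w = w ^ m * r := by
    intro w hw
    rw [hm]
    apply hN2 w (fun x : X => E.map (MulAut.conj x.1).toMonoidHom = E) R
    · intro x hx
      apply Subtype.ext
      rw [hκ]
      exact centralizes_W B q (hXq x.1 x.2) (hXV x.2) hx hqE w.1 (hW ▸ (hmemWt w).mp hw)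
    · intro x hx
      rw [hR, Subgroup.mem_subgroupOf, hκ]
      rcases B.eq_or_le_F hS3 (isE_conj (hXV x.2) (hXH x.2) (hXQ x.2) hE) with h | h
      · exact absurd h hx
      · apply B.comm_V_F hS3
        apply Subgroup.commutator_mono le_rfl h
        have h5 : x.1 * w.1 * x.1⁻¹ ∈ W.map (MulAut.conj x.1).toMonoidHom :=
          conj_mem_map_conj ((hmemWt w).mp hw)
        rw [hW, Subgroup.map_commutator, map_conj_eq_of_mem_normalizer (hXV x.2)] at h5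
        exact h5
  have hinj : ∀ w ∈ Wt, N w = 1 → w = 1 := by
    intro w hw hNw
    obtain ⟨r, hr, h1⟩ := hsplit w hw
    rw [hNw] at h1
    have h2 : w ^ m = r⁻¹ := eq_inv_of_mul_eq_one_left h1.symm
    have h3 : (w ^ m).1 ∈ ⁅V, E⁆ ⊓ (V ⊓ Subgroup.centralizer (E : Set Γ)) := by
      refine ⟨?_, ?_⟩
      · rw [← hW]
        exact (hmemWt _).mp (Wt.pow_mem hw m)
      · rw [h2]
        rw [hR] at hr
        exact Subgroup.mem_subgroupOf.mp (Subgroup.inv_mem _ hr)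
    rw [B.inf_eq_bot, Subgroup.mem_bot] at h3
    have h4 : w ^ m = 1 := Subtype.ext h3
    have h5 : w ^ p = 1 := Subtype.ext (S.hV.2 w.1 w.2)
    have h6 : orderOf w ∣ Nat.gcd m p :=
      Nat.dvd_gcd (orderOf_dvd_of_pow_eq_one h4) (orderOf_dvd_of_pow_eq_one h5)
    rw [hmp] at h6
    exact orderOf_eq_one_iff.mp (Nat.dvd_one.mp h6)
  have hHW : H ≤ Subgroup.normalizer (W : Set Γ) := by
    rw [hW]
    exact le_normalizer_commutator S.hHV (B.H_le_normalizer hS3)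
  -- the action of `c`
  have hγ : ∀ c (hc : c ∈ H ⊓ Subgroup.centralizer (X : Set Γ)), ∀ w : ↥V,
      c * (N w).1 * c⁻¹ = (N ⟨c * w.1 * c⁻¹, hinvN c (S.hHV hc.1) w.1 w.2⟩).1 := by
    intro c hc w
    have h1 := hN3 (Cfsg.Agent.S0640.resAut (MulAut.conj c) V (hinvN c (S.hHV hc.1))) (by
      intro x v
      apply Subtype.ext
      show c * (x.1 * v.1 * x.1⁻¹) * c⁻¹ = x.1 * (c * v.1 * c⁻¹) * x.1⁻¹
      have hcx : x.1 * c = c * x.1 := Subgroup.mem_centralizer_iff.mp hc.2 x.1 x.2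
      calc c * (x.1 * v.1 * x.1⁻¹) * c⁻¹ = (c * x.1) * v.1 * (c * x.1)⁻¹ := by group
        _ = (x.1 * c) * v.1 * (x.1 * c)⁻¹ := by rw [hcx]
        _ = _ := by group) w
    exact congrArg Subtype.val h1
  have hmemWs : ∀ g, g ∈ (Wt.map N).map V.subtype ↔ ∃ w ∈ Wt, (N w).1 = g := by
    intro g
    constructor
    · rintro ⟨_, ⟨w, hw, rfl⟩, rfl⟩
      exact ⟨w, hw, rfl⟩
    · rintro ⟨w, hw, rfl⟩
      exact ⟨N w, ⟨w, hw, rfl⟩, rfl⟩
  have hcW : ∀ c (hc : c ∈ H ⊓ Subgroup.centralizer (X : Set Γ)), ∀ w : ↥V, w ∈ Wt →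
      (⟨c * w.1 * c⁻¹, hinvN c (S.hHV hc.1) w.1 w.2⟩ : ↥V) ∈ Wt := by
    intro c hc w hw
    rw [hmemWt]
    exact (Subgroup.mem_normalizer_iff.mp (hHW hc.1) w.1).mp ((hmemWt w).mp hw)
  refine ⟨(Wt.map N).map V.subtype, ?_, ?_, ?_, ?_⟩
  · intro g hg
    obtain ⟨w, hw, rfl⟩ := (hmemWs g).mp hg
    refine ⟨(N w).2, ?_⟩
    show (N w).1 ∈ Subgroup.centralizer (X : Set Γ)
    rw [Subgroup.mem_centralizer_iff]
    intro x hx
    have h1 : x * (N w).1 * x⁻¹ = (N w).1 := congrArg Subtype.val (hN1 ⟨x, hx⟩ w)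
    calc x * (N w).1 = (x * (N w).1 * x⁻¹) * x := by group
      _ = _ := by rw [h1]
  · rw [Subgroup.card_map_of_injective V.subtype_injective]
    have hi : Function.Injective (N.comp Wt.subtype) :=
      (injective_iff_map_eq_one _).mpr (fun w hw => Subtype.ext (hinj w.1 w.2 hw))
    have hr : (N.comp Wt.subtype).range = Wt.map N := by
      rw [MonoidHom.range_comp, Subgroup.range_subtype]
    rw [← hr, ← Nat.card_congr (MonoidHom.ofInjective hi).toEquiv, hWt,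
      Nat.card_congr (Subgroup.subgroupOfEquivOfLe hWV).toEquiv, hW]
    exact B.card_W
  · apply le_normalizer_of_conj_mem
    intro c hc g hg
    obtain ⟨w, hw, rfl⟩ := (hmemWs g).mp hg
    rw [hγ c hc w]
    exact (hmemWs _).mpr ⟨_, hcW c hc w hw, rfl⟩
  · intro c hc
    rw [← hW, Subgroup.mem_centralizer_iff, Subgroup.mem_centralizer_iff]
    constructor
    · intro h w hw
      have hwt : (⟨w, hWV hw⟩ : ↥V) ∈ Wt := (hmemWt _).mpr hw
      have h1 := h (N ⟨w, hWV hw⟩).1 ((hmemWs _).mpr ⟨_, hwt, rfl⟩)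
      have h2 := hγ c hc ⟨w, hWV hw⟩
      have h3 : c * (N ⟨w, hWV hw⟩).1 * c⁻¹ = (N ⟨w, hWV hw⟩).1 := by
        rw [← h1]; group
      rw [h3] at h2
      have h4 : N ⟨w, hWV hw⟩ = N ⟨c * w * c⁻¹, hinvN c (S.hHV hc.1) w (hWV hw)⟩ :=
        Subtype.ext h2
      have h5 : (⟨c * w * c⁻¹, hinvN c (S.hHV hc.1) w (hWV hw)⟩ : ↥V) * (⟨w, hWV hw⟩ : ↥V)⁻¹ = 1 := by
        apply hinj
        · exact Wt.mul_mem (hcW c hc _ hwt) (Wt.inv_mem hwt)
        · rw [map_mul, map_inv, ← h4, mul_inv_cancel]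
      have h6 : c * w * c⁻¹ * w⁻¹ = 1 := congrArg Subtype.val h5
      have h7 : c * w * c⁻¹ = w := mul_inv_eq_one.mp h6
      calc w * c = (c * w * c⁻¹) * c := by rw [h7]
        _ = _ := by group
    · intro h g hg
      obtain ⟨w, hw, rfl⟩ := (hmemWs g).mp hg
      have h1 := h w.1 ((hmemWt w).mp hw)
      have h2 := hγ c hc w
      have h3 : (⟨c * w.1 * c⁻¹, hinvN c (S.hHV hc.1) w.1 w.2⟩ : ↥V) = w := by
        apply Subtype.ext
        show c * w.1 * c⁻¹ = w.1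
        rw [← h1]; group
      rw [h3] at h2
      calc (N w).1 * c = (c * (N w).1 * c⁻¹) * c := by rw [h2]
        _ = _ := by group

end Cfsg.Agent.Lib.Helper4.CoprimeBlk
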