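import Mathlib
import Cfsg.Agent.Lib.Helper4.CoprimeBlk5

set_option autoImplicit false

namespace Cfsg.Agent.Lib.Helper4.CoprimeBlk

open Cfsg Cfsg.Agent.Lib.Helper4.BO Cfsg.Agent.Lib.Helper17

variable {Γ : Type*} [Group Γ]

theorem proj_uniq (E F : Subgroup Γ) (hEF : E ⊓ F = ⊥) :
    ∀ u ∈ E, ∀ u' ∈ E, ∀ d ∈ F, ∀ d' ∈ F, u * d = u' * d' → u = u' := by
  intro u hu u' hu' d hd d' hd' h
  have h1 : u'⁻¹ * u = d' * d⁻¹ := by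
    calc u'⁻¹ * u = u'⁻¹ * (u * d) * d⁻¹ := by group
      _ = u'⁻¹ * (u' * d') * d⁻¹ := by rw [h]
      _ = _ := by group
  have h2 : u'⁻¹ * u ∈ E ⊓ F :=
    ⟨E.mul_mem (E.inv_mem hu') hu, by rw [h1]; exact F.mul_mem hd' (F.inv_mem hd)⟩
  rw [hEF, Subgroup.mem_bot] at h2
  exact (inv_mul_eq_one.mp h2).symm

theorem exists_proj (E F M : Subgroup Γ) (hEF : E ⊓ F = ⊥)
    (hFE : F ≤ Subgroup.centralizer (E : Set Γ))
    (hM : ∀ c ∈ M, ∃ u ∈ E, ∃ d ∈ F, c = u * d) :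
    ∃ Ψ : ↥M →* ↥E, ∀ c : ↥M, ∃ d ∈ F, c.1 = (Ψ c).1 * d := by
  classical
  have huniq := proj_uniq E F hEF
  choose f hf1 g hg1 hfg using hM
  refine ⟨MonoidHom.mk' (fun c => ⟨f c.1 c.2, hf1 c.1 c.2⟩) ?_,
    fun c => ⟨g c.1 c.2, hg1 c.1 c.2, hfg c.1 c.2⟩⟩
  intro a b
  apply Subtype.ext
  show f (a.1 * b.1) (a * b).2 = f a.1 a.2 * f b.1 b.2
  apply huniq _ (hf1 _ _) _ (E.mul_mem (hf1 _ _) (hf1 _ _)) (g (a.1 * b.1) (a * b).2) (hg1 _ _)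
    (g a.1 a.2 * g b.1 b.2) (F.mul_mem (hg1 _ _) (hg1 _ _))
  rw [← hfg]
  have hc : f b.1 b.2 * g a.1 a.2 = g a.1 a.2 * f b.1 b.2 :=
    Subgroup.mem_centralizer_iff.mp (hFE (hg1 _ _)) _ (hf1 _ _)
  calc a.1 * b.1 = (f a.1 a.2 * g a.1 a.2) * (f b.1 b.2 * g b.1 b.2) := by
        rw [← hfg a.1 a.2, ← hfg b.1 b.2]
    _ = f a.1 a.2 * (g a.1 a.2 * f b.1 b.2) * g b.1 b.2 := by group
    _ = f a.1 a.2 * (f b.1 b.2 * g a.1 a.2) * g b.1 b.2 := by rw [hc]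
    _ = _ := by group

theorem diag_SL2 [Finite Γ] {p : ℕ} [Fact p.Prime] {V H Q : Subgroup Γ}
    (S : Setup p V H Q)
    (hS3 : H = ⨆ A : {A : Subgroup Γ // A ≤ H ∧ IsBestOffenderOn p V A}, (A : Subgroup Γ))
    (q : ℕ) [Fact q.Prime] (X : Subgroup Γ) (hXq : ∀ x ∈ X, x ^ q = 1)
    (hXV : X ≤ Subgroup.normalizer (V : Set Γ)) (hXH : X ≤ Subgroup.normalizer (H : Set Γ))
    (hXQ : X ≤ Subgroup.normalizer (Q : Set Γ)) (hq : ¬ q ∣ Nat.card H) (hH : H ≠ ⊥) :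
    (p = 2 ∨ p = 3) ∧
    ∃ Ws : Subgroup Γ, Ws ≤ V ⊓ Subgroup.centralizer (X : Set Γ) ∧ Nat.card Ws = p ^ 2 ∧
      (H ⊓ Subgroup.centralizer (X : Set Γ) ≤ Subgroup.normalizer (Ws : Set Γ)) ∧
      ∃ Ψ : ↥(H ⊓ Subgroup.centralizer (X : Set Γ)) →* Matrix.SpecialLinearGroup (Fin 2) (ZMod p),
        Function.Surjective Ψ ∧ ∀ c, Ψ c = 1 ↔ c.1 ∈ Subgroup.centralizer (Ws : Set Γ) := by
  classical
  obtain ⟨b, hb, hBO, hc⟩ : ∃ b ∈ H, IsBestOffenderOn p V (Subgroup.zpowers b) ∧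
      Nat.card (Subgroup.zpowers b) = p := by
    by_contra hcon
    apply hH
    rw [eq_bot_iff]
    apply le_of_forall_offender S hS3
    intro b hb hBO hc
    exact absurd ⟨b, hb, hBO, hc⟩ hcon
  obtain ⟨E, hEdef⟩ : ∃ E, E = ⁅Q, Subgroup.zpowers b⁆ ⊔ Subgroup.zpowers b := ⟨_, rfl⟩
  have hE : IsE p V H Q E := ⟨b, hb, hBO, hc, hEdef⟩
  have B : Blk p V H Q E := hE.blk S
  obtain ⟨F, hF⟩ : ∃ F, F = H ⊓ Subgroup.centralizer ((⁅V, E⁆ : Subgroup Γ) : Set Γ) := ⟨_, rfl⟩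
  have hFE : F ≤ Subgroup.centralizer (E : Set Γ) := by rw [hF]; exact B.F_le hS3
  have hEF : E ⊓ F = ⊥ := by rw [hF]; exact B.inf_F
  have hqE : ¬ q ∣ Nat.card E := fun h => hq (h.trans (Subgroup.card_dvd_of_le B.hEH))
  have hd : ∀ x ∈ X, ∀ u ∈ E, x * u * x⁻¹ = u ∨ x * u * x⁻¹ ∈ F := by
    intro x hx u hu
    rcases B.eq_or_le_F hS3 (isE_conj (hXV hx) (hXH hx) (hXQ hx) hE) with h | h
    · left
      exact centralizes_of_normalizes B q (hXq x hx) (hXV hx) h hqE u hu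
    · right
      rw [hF]
      exact h (conj_mem_map_conj hu)
  obtain ⟨Ws, hWs1, hWs2, hWs3, hWs4⟩ := diag_W S hS3 q X hXq hXV hXH hXQ hq hE
  refine ⟨B.hp, Ws, hWs1, hWs2, hWs3, ?_⟩
  have hM : ∀ c ∈ H ⊓ Subgroup.centralizer (X : Set Γ), ∃ u ∈ E, ∃ d ∈ F, c = u * d := by
    intro c hc
    have h1 : c ∈ ((E ⊔ F : Subgroup Γ) : Set Γ) := by
      rw [hF, B.sup_F hS3]; exact hc.1
    rw [Subgroup.coe_mul_of_right_le_normalizer_left E _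
      (Helper5.le_normalizer_of_le_centralizer hFE)] at h1
    obtain ⟨e, he, f, hf, rfl⟩ := Set.mem_mul.mp h1
    exact ⟨e, he, f, hf, rfl⟩
  obtain ⟨Ψ, hΨ⟩ := exists_proj E F _ hEF hFE hM
  obtain ⟨w1, w2, -, e, -⟩ := B.coord
  refine ⟨e.toMonoidHom.comp Ψ, ?_, ?_⟩
  · intro s
    obtain ⟨c, hcM, d, hd', hcd⟩ := exists_norm X E F H hXH B.hEH hFE hd (e.symm s).1 (e.symm s).2
    refine ⟨⟨c, hcM⟩, ?_⟩
    obtain ⟨d2, hd2, h2⟩ := hΨ ⟨c, hcM⟩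
    have h3 : (Ψ ⟨c, hcM⟩).1 = (e.symm s).1 := by
      apply proj_uniq E F hEF _ (Ψ ⟨c, hcM⟩).2 _ (e.symm s).2 d2 hd2 d hd'
      rw [← h2, ← hcd]
    have h4 : Ψ ⟨c, hcM⟩ = e.symm s := Subtype.ext h3
    show e (Ψ ⟨c, hcM⟩) = s
    rw [h4, MulEquiv.apply_symm_apply]
  · intro c
    rw [hWs4 c.1 c.2]
    show e (Ψ c) = 1 ↔ _
    rw [MulEquiv.map_eq_one_iff]
    obtain ⟨d2, hd2, h2⟩ := hΨ c
    constructor
    · intro h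
      rw [h] at h2
      have h3 : c.1 = d2 := by rw [h2]; exact one_mul _
      rw [h3]
      rw [hF] at hd2
      exact hd2.2
    · intro h
      have hcF : c.1 ∈ F := by rw [hF]; exact ⟨c.2.1, h⟩
      have h3 : (Ψ c).1 = 1 := by
        apply proj_uniq E F hEF _ (Ψ c).2 _ E.one_mem d2 hd2 c.1 hcF
        rw [← h2, one_mul]
      exact Subtype.ext h3

end Cfsg.Agent.Lib.Helper4.CoprimeBlk
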