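import Mathlib
import Cfsg.Agent.Lib.Helper4.CoprimeBlk3
import Cfsg.Agent.Lib.Helper4.CoprimeBlk6
import Cfsg.Agent.S0608

set_option autoImplicit false

namespace Cfsg.Agent.Lib.Helper4.CoprimeBlk

open Cfsg Cfsg.Agent.Lib.Helper4.BO Cfsg.Agent.Lib.Helper17 Cfsg.Agent.Lib.Helper4.Transport

variable {G : Type*} [Group G]

theorem quot_of_hom {D S : Type*} [Group D] [Group S] (N : Subgroup D) (Φ : D →* S)
    (hs : Function.Surjective Φ) (hk : ∀ d, Φ d = 1 ↔ d ∈ N) :
    ∃ _ : N.Normal, Nonempty (D ⧸ N ≃* S) := by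
  have h : Φ.ker = N := by
    ext d
    rw [MonoidHom.mem_ker, hk]
  subst h
  exact ⟨inferInstance, ⟨QuotientGroup.quotientKerEquivOfSurjective Φ hs⟩⟩

theorem thmT2 [Finite G] {p : ℕ} [Fact p.Prime] (hsep : IsPSolvable p G) (hO : pPrimeCore p G = ⊥)
    (hnf : ¬ IsThompsonFactorizable p G)
    (q : ℕ) [Fact q.Prime] (hq : ¬ q ∣ Nat.card G)
    (X : Subgroup (MulAut G)) (hXq : ∀ α ∈ X, α ^ q = 1) :
    (p = 2 ∨ p = 3) ∧ ∃ W D : Subgroup G, (∀ w ∈ W, ∀ α ∈ X, α w = w) ∧
      (∀ d ∈ D, ∀ α ∈ X, α d = d) ∧ IsElementaryAbelian p W ∧ Nat.card W = p ^ 2 ∧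
      D ≤ Subgroup.normalizer (W : Set G) ∧
      ∃ Ψ : ↥D →* Matrix.SpecialLinearGroup (Fin 2) (ZMod p), Function.Surjective Ψ ∧
        ∀ d, Ψ d = 1 ↔ d.1 ∈ Subgroup.centralizer (W : Set G) := by
  classical
  obtain ⟨V, hVdef⟩ : ∃ V, V = ⨆ S : Sylow p G, omegaOne p ((S : Subgroup G) ⊓
    Subgroup.centralizer ((S : Subgroup G) : Set G)) := ⟨_, rfl⟩
  have hc := Helper5.centralizer_pCore_le hsep hO
  obtain ⟨hVn, hVe, -⟩ := Cfsg.Agent.S0601.result hc
  have hJ := fun h => hnf ((Cfsg.Agent.S0608.result hO).mpr h)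
  rw [← hVdef] at hVn hVe hJ
  have hgen : V = ⨆ S : Sylow p G, V ⊓ Subgroup.centralizer ((S : Subgroup G) : Set G) := by
    apply le_antisymm
    · conv_lhs => rw [hVdef]
      apply iSup_mono
      intro S
      apply le_inf
      · rw [hVdef]
        exact le_iSup (fun S : Sylow p G => omegaOne p ((S : Subgroup G) ⊓
          Subgroup.centralizer ((S : Subgroup G) : Set G))) S
      · unfold omegaOne
        rw [Subgroup.closure_le]
        intro x hx
        exact hx.1.2
    · exact iSup_le fun S => inf_le_left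
  have hOq := Cfsg.Agent.S0600.result V hVe hgen
  obtain ⟨h1, h2, h3, h4⟩ := hyps V hsep hVe hOq
  have St := setup_of (VH_elem V hVe) h1 h2 h3
  have hker := ker_toHol V
  have hH1 : (thompsonSubgroup p G).map (toHol V) ≠ ⊥ := by
    intro h
    apply hJ
    rw [← hker]
    exact (Subgroup.map_eq_bot_iff _).mp h
  have hJc : (thompsonSubgroup p G).Characteristic := (Cfsg.Agent.S0602.result (G := G) (p := p)).1
  have hJn : (thompsonSubgroup p G).Normal := inferInstance
  have hJα : ∀ α : MulAut G, ∀ j ∈ thompsonSubgroup p G, α j ∈ thompsonSubgroup p G := by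
    intro α j hj
    have h5 : j ∈ (thompsonSubgroup p G).comap α.toMonoidHom := by rw [hJc.fixed α]; exact hj
    exact h5
  have hVX : ∀ α : MulAut G, ∀ v ∈ V, α v ∈ V := by
    intro α; rw [hVdef]; exact omegaZ_aut α
  let Xi : X →* Hol V := SemidirectProduct.inr.comp
    (MonoidHom.mk' (fun α : X => Cfsg.Agent.S0640.resAut α.1 V (hVX α.1))
      (by intro a b; ext v; rfl))
  have hXi : ∀ (α : X) (g : G), Xi α * toHol V g * (Xi α)⁻¹ = toHol V (α.1 g) :=
    fun α g => equivariant V α.1 _ (fun v => rfl) g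
  have hXiV : ∀ (α : X) (v : V), Xi α * SemidirectProduct.inl v * (Xi α)⁻¹
      = SemidirectProduct.inl (Cfsg.Agent.S0640.resAut α.1 V (hVX α.1) v) := by
    intro α v
    have := SemidirectProduct.inl_aut (φ := MonoidHom.id (MulAut V))
      (Cfsg.Agent.S0640.resAut α.1 V (hVX α.1)) v
    rw [MonoidHom.id_apply] at this
    rw [this, map_inv]
    rfl
  have hXq' : ∀ x ∈ Xi.range, x ^ q = 1 := by
    rintro _ ⟨α, rfl⟩
    rw [← map_pow]
    have : α ^ q = 1 := Subtype.ext (hXq α.1 α.2)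
    rw [this, map_one]
  have hXV : Xi.range ≤ Subgroup.normalizer (VH V : Set (Hol V)) := by
    rw [Subgroup.normalizer_eq_top_iff.mpr (inferInstance : (VH V).Normal)]
    exact le_top
  have hXH : Xi.range ≤ Subgroup.normalizer
      (((thompsonSubgroup p G).map (toHol V) : Subgroup (Hol V)) : Set (Hol V)) := by
    apply le_normalizer_of_conj_mem
    rintro _ ⟨α, rfl⟩ _ ⟨j, hj, rfl⟩
    rw [hXi]
    exact Subgroup.mem_map_of_mem _ (hJα α.1 j hj)
  have hXQ := hXH.trans (normalizer_le_normalizer_pPrimeCore p _)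
  have hq' : ¬ q ∣ Nat.card ↥((thompsonSubgroup p G).map (toHol V)) := by
    intro h
    apply hq
    refine (h.trans ?_).trans (Subgroup.card_subgroup_dvd_card (thompsonSubgroup p G))
    exact Dvd.intro_left _ (card_map_mul V (thompsonSubgroup p G))
  obtain ⟨hp23, Ws, hWs1, hWs2, hWs3, Ψ, hΨs, hΨk⟩ :=
    diag_SL2 St h4 q Xi.range hXq' hXV hXH hXQ hq' hH1
  refine ⟨hp23, ?_⟩
  have hXp : IsPGroup q X := by
    intro α
    exact ⟨1, by rw [pow_one]; exact Subtype.ext (hXq α.1 α.2)⟩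
  have hCq : ¬ q ∣ Nat.card ↥(Subgroup.centralizer (V : Set G)) :=
    fun h => hq (h.trans (Subgroup.card_subgroup_dvd_card _))
  have hCX : ∀ α ∈ X, ∀ c ∈ Subgroup.centralizer (V : Set G),
      α c ∈ Subgroup.centralizer (V : Set G) := by
    intro α _ c hc
    rw [Subgroup.mem_centralizer_iff]
    intro v hv
    have hv' : α⁻¹ v ∈ V := hVX α⁻¹ v hv
    have h5 := Subgroup.mem_centralizer_iff.mp hc _ hv'
    have h6 : α (α⁻¹ v) = v := MulAut.apply_inv_self _ α v
    calc v * α c = α (α⁻¹ v) * α c := by rw [h6]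
      _ = α (α⁻¹ v * c) := by rw [map_mul]
      _ = α (c * α⁻¹ v) := by rw [h5]
      _ = α c * v := by rw [map_mul, h6]
  -- the plane
  obtain ⟨Wv, hWv⟩ : ∃ Wv : Subgroup V, Wv = Ws.comap (SemidirectProduct.inl : V →* Hol V) :=
    ⟨_, rfl⟩
  have hmemWv : ∀ v : V, v ∈ Wv ↔ (SemidirectProduct.inl v : Hol V) ∈ Ws := by
    intro v; rw [hWv]; exact Subgroup.mem_comap
  have hWsmap : Wv.map (SemidirectProduct.inl : V →* Hol V) = Ws := by
    rw [hWv]
    exact Subgroup.map_comap_eq_self (hWs1.trans inf_le_left)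
  let Fix : Subgroup G :=
    { carrier := {g | ∀ α ∈ X, α g = g}
      mul_mem' := by
        intro a b ha hb α hα
        rw [map_mul, ha α hα, hb α hα]
      one_mem' := fun α _ => map_one α
      inv_mem' := by
        intro a ha α hα
        rw [map_inv, ha α hα] }
  obtain ⟨D, hD⟩ : ∃ D : Subgroup G, D = Fix ⊓ ((thompsonSubgroup p G).map (toHol V)).comap (toHol V) :=
    ⟨_, rfl⟩
  have hDM : ∀ d ∈ D, toHol V d ∈ (thompsonSubgroup p G).map (toHol V) ⊓
      Subgroup.centralizer (Xi.range : Set (Hol V)) := by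
    intro d hd
    rw [hD] at hd
    refine ⟨hd.2, ?_⟩
    show toHol V d ∈ Subgroup.centralizer (Xi.range : Set (Hol V))
    rw [Subgroup.mem_centralizer_iff]
    rintro _ ⟨α, rfl⟩
    have h5 := hXi α d
    rw [hd.1 α.1 α.2] at h5
    calc Xi α * toHol V d = (Xi α * toHol V d * (Xi α)⁻¹) * Xi α := by group
      _ = _ := by rw [h5]
  refine ⟨Wv.map V.subtype, D, ?_, ?_, ?_, ?_, ?_, ?_⟩
  · rintro _ ⟨v, hv, rfl⟩ α hα
    have h5 := (hWs1 ((hmemWv v).mp hv)).2
    have h6 := Subgroup.mem_centralizer_iff.mp h5 (Xi ⟨α, hα⟩) ⟨_, rfl⟩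
    have h7 := hXiV ⟨α, hα⟩ v
    rw [h6, mul_inv_cancel_right] at h7
    exact (congrArg Subtype.val (SemidirectProduct.inl_injective h7)).symm
  · intro d hd α hα
    rw [hD] at hd
    exact hd.1 α hα
  · exact Helper5.elemAb_of_le (Subgroup.map_subtype_le _) hVe
  · rw [Subgroup.card_map_of_injective V.subtype_injective, ← hWs2, ← hWsmap,
      Subgroup.card_map_of_injective SemidirectProduct.inl_injective]
  · apply le_normalizer_of_conj_mem
    rintro d hd _ ⟨v, hv, rfl⟩
    have h5 := (Subgroup.mem_normalizer_iff.mp (hWs3 (hDM d hd)) _).mp ((hmemWv v).mp hv)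
    rw [toHol_conj] at h5
    exact ⟨_, (hmemWv _).mpr h5, MulAut.conjNormal_apply d v⟩
  · refine ⟨Ψ.comp (MonoidHom.codRestrict ((toHol V).comp D.subtype) _ (fun d => hDM d.1 d.2)),
      ?_, ?_⟩
    · intro s
      obtain ⟨⟨c, ⟨j, hj, rfl⟩, hx2⟩, hc⟩ := hΨs s
      have hjα : ∀ α ∈ X, j⁻¹ * α j ∈ Subgroup.centralizer (V : Set G) := by
        intro α hα
        rw [← hker, MonoidHom.mem_ker, map_mul, map_inv, ← hXi ⟨α, hα⟩ j]
        have h6 := Subgroup.mem_centralizer_iff.mp hx2 (Xi ⟨α, hα⟩) ⟨_, rfl⟩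
        rw [h6]
        group
      obtain ⟨g, hg1, hg2⟩ := lift_fixed q X hXp _ hCq hCX j hjα
      rw [← hker, MonoidHom.mem_ker, map_mul, map_inv] at hg1
      have hgj : toHol V g = toHol V j := (inv_mul_eq_one.mp hg1).symm
      have hgD : g ∈ D := by
        rw [hD]
        refine ⟨hg2, ?_⟩
        show toHol V g ∈ (thompsonSubgroup p G).map (toHol V)
        rw [hgj]
        exact Subgroup.mem_map_of_mem _ hj
      refine ⟨⟨g, hgD⟩, ?_⟩
      rw [← hc]
      show Ψ _ = Ψ _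
      congr 1
      exact Subtype.ext hgj
    · intro d
      show Ψ _ = 1 ↔ _
      rw [hΨk]
      show toHol V d.1 ∈ Subgroup.centralizer (Ws : Set (Hol V)) ↔ _
      rw [Subgroup.mem_centralizer_iff, Subgroup.mem_centralizer_iff]
      constructor
      · rintro h _ ⟨v, hv, rfl⟩
        have h5 := h _ ((hmemWv v).mp hv)
        have h6 := toHol_conj V d.1 v
        rw [← h5, mul_inv_cancel_right] at h6
        have h7 := congrArg Subtype.val (SemidirectProduct.inl_injective h6)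
        rw [MulAut.conjNormal_apply] at h7
        show v.1 * d.1 = d.1 * v.1
        calc v.1 * d.1 = (d.1 * v.1 * d.1⁻¹) * d.1 := by rw [← h7]
          _ = _ := by group
      · intro h y hy
        rw [← hWsmap] at hy
        obtain ⟨v, hv, rfl⟩ := hy
        have h5 := h v.1 ⟨v, hv, rfl⟩
        have h6 := toHol_conj V d.1 v
        have h7 : (MulAut.conjNormal d.1 v : V) = v := by
          apply Subtype.ext
          rw [MulAut.conjNormal_apply, ← h5]
          group
        rw [h7] at h6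
        calc SemidirectProduct.inl v * toHol V d.1
            = (toHol V d.1 * SemidirectProduct.inl v * (toHol V d.1)⁻¹) * toHol V d.1 := by rw [h6]
          _ = _ := by group

end Cfsg.Agent.Lib.Helper4.CoprimeBlk
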