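import Mathlib

set_option autoImplicit false

namespace Cfsg.Agent.Lib.Helper4

universe u

/-- Normalizers grow in nilpotent subgroups. -/
theorem exists_normalizer_of_nilpotent {G : Type u} [Group G] (H D : Subgroup G) [Group.IsNilpotent H]
    (hD : D < H) : ∃ x ∈ H, x ∈ Subgroup.normalizer (D : Set G) ∧ x ∉ D := by
  have nc := Group.normalizerCondition_of_isNilpotent (G := H)
  have h1 : D.subgroupOf H < ⊤ := by
    rw [lt_top_iff_ne_top]
    intro h
    rw [Subgroup.subgroupOf_eq_top] at h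
    exact hD.not_ge h
  have h2 := nc _ h1
  obtain ⟨x, hx, hxD⟩ := SetLike.exists_of_lt h2
  refine ⟨x, x.2, ?_, fun h => hxD (Subgroup.mem_subgroupOf.mpr h)⟩
  rw [Subgroup.mem_normalizer_iff] at hx ⊢
  intro y
  constructor
  · intro hy
    have := (hx ⟨y, hD.le hy⟩).mp (Subgroup.mem_subgroupOf.mpr hy)
    exact Subgroup.mem_subgroupOf.mp this
  · intro hy
    have hyH : y ∈ H := by
      have := hD.le hy
      have h3 : y = (x : G)⁻¹ * ((x : G) * y * (x : G)⁻¹) * (x : G) := by group
      rw [h3]; exact mul_mem (mul_mem (inv_mem x.2) this) x.2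
    exact Subgroup.mem_subgroupOf.mp ((hx ⟨y, hyH⟩).mpr (Subgroup.mem_subgroupOf.mpr hy))

end Cfsg.Agent.Lib.Helper4
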